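/-
helper17: supplement to `AbIdeal` - one table for all shapes of an abelian ideal (the commutator structure as an
explicit list of edges `γ → δ`), so that the big table over the positive roots is checked by the kernel once.
-/
import Cfsg.Agent.Helper17.AbIdeal

set_option autoImplicit false

namespace Cfsg.Agent.Helper17

open Cfsg Cfsg.Lie Cfsg.Agent.Helper36 Cfsg.Agent.Helper18 Cfsg.Agent.Helper38

section AbIdeal2

variable {D : ChevalleyDatum}

/-- The condition on a positive root `q` and a root `γ` of `l`: either `x_q` centralises `x_γ`, or the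
commutator is a single root element of a root `δ` of `l`, and `(γ, δ)` is one of the listed edges. -/
def AbiEdge (D : ChevalleyDatum) (l : List ℕ) (E : List (ℕ × ℕ)) (q γ : ℕ) : Prop :=
  q = γ ∨ (γ ≠ q ∧ γ ≠ D.neg q ∧ (D.commTerms q γ = [] ∨
    (D.commTerms q γ = [(((D.commTerms q γ).headD (0, 0, 0, 0)).1,
        ((D.commTerms q γ).headD (0, 0, 0, 0)).2.1, 1, 1)] ∧
      ((D.commTerms q γ).headD (0, 0, 0, 0)).1 ∈ l ∧
      (γ, ((D.commTerms q γ).headD (0, 0, 0, 0)).1) ∈ E)))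

instance (D : ChevalleyDatum) (l : List ℕ) (E : List (ℕ × ℕ)) (q γ : ℕ) :
    Decidable (AbiEdge D l E q γ) := by
  unfold AbiEdge
  infer_instance

theorem abi_act_of_edge {l N Z : List ℕ} {E : List (ℕ × ℕ)} {q γ : ℕ} (h : AbiEdge D l E q γ)
    (hE : ∀ e ∈ E, e.2 ∈ N → e.1 ∈ Z) : AbiAct D l N Z q γ := by
  rcases h with h | ⟨h1, h2, h3 | ⟨h3, h4, h5⟩⟩
  · exact Or.inl h
  · exact Or.inr ⟨h1, h2, Or.inl h3⟩
  · exact Or.inr ⟨h1, h2, Or.inr ⟨h3, h4, fun hN => hE _ h5 hN⟩⟩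

theorem abi_act_of_edges {l N Z : List ℕ} {E : List (ℕ × ℕ)}
    (h : ∀ q ∈ D.posRoots, ∀ γ ∈ l, AbiEdge D l E q γ) (hE : ∀ e ∈ E, e.2 ∈ N → e.1 ∈ Z) :
    ∀ q, D.IsPosRoot q → ∀ γ ∈ l, AbiAct D l N Z q γ :=
  fun q hq γ hγ => abi_act_of_edge (h q (mem_posRoots.mpr hq) γ hγ) hE

end AbIdeal2

end Cfsg.Agent.Helper17
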