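/-
helper17: supplement to `AbIdeal` - a cheap proof of the orthogonality table `abiOrthOK D` for the simply laced
data: the pairing `abiPair` is invariant under the fundamental reflections because the coroot coordinates and
the Cartan integers transform linearly (row checks only; the naive table check needs far too much memory for
E7 and E8).
-/
import Cfsg.Agent.Helper17.AbIdeal2

set_option autoImplicit false

namespace Cfsg.Agent.Helper17

open Cfsg Cfsg.Lie Cfsg.Agent.Helper38

section AbIdeal3

variable {D : ChevalleyDatum}

/-- The `j`-th coordinate of the coroot of `x`. -/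
def abiCor (D : ChevalleyDatum) (x j : ℕ) : ℤ := (D.coroot.getD x #[]).getD j 0

theorem abi_list_sum_range (f : ℕ → ℤ) (n : ℕ) :
    ((List.range n).map f).sum = ∑ j ∈ Finset.range n, f j := by
  induction n with
  | zero => simp
  | succ n ih => rw [List.range_succ, List.map_append, List.sum_append, ih, Finset.sum_range_succ]; simp

theorem abiPair_eq (x y : ℕ) :
    abiPair D x y = ∑ j ∈ Finset.range D.rank, abiCor D x j * D.cartan j y := by
  unfold abiPair
  rw [abi_list_sum_range]
  rfl

/-- The coroot coordinates transform linearly under the fundamental reflections (simply laced types). -/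
def AbiCorRefl (D : ChevalleyDatum) : Prop :=
  ∀ i < D.rank, ∀ x < D.nroots, ∀ j < D.rank,
    abiCor D (D.reflectRoot i x) j = abiCor D x j - (if j = i then D.cartan i x else 0)

/-- The Cartan integers of a root are the combination of those of the fundamental roots. -/
def AbiCorSum (D : ChevalleyDatum) : Prop :=
  ∀ i < D.rank, ∀ x < D.nroots,
    ((List.range D.rank).map fun j => abiCor D x j * D.cartan j (D.simple i)).sum = D.cartan i x

def AbiCartanTwo (D : ChevalleyDatum) : Prop := ∀ i < D.rank, D.cartan i (D.simple i) = 2

instance (D : ChevalleyDatum) : Decidable (AbiCorRefl D) := by unfold AbiCorRefl; infer_instance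
instance (D : ChevalleyDatum) : Decidable (AbiCorSum D) := by unfold AbiCorSum; infer_instance
instance (D : ChevalleyDatum) : Decidable (AbiCartanTwo D) := by unfold AbiCartanTwo; infer_instance

/-- The pairing is invariant under the fundamental reflections. -/
theorem abiPair_refl (hC : CReflOK D) (hR : AbiCorRefl D) (hS : AbiCorSum D) (hT : AbiCartanTwo D)
    {i : ℕ} (hi : i < D.rank) {x y : ℕ} (hx : x < D.nroots) (hy : y < D.nroots) :
    abiPair D (D.reflectRoot i x) (D.reflectRoot i y) = abiPair D x y := by
  rw [abiPair_eq, abiPair_eq]
  have hS' : ∑ j ∈ Finset.range D.rank, abiCor D x j * D.cartan j (D.simple i) = D.cartan i x := by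
    rw [← abi_list_sum_range]
    exact hS i hi x hx
  have e1 : ∑ j ∈ Finset.range D.rank, abiCor D (D.reflectRoot i x) j * D.cartan j (D.reflectRoot i y) =
      ∑ j ∈ Finset.range D.rank, ((abiCor D x j * D.cartan j y -
        D.cartan i y * (abiCor D x j * D.cartan j (D.simple i))) -
        (if j = i then D.cartan i x * (D.cartan j y - D.cartan i y * D.cartan j (D.simple i)) else 0)) := by
    apply Finset.sum_congr rfl
    intro j hj
    have hj' : j < D.rank := Finset.mem_range.mp hj
    rw [hR i hi x hx j hj', hC i hi j hj' y hy]
    by_cases hji : j = i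
    · rw [if_pos hji, if_pos hji]; ring
    · rw [if_neg hji, if_neg hji]; ring
  rw [e1, Finset.sum_sub_distrib, Finset.sum_sub_distrib, ← Finset.mul_sum, hS',
    Finset.sum_ite_eq' (Finset.range D.rank) i, if_pos (Finset.mem_range.mpr hi), hT i hi]
  ring

/-- The orthogonality table follows from the linear transformation rules. -/
theorem abiOrthOK_of_lin (hC : CReflOK D) (hR : AbiCorRefl D) (hS : AbiCorSum D) (hT : AbiCartanTwo D) :
    abiOrthOK D = true := by
  unfold abiOrthOK
  rw [List.all_eq_true]
  intro i hi
  rw [List.all_eq_true]
  intro x hx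
  rw [List.all_eq_true]
  intro y hy
  rw [List.mem_range] at hi hx hy
  rw [Bool.or_eq_true]
  by_cases h : abiPair D x y = 0
  · right
    rw [beq_iff_eq, abiPair_refl hC hR hS hT hi hx hy]
    exact h
  · left
    rw [bne_iff_ne]
    exact h

end AbIdeal3

end Cfsg.Agent.Helper17
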