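/-
helper17: supplement to `AbIdeal3` - the coroot reflection rule `AbiCorRefl D` from the inverse Cartan matrix
(coroot coordinates as combinations of the Cartan integers) and the reflection rule of the Cartan integers;
no evaluation of `reflectRoot` in the table checks.
-/
import Cfsg.Agent.Helper17.AbIdeal3

set_option autoImplicit false

namespace Cfsg.Agent.Helper17

open Cfsg Cfsg.Lie Cfsg.Agent.Helper36 Cfsg.Agent.Helper38

section AbIdeal4

variable {D : ChevalleyDatum}

/-- An integer matrix given by its rows. -/
def abiMat (tab : List (List ℤ)) (j k : ℕ) : ℤ := (tab.getD j []).getD k 0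

/-- `d` times the coroot coordinates are the combinations of the Cartan integers with the matrix `G`. -/
def AbiCorG (D : ChevalleyDatum) (tab : List (List ℤ)) (d : ℤ) : Prop :=
  ∀ x < D.nroots, ∀ j < D.rank,
    d * abiCor D x j = ((List.range D.rank).map fun k => abiMat tab j k * D.cartan k x).sum

/-- `G` times the Cartan matrix is `d`. -/
def AbiGInv (D : ChevalleyDatum) (tab : List (List ℤ)) (d : ℤ) : Prop :=
  ∀ j < D.rank, ∀ i < D.rank,
    ((List.range D.rank).map fun k => abiMat tab j k * D.cartan k (D.simple i)).sum =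
      if j = i then d else 0

instance (D : ChevalleyDatum) (tab : List (List ℤ)) (d : ℤ) : Decidable (AbiCorG D tab d) := by
  unfold AbiCorG; infer_instance
instance (D : ChevalleyDatum) (tab : List (List ℤ)) (d : ℤ) : Decidable (AbiGInv D tab d) := by
  unfold AbiGInv; infer_instance

theorem abiCorRefl_of_G (hC : CReflOK D) (W : WFacts D) (tab : List (List ℤ)) {d : ℤ} (hd : d ≠ 0)
    (hG : AbiCorG D tab d) (hGA : AbiGInv D tab d) : AbiCorRefl D := by
  intro i hi x hx j hj
  apply mul_left_cancel₀ hd
  have h1 := hG (D.reflectRoot i x) (W.refl_lt i hi x hx) j hj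
  have h2 := hG x hx j hj
  have h3 := hGA j hj i hi
  rw [abi_list_sum_range] at h1 h2 h3
  have e1 : ∑ k ∈ Finset.range D.rank, abiMat tab j k * D.cartan k (D.reflectRoot i x) =
      ∑ k ∈ Finset.range D.rank, (abiMat tab j k * D.cartan k x -
        D.cartan i x * (abiMat tab j k * D.cartan k (D.simple i))) := by
    apply Finset.sum_congr rfl
    intro k hk
    rw [hC i hi k (Finset.mem_range.mp hk) x hx]
    ring
  rw [h1, e1, Finset.sum_sub_distrib, ← Finset.mul_sum, h3, ← h2]
  by_cases hji : j = i
  · rw [if_pos hji, if_pos hji]; ring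
  · rw [if_neg hji, if_neg hji]; ring

end AbIdeal4

end Cfsg.Agent.Helper17
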