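/-
helper17: fusion of the diagonal subgroup `H` of a Chevalley group is controlled by the monomial subgroup `N`
(S1046), from the Bruhat normal form (the statement of S1100, taken as hypotheses) and the relations `BRel`.
-/
import Cfsg.Agent.Helper36.ChevBN
import Cfsg.Agent.Helper17.ChevTorus

set_option autoImplicit false

namespace Cfsg.Agent.Helper17

open Cfsg Cfsg.Lie Cfsg.Agent.Helper36

section

variable {D : ChevalleyDatum} {F : Type*} [Field F] {η : ℕ → ℕ → ℤ}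

/-- The generators of `U_n⁻`: the `x_r(t)`, `r` positive with `n X_r n⁻¹ ≤ V`. -/
def unGens (D : ChevalleyDatum) (F : Type*) [Field F] (n : GL D.Idx F) : Set (GL D.Idx F) :=
  {x : GL D.Idx F | ∃ (r : ℕ) (t : F), D.IsPosRoot r ∧
    (D.rootSubgroup F r).map (MulAut.conj n).toMonoidHom ≤ D.negUnipotent F ∧
    (x : Matrix D.Idx D.Idx F) = D.x F r t}

/-- The torus is commutative. -/
theorem torus_comm (D : ChevalleyDatum) {a b : GL D.Idx F} (ha : a ∈ torus D F) (hb : b ∈ torus D F) :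
    a * b = b * a := by
  obtain ⟨z, hz⟩ := mem_torus.mp ha
  obtain ⟨z', hz'⟩ := mem_torus.mp hb
  apply Units.ext
  rw [Units.val_mul, Units.val_mul, hz, hz', charDiag_mul, charDiag_mul]
  congr 1
  funext s
  rw [mul_comm]

/-- `H` normalises `U_n⁻`. -/
theorem conj_mem_closure_unGens (R : BRel D F η) (n : GL D.Idx F) {h : GL D.Idx F}
    (hh : h ∈ D.diagonalSubgroup F) {u : GL D.Idx F} (hu : u ∈ Subgroup.closure (unGens D F n)) :
    h * u * h⁻¹ ∈ Subgroup.closure (unGens D F n) := by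
  refine conj_mem_closure (unGens D F n) (Subgroup.closure (unGens D F n)) h ?_ u hu
  rintro x ⟨r, t, hr, hle, hx⟩
  obtain ⟨c, hc⟩ := R.hx h hh r hr.1
  apply Subgroup.subset_closure
  refine ⟨r, c * t, hr, hle, ?_⟩
  rw [eq_xGL R.xadd hx, hc t, xGL_val]

/-- Two elements of `H` conjugate in `G` are conjugate by an element of `N`. -/
theorem conj_diag_of_bruhat (R : BRel D F η)
    (hcomm : ∀ a ∈ D.diagonalSubgroup F, ∀ b ∈ D.diagonalSubgroup F, a * b = b * a)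
    (hex : ∀ g ∈ D.group F, ∃ b ∈ D.borelSubgroup F, ∃ n ∈ D.monomialSubgroup F,
      ∃ u ∈ Subgroup.closure (unGens D F n), g = b * n * u)
    (huniq : ∀ (b b' n n' u u' : GL D.Idx F), b ∈ D.borelSubgroup F → b' ∈ D.borelSubgroup F →
      n ∈ D.monomialSubgroup F → n' ∈ D.monomialSubgroup F →
      u ∈ Subgroup.closure (unGens D F n) → u' ∈ Subgroup.closure (unGens D F n') →
      b * n * u = b' * n' * u' → n⁻¹ * n' ∈ D.diagonalSubgroup F ∧ (n = n' → b = b' ∧ u = u'))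
    (h₁ h₂ g : GL D.Idx F) (h1 : h₁ ∈ D.diagonalSubgroup F) (h2 : h₂ ∈ D.diagonalSubgroup F)
    (hg : g ∈ D.group F) (hc : g * h₁ * g⁻¹ = h₂) :
    ∃ n ∈ D.monomialSubgroup F, n * h₁ * n⁻¹ = h₂ := by
  obtain ⟨b, hb, n, hn, u, hu, rfl⟩ := hex g hg
  refine ⟨n, hn, ?_⟩
  have hh' : n * h₁ * n⁻¹ ∈ D.diagonalSubgroup F := R.N_conj_H n hn h₁ h1
  have hu' : h₁⁻¹ * u * h₁ ∈ Subgroup.closure (unGens D F n) := by
    have := conj_mem_closure_unGens R n (inv_mem h1) hu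
    rwa [inv_inv] at this
  have e : b * (n * h₁ * n⁻¹) * n * (h₁⁻¹ * u * h₁) = h₂ * b * n * u := by
    have e1 : b * n * u * h₁ = h₂ * (b * n * u) := by rw [← hc]; group
    calc b * (n * h₁ * n⁻¹) * n * (h₁⁻¹ * u * h₁) = b * n * u * h₁ := by group
      _ = h₂ * (b * n * u) := e1
      _ = h₂ * b * n * u := by group
  obtain ⟨hbb, -⟩ := (huniq _ _ n n _ _ (mul_mem hb (BRel.H_le_B D F hh'))
    (mul_mem (BRel.H_le_B D F h2) hb) hn hn hu' hu e).2 rfl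
  have hb' : b ∈ ((D.posUnipotent F ⊔ D.diagonalSubgroup F : Subgroup (GL D.Idx F)) :
      Set (GL D.Idx F)) := hb
  rw [Subgroup.coe_mul_of_right_le_normalizer_left _ _ R.hU] at hb'
  obtain ⟨u₀, hu₀, h₀, hh₀, rfl⟩ := hb'
  have hconj : h₂ * u₀ * h₂⁻¹ ∈ D.posUnipotent F :=
    (Subgroup.mem_normalizer_iff.mp (R.hU h2) u₀).mp hu₀
  have key : (h₂ * u₀ * h₂⁻¹)⁻¹ * u₀ = h₂ * h₀ * (h₀ * (n * h₁ * n⁻¹))⁻¹ := by
    rw [eq_mul_inv_iff_mul_eq]
    calc (h₂ * u₀ * h₂⁻¹)⁻¹ * u₀ * (h₀ * (n * h₁ * n⁻¹))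
        = (h₂ * u₀ * h₂⁻¹)⁻¹ * (u₀ * h₀ * (n * h₁ * n⁻¹)) := by group
      _ = (h₂ * u₀ * h₂⁻¹)⁻¹ * (h₂ * (u₀ * h₀)) := by rw [hbb]
      _ = h₂ * h₀ := by group
  have hmem : (h₂ * u₀ * h₂⁻¹)⁻¹ * u₀ ∈ D.posUnipotent F ⊓ D.diagonalSubgroup F := by
    refine Subgroup.mem_inf.mpr ⟨Subgroup.mul_mem _ (Subgroup.inv_mem _ hconj) hu₀, ?_⟩
    rw [key]
    exact Subgroup.mul_mem _ (Subgroup.mul_mem _ h2 hh₀)
      (Subgroup.inv_mem _ (Subgroup.mul_mem _ hh₀ hh'))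
  rw [R.uh, Subgroup.mem_bot, key, mul_inv_eq_one] at hmem
  rw [hcomm _ hh₀ _ hh'] at hmem
  exact (mul_right_cancel hmem).symm

end

end Cfsg.Agent.Helper17
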