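/-
helper17: generation of a Chevalley group by the monomial subgroup `N` and few root subgroups.

* `ConjSimple D i k`: the fundamental roots `p_i`, `p_k` are conjugate under the Weyl group (by an explicit word);
* `SimpleConj D`: fundamental roots of the same length (`isLong`) are conjugate (table check, all seven data);
* `AllConj D`: all fundamental roots are conjugate (D₄, E₆, E₇, E₈);
* `LongGen D c`: two short roots `r`, `s` with `[x_r(t), x_s(u)] = x_k(c t u)`, `k` long (B₂, F₄: `c = 2`; G₂: `c = 3`);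
* `group_le_of_simple`: a subgroup containing `N` and the root subgroups of all fundamental roots contains the group.
-/
import Cfsg.Agent.Helper36.ChevN
import Cfsg.Agent.Helper36.ChevBN
import Cfsg.Agent.Helper17.ChevPerfect
import Cfsg.Prelude.Def_ChevAutomorphisms
import Cfsg.Prelude.Def_LieChev
import Cfsg.Prelude.Def_ChevB2
import Cfsg.Prelude.Def_ChevD4

set_option autoImplicit false

namespace Cfsg.Agent.Helper17

open Cfsg Cfsg.Lie Cfsg.Agent.Helper36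

/-- The Boolean test: `L` is a word in the fundamental reflections taking the root `s` to the root `r`. -/
def reachAt (D : ChevalleyDatum) (L : List ℕ) (s r : ℕ) : Bool :=
  L.all (fun j => decide (j < D.rank)) && (wW D L s == r)

theorem reachAt_spec {D : ChevalleyDatum} {L : List ℕ} {s r : ℕ} (h : reachAt D L s r = true) :
    ValidW D L ∧ wW D L s = r := by
  unfold reachAt at h
  rw [Bool.and_eq_true, List.all_eq_true, beq_iff_eq] at h
  exact ⟨fun j hj => of_decide_eq_true (h.1 j hj), h.2⟩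

/-- The fundamental roots `p_i` and `p_k` are conjugate under the Weyl group. -/
def ConjSimple (D : ChevalleyDatum) (i k : ℕ) : Prop :=
  ∃ L, ValidW D L ∧ wW D L (D.simple i) = D.simple k

/-- Fundamental roots of the same length are conjugate. -/
def SimpleConj (D : ChevalleyDatum) : Prop :=
  ∀ i k, i < D.rank → k < D.rank → D.isLong (D.simple i) = D.isLong (D.simple k) → ConjSimple D i k

/-- All fundamental roots are conjugate. -/
def AllConj (D : ChevalleyDatum) : Prop := ∀ i k, i < D.rank → k < D.rank → ConjSimple D i k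

def allConjOK (D : ChevalleyDatum) (cert : List (List (List ℕ))) : Bool :=
  (List.range D.rank).all fun i => (List.range D.rank).all fun k =>
    reachAt D ((cert.getD i []).getD k []) (D.simple i) (D.simple k)

def lenConjOK (D : ChevalleyDatum) (cert : List (List (List ℕ))) : Bool :=
  (List.range D.rank).all fun i => (List.range D.rank).all fun k =>
    (D.isLong (D.simple i) != D.isLong (D.simple k)) ||
      reachAt D ((cert.getD i []).getD k []) (D.simple i) (D.simple k)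

theorem allConj_of_OK {D : ChevalleyDatum} {cert : List (List (List ℕ))} (h : allConjOK D cert = true) :
    AllConj D := by
  intro i k hi hk
  unfold allConjOK at h
  rw [List.all_eq_true] at h
  have h1 := h i (List.mem_range.mpr hi)
  rw [List.all_eq_true] at h1
  obtain ⟨h2, h3⟩ := reachAt_spec (h1 k (List.mem_range.mpr hk))
  exact ⟨_, h2, h3⟩

theorem simpleConj_of_OK {D : ChevalleyDatum} {cert : List (List (List ℕ))} (h : lenConjOK D cert = true) :
    SimpleConj D := by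
  intro i k hi hk hlen
  unfold lenConjOK at h
  rw [List.all_eq_true] at h
  have h1 := h i (List.mem_range.mpr hi)
  rw [List.all_eq_true] at h1
  have h2 := h1 k (List.mem_range.mpr hk)
  rw [Bool.or_eq_true] at h2
  rcases h2 with h2 | h2
  · rw [hlen] at h2
    simp at h2
  · obtain ⟨h3, h4⟩ := reachAt_spec h2
    exact ⟨_, h3, h4⟩

theorem AllConj.simpleConj {D : ChevalleyDatum} (h : AllConj D) : SimpleConj D :=
  fun i k hi hk _ => h i k hi hk

def conjCertG2 : List (List (List ℕ)) := [[[], []], [[], []]]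
def conjCertB2 : List (List (List ℕ)) := [[[], []], [[], []]]
def conjCertF4 : List (List (List ℕ)) :=
  [[[], [0, 1], [], []], [[1, 0], [], [], []], [[], [], [], [2, 3]], [[], [], [3, 2], []]]
def conjCertD4 : List (List (List ℕ)) :=
  [[[], [0, 1], [1, 0, 2, 1], [1, 0, 3, 1]], [[1, 0], [], [1, 2], [1, 3]], [[1, 0, 2, 1], [2, 1], [], [1, 2, 3, 1]],
    [[1, 0, 3, 1], [3, 1], [1, 2, 3, 1], []]]
def conjCertE6 : List (List (List ℕ)) :=
  [[[], [3, 1, 2, 0, 3, 2], [0, 2], [2, 0, 3, 2], [3, 4, 2, 0, 3, 2], [4, 5, 3, 4, 2, 0, 3, 2]],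
    [[2, 0, 3, 1, 2, 3], [], [3, 1, 2, 3], [1, 3], [3, 1, 4, 3], [4, 5, 3, 1, 4, 3]],
    [[2, 0], [3, 1, 2, 3], [], [2, 3], [3, 2, 4, 3], [4, 5, 3, 2, 4, 3]],
    [[2, 0, 3, 2], [3, 1], [3, 2], [], [3, 4], [4, 3, 5, 4]],
    [[2, 0, 3, 2, 4, 3], [3, 1, 4, 3], [3, 2, 4, 3], [4, 3], [], [4, 5]],
    [[2, 0, 3, 2, 4, 3, 5, 4], [3, 1, 4, 3, 5, 4], [3, 2, 4, 3, 5, 4], [4, 3, 5, 4], [5, 4], []]]
def conjCertE7 : List (List (List ℕ)) :=
  [[[], [3, 1, 2, 0, 3, 2], [0, 2], [2, 0, 3, 2], [3, 4, 2, 0, 3, 2], [4, 5, 3, 4, 2, 0, 3, 2],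
      [5, 6, 4, 5, 3, 4, 2, 0, 3, 2]],
    [[2, 0, 3, 1, 2, 3], [], [3, 1, 2, 3], [1, 3], [3, 1, 4, 3], [4, 5, 3, 1, 4, 3], [5, 6, 4, 5, 3, 1, 4, 3]],
    [[2, 0], [3, 1, 2, 3], [], [2, 3], [3, 2, 4, 3], [4, 5, 3, 2, 4, 3], [5, 6, 4, 5, 3, 2, 4, 3]],
    [[2, 0, 3, 2], [3, 1], [3, 2], [], [3, 4], [4, 3, 5, 4], [5, 6, 4, 3, 5, 4]],
    [[2, 0, 3, 2, 4, 3], [3, 1, 4, 3], [3, 2, 4, 3], [4, 3], [], [4, 5], [5, 4, 6, 5]],
    [[2, 0, 3, 2, 4, 3, 5, 4], [3, 1, 4, 3, 5, 4], [3, 2, 4, 3, 5, 4], [4, 3, 5, 4], [5, 4], [], [5, 6]],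
    [[2, 0, 3, 2, 4, 3, 5, 4, 6, 5], [3, 1, 4, 3, 5, 4, 6, 5], [3, 2, 4, 3, 5, 4, 6, 5], [4, 3, 5, 4, 6, 5], [5, 4, 6, 5],
      [6, 5], []]]
def conjCertE8 : List (List (List ℕ)) :=
  [[[], [3, 1, 2, 0, 3, 2], [0, 2], [2, 0, 3, 2], [3, 4, 2, 0, 3, 2], [4, 5, 3, 4, 2, 0, 3, 2],
      [5, 6, 4, 5, 3, 4, 2, 0, 3, 2], [6, 7, 5, 6, 4, 5, 3, 4, 2, 0, 3, 2]],
    [[2, 0, 3, 1, 2, 3], [], [3, 1, 2, 3], [1, 3], [3, 1, 4, 3], [4, 5, 3, 1, 4, 3], [5, 6, 4, 5, 3, 1, 4, 3],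
      [6, 7, 5, 6, 4, 5, 3, 1, 4, 3]],
    [[2, 0], [3, 1, 2, 3], [], [2, 3], [3, 2, 4, 3], [4, 5, 3, 2, 4, 3], [5, 6, 4, 5, 3, 2, 4, 3],
      [6, 7, 5, 6, 4, 5, 3, 2, 4, 3]],
    [[2, 0, 3, 2], [3, 1], [3, 2], [], [3, 4], [4, 3, 5, 4], [5, 6, 4, 3, 5, 4], [6, 7, 5, 6, 4, 3, 5, 4]],
    [[2, 0, 3, 2, 4, 3], [3, 1, 4, 3], [3, 2, 4, 3], [4, 3], [], [4, 5], [5, 4, 6, 5], [6, 7, 5, 4, 6, 5]],
    [[2, 0, 3, 2, 4, 3, 5, 4], [3, 1, 4, 3, 5, 4], [3, 2, 4, 3, 5, 4], [4, 3, 5, 4], [5, 4], [], [5, 6], [6, 5, 7, 6]],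
    [[2, 0, 3, 2, 4, 3, 5, 4, 6, 5], [3, 1, 4, 3, 5, 4, 6, 5], [3, 2, 4, 3, 5, 4, 6, 5], [4, 3, 5, 4, 6, 5], [5, 4, 6, 5],
      [6, 5], [], [6, 7]],
    [[2, 0, 3, 2, 4, 3, 5, 4, 6, 5, 7, 6], [3, 1, 4, 3, 5, 4, 6, 5, 7, 6], [3, 2, 4, 3, 5, 4, 6, 5, 7, 6],
      [4, 3, 5, 4, 6, 5, 7, 6], [5, 4, 6, 5, 7, 6], [6, 5, 7, 6], [7, 6], []]]

theorem lenConjOK_G2 : lenConjOK chevG2 conjCertG2 = true := by decide +kernel
theorem lenConjOK_B2 : lenConjOK chevB2 conjCertB2 = true := by decide +kernel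
theorem lenConjOK_F4 : lenConjOK chevF4 conjCertF4 = true := by decide +kernel
theorem allConjOK_D4 : allConjOK chevD4 conjCertD4 = true := by decide +kernel
theorem allConjOK_E6 : allConjOK chevE6 conjCertE6 = true := by decide +kernel
theorem allConjOK_E7 : allConjOK chevE7 conjCertE7 = true := by decide +kernel
theorem allConjOK_E8 : allConjOK chevE8 conjCertE8 = true := by decide +kernel

theorem simpleConj_of_mem {D : ChevalleyDatum}
    (hD : D ∈ [chevG2, chevB2, chevD4, chevF4, chevE6, chevE7, chevE8]) : SimpleConj D := by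
  simp only [List.mem_cons, List.not_mem_nil, or_false] at hD
  rcases hD with rfl | rfl | rfl | rfl | rfl | rfl | rfl
  · exact simpleConj_of_OK lenConjOK_G2
  · exact simpleConj_of_OK lenConjOK_B2
  · exact (allConj_of_OK allConjOK_D4).simpleConj
  · exact simpleConj_of_OK lenConjOK_F4
  · exact (allConj_of_OK allConjOK_E6).simpleConj
  · exact (allConj_of_OK allConjOK_E7).simpleConj
  · exact (allConj_of_OK allConjOK_E8).simpleConj

theorem allConj_of_mem {D : ChevalleyDatum}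
    (hD : D ∈ [chevD4, chevE6, chevE7, chevE8]) : AllConj D := by
  simp only [List.mem_cons, List.not_mem_nil, or_false] at hD
  rcases hD with rfl | rfl | rfl | rfl
  · exact allConj_of_OK allConjOK_D4
  · exact allConj_of_OK allConjOK_E6
  · exact allConj_of_OK allConjOK_E7
  · exact allConj_of_OK allConjOK_E8

/-- Two short roots `r`, `s` (conjugate to short fundamental roots) whose commutator is a single term
`x_u(c t u)` with `u` conjugate to a long fundamental root. -/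
def LongGen (D : ChevalleyDatum) (c : ℤ) : Prop :=
  ∃ (r s u : ℕ) (L1 : List ℕ) (k1 : ℕ) (L2 : List ℕ) (k2 : ℕ) (L3 : List ℕ) (k3 : ℕ),
    (r < D.nroots ∧ s < D.nroots ∧ s ≠ r ∧ s ≠ D.neg r ∧ D.commTerms r s = [(u, c, 1, 1)]) ∧
    (ValidW D L1 ∧ wW D L1 (D.simple k1) = r) ∧ (k1 < D.rank ∧ D.isLong (D.simple k1) = false) ∧
    (ValidW D L2 ∧ wW D L2 (D.simple k2) = s) ∧ (k2 < D.rank ∧ D.isLong (D.simple k2) = false) ∧
    (ValidW D L3 ∧ wW D L3 (D.simple k3) = u) ∧ (k3 < D.rank ∧ D.isLong (D.simple k3) = true)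

def longGenAt (D : ChevalleyDatum) (c : ℤ) (r s u : ℕ) (L1 : List ℕ) (k1 : ℕ) (L2 : List ℕ) (k2 : ℕ)
    (L3 : List ℕ) (k3 : ℕ) : Bool :=
  cleanAt D u r s c &&
  reachAt D L1 (D.simple k1) r && (decide (k1 < D.rank) && !D.isLong (D.simple k1)) &&
  reachAt D L2 (D.simple k2) s && (decide (k2 < D.rank) && !D.isLong (D.simple k2)) &&
  reachAt D L3 (D.simple k3) u && (decide (k3 < D.rank) && D.isLong (D.simple k3))

theorem longGen_of_at {D : ChevalleyDatum} {c : ℤ} {r s u : ℕ} {L1 : List ℕ} {k1 : ℕ} {L2 : List ℕ} {k2 : ℕ}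
    {L3 : List ℕ} {k3 : ℕ} (h : longGenAt D c r s u L1 k1 L2 k2 L3 k3 = true) : LongGen D c := by
  unfold longGenAt at h
  simp only [Bool.and_eq_true, decide_eq_true_eq, Bool.not_eq_true'] at h
  obtain ⟨⟨⟨⟨⟨⟨h1, h2⟩, h3⟩, h4⟩, h5⟩, h6⟩, h7⟩ := h
  exact ⟨r, s, u, L1, k1, L2, k2, L3, k3, cleanAt_spec h1, reachAt_spec h2, h3, reachAt_spec h4, h5,
    reachAt_spec h6, h7⟩

theorem longGen_B2 : LongGen chevB2 2 :=
  longGen_of_at (r := 1) (s := 2) (u := 0) (L1 := [1, 0]) (k1 := 0) (L2 := [0]) (k2 := 0)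
    (L3 := [0, 1]) (k3 := 1) (by decide +kernel)

theorem longGen_F4 : LongGen chevF4 2 :=
  longGen_of_at (r := 3) (s := 18) (u := 0) (L1 := [0, 1, 2, 1, 3, 2, 1, 0]) (k1 := 0)
    (L2 := [0, 3, 2, 1, 0]) (k2 := 0) (L3 := [3, 2, 1, 0, 2, 1, 3, 2]) (k3 := 2) (by decide +kernel)

theorem longGen_G2 : LongGen chevG2 3 :=
  longGen_of_at (r := 2) (s := 3) (u := 0) (L1 := [0, 1, 0]) (k1 := 0) (L2 := [1, 0]) (k2 := 0)
    (L3 := [1, 0, 1]) (k3 := 1) (by decide +kernel)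

/-- The simply-laced data have no long fundamental root. -/
theorem isLong_simple_D4 : ∀ i, i < chevD4.rank → chevD4.isLong (chevD4.simple i) = false := by
  decide +kernel

section

variable {D : ChevalleyDatum} {F : Type*} [Field F] {η : ℕ → ℕ → ℤ}

/-- A subgroup containing `N` and `X_s` contains `X_{w(s)}`. -/
theorem x_mem_of_wW (R : NRel D F η) {M : Subgroup (GL D.Idx F)} (hN : D.monomialSubgroup F ≤ M)
    {L : List ℕ} (hL : ValidW D L) {s : ℕ} (hs : s < D.nroots) (h : ∀ t : F, xGL R.xadd s t ∈ M) (t : F) :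
    xGL R.xadd (wW D L s) t ∈ M := by
  have h1 := R.nW_conj_x hL hs ((eW D η L s : F) * t)
  rw [← mul_assoc, R.eW_mul_self hL hs, one_mul] at h1
  rw [← h1]
  exact mul_mem (mul_mem (hN (R.nW_mem_monomial hL)) (h _)) (inv_mem (hN (R.nW_mem_monomial hL)))

/-- A subgroup containing `N` and `X_{w(s)}` contains `X_s`. -/
theorem x_mem_of_wW_rev (R : NRel D F η) {M : Subgroup (GL D.Idx F)} (hN : D.monomialSubgroup F ≤ M)
    {L : List ℕ} (hL : ValidW D L) {s : ℕ} (hs : s < D.nroots)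
    (h : ∀ t : F, xGL R.xadd (wW D L s) t ∈ M) (t : F) : xGL R.xadd s t ∈ M := by
  have h1 := R.nW_conj_x hL hs t
  have h2 : xGL R.xadd s t = (R.nW L)⁻¹ * xGL R.xadd (wW D L s) ((eW D η L s : F) * t) * R.nW L := by
    rw [← h1]; group
  rw [h2]
  exact mul_mem (mul_mem (inv_mem (hN (R.nW_mem_monomial hL))) (h _)) (hN (R.nW_mem_monomial hL))

theorem x_mem_of_conjSimple (R : NRel D F η) {M : Subgroup (GL D.Idx F)} (hN : D.monomialSubgroup F ≤ M)
    {i k : ℕ} (hi : i < D.rank) (hc : ConjSimple D i k) (h : ∀ t : F, xGL R.xadd (D.simple i) t ∈ M) (t : F) :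
    xGL R.xadd (D.simple k) t ∈ M := by
  obtain ⟨L, hL, hw⟩ := hc
  rw [← hw]
  exact x_mem_of_wW R hN hL (R.wf.simple_lt i hi) h t

/-- `X_r ≤ M` in terms of the elements `x_r(t)`. -/
theorem x_mem_of_rootSubgroup_le (hX : XAdd D F) {M : Subgroup (GL D.Idx F)} {r : ℕ}
    (h : D.rootSubgroup F r ≤ M) (t : F) : xGL hX r t ∈ M :=
  h (Subgroup.subset_closure ⟨t, rfl⟩)

/-- A subgroup containing `N` and the root subgroups of all the fundamental roots contains the group. -/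
theorem group_le_of_simple (R : NRel D F η) {M : Subgroup (GL D.Idx F)} (hN : D.monomialSubgroup F ≤ M)
    (h : ∀ k, k < D.rank → ∀ t : F, xGL R.xadd (D.simple k) t ∈ M) : D.group F ≤ M := by
  unfold ChevalleyDatum.group
  rw [Subgroup.closure_le]
  rintro g ⟨r, t, hg⟩
  have hg' : g = xGL R.xadd r.val t := by
    apply Units.ext
    rw [hg, xGL_val]
    unfold ChevalleyDatum.x
    rw [dif_pos r.isLt]
  obtain ⟨L, hL, i, hi, hw⟩ := R.wf.reach r.val r.isLt
  rw [SetLike.mem_coe, hg', ← hw]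
  exact x_mem_of_wW R hN hL (R.wf.simple_lt i hi) (h i hi) t

/-- With a single-term commutator `[x_r, x_s] = x_u(c t u)`, `c` invertible, `X_u ≤ ⟨X_r, X_s⟩`. -/
theorem x_mem_of_clean (hX : XAdd D F) {M : Subgroup (GL D.Idx F)} {u r s : ℕ} {c : ℤ}
    (hct : D.commTerms r s = [(u, c, 1, 1)]) (hc : (c : F) ≠ 0)
    (CF : ∀ t v : F, D.x F s v * D.x F r t = D.x F r t * D.x F s v * D.wordMat F (D.commWord F r s t v))
    (hr : ∀ t : F, xGL hX r t ∈ M) (hs : ∀ t : F, xGL hX s t ∈ M) (t0 : F) : xGL hX u t0 ∈ M := by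
  have hcf := CF (-t0 / (c : F)) 1
  have hw : D.wordMat F (D.commWord F r s (-t0 / (c : F)) 1) = D.x F u t0 := by
    unfold ChevalleyDatum.commWord
    rw [hct, List.map_cons, List.map_nil, wordMat_cons, wordMat_nil, mul_one]
    congr 1
    simp only [pow_one, mul_one]
    field_simp
  rw [hw] at hcf
  have hgrp : xGL hX s 1 * xGL hX r (-t0 / (c : F)) = xGL hX r (-t0 / (c : F)) * xGL hX s 1 * xGL hX u t0 :=
    Units.ext (by simp only [Units.val_mul, xGL_val]; exact hcf)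
  have e : xGL hX u t0 = (xGL hX r (-t0 / (c : F)) * xGL hX s 1)⁻¹ * (xGL hX s 1 * xGL hX r (-t0 / (c : F))) := by
    rw [hgrp]; group
  rw [e]
  exact mul_mem (inv_mem (mul_mem (hr _) (hs _))) (mul_mem (hs _) (hr _))

end

end Cfsg.Agent.Helper17
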