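/-
helper17: simplicity of the Chevalley groups from the Tits criterion (S0319, helper6) and helper36's (B, N)-pair
(`BRel`): irreducibility of the pair follows from the connectedness of the Dynkin diagram (a table check: every
fundamental root other than the first has a neighbour of smaller depth, and for neighbours `i`, `j` the word
`[i, j, i, j]` sends a positive root to a negative one).
-/
import Cfsg.Agent.Helper36.ChevBNPair
import Cfsg.Agent.S0319
import Cfsg.Prelude.Def_LieTypes
import Cfsg.Prelude.Def_ChevB2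

set_option autoImplicit false

namespace Cfsg.Agent.Helper17

open Cfsg Cfsg.Lie Cfsg.Agent.Helper36

/-- The word `[i, j, i, j]` in the simple reflections sends some positive root to a root that is not positive. -/
def BadPair (D : ChevalleyDatum) (i j : ℕ) : Prop :=
  ∃ s, D.IsPosRoot s ∧ ¬ D.IsPosRoot (wW D [i, j, i, j] s)

/-- The Dynkin diagram of `D` is connected, in the form of a depth function and a parent function. -/
structure DynkinFacts (D : ChevalleyDatum) : Prop where
  rank_pos : 0 < D.rank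
  conn : ∃ dep par : ℕ → ℕ, ∀ j, j < D.rank → j ≠ 0 →
    par j < D.rank ∧ dep (par j) < dep j ∧ BadPair D j (par j) ∧ BadPair D (par j) j

/-- The Boolean test for `BadPair` on the two fundamental roots. -/
def badAt (D : ChevalleyDatum) (i j : ℕ) : Bool :=
  (decide (D.IsPosRoot (D.simple i)) && !decide (D.IsPosRoot (wW D [i, j, i, j] (D.simple i)))) ||
    (decide (D.IsPosRoot (D.simple j)) && !decide (D.IsPosRoot (wW D [i, j, i, j] (D.simple j))))

theorem badPair_of_badAt {D : ChevalleyDatum} {i j : ℕ} (h : badAt D i j = true) : BadPair D i j := by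
  unfold badAt at h
  simp only [Bool.or_eq_true, Bool.and_eq_true, decide_eq_true_eq, Bool.not_eq_true',
    decide_eq_false_iff_not] at h
  rcases h with ⟨h1, h2⟩ | ⟨h1, h2⟩
  · exact ⟨_, h1, h2⟩
  · exact ⟨_, h1, h2⟩

/-- The table check of `DynkinFacts`. -/
def dynkinOK (D : ChevalleyDatum) (dep par : List ℕ) : Bool :=
  decide (0 < D.rank) &&
  (List.range D.rank).all fun j => decide (j = 0) ||
    (decide (par.getD j 0 < D.rank) && decide (dep.getD (par.getD j 0) 0 < dep.getD j 0) &&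
      badAt D j (par.getD j 0) && badAt D (par.getD j 0) j)

theorem dynkinFacts_of_OK {D : ChevalleyDatum} {dep par : List ℕ} (h : dynkinOK D dep par = true) :
    DynkinFacts D := by
  unfold dynkinOK at h
  rw [Bool.and_eq_true, decide_eq_true_eq, List.all_eq_true] at h
  refine ⟨h.1, fun j => dep.getD j 0, fun j => par.getD j 0, ?_⟩
  intro j hj hj0
  have h1 := h.2 j (List.mem_range.mpr hj)
  simp only [Bool.or_eq_true, Bool.and_eq_true, decide_eq_true_eq] at h1
  rcases h1 with h1 | h1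
  · exact absurd h1 hj0
  · exact ⟨h1.1.1.1, h1.1.1.2, badPair_of_badAt h1.1.2, badPair_of_badAt h1.2⟩

/-- A set of fundamental roots that is neither empty nor everything has a bad pair across its boundary. -/
theorem DynkinFacts.crossing {D : ChevalleyDatum} (hD : DynkinFacts D) (I : ℕ → Prop)
    (ha : ∃ a, a < D.rank ∧ I a) (hb : ∃ b, b < D.rank ∧ ¬ I b) :
    ∃ i j, i < D.rank ∧ j < D.rank ∧ I i ∧ ¬ I j ∧ BadPair D i j := by
  by_contra hcon
  obtain ⟨dep, par, hpar⟩ := hD.conn
  have hno : ∀ i j, i < D.rank → j < D.rank → BadPair D i j → I i → I j := by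
    intro i j hi hj hbad hIi
    by_contra hIj
    exact hcon ⟨i, j, hi, hj, hIi, hIj, hbad⟩
  have key : ∀ n j, j < D.rank → dep j ≤ n → (I j ↔ I 0) := by
    intro n
    induction n with
    | zero =>
      intro j hj hdep
      by_cases hj0 : j = 0
      · rw [hj0]
      · have := (hpar j hj hj0).2.1
        omega
    | succ n ih =>
      intro j hj hdep
      by_cases hj0 : j = 0
      · rw [hj0]
      · obtain ⟨h1, h2, h3, h4⟩ := hpar j hj hj0
        have h5 := ih (par j) h1 (by omega)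
        exact ⟨fun h => h5.mp (hno j (par j) hj h1 h3 h), fun h => hno (par j) j h1 hj h4 (h5.mpr h)⟩
  obtain ⟨a, ha1, ha2⟩ := ha
  obtain ⟨b, hb1, hb2⟩ := hb
  exact hb2 ((key (dep b) b hb1 (le_refl _)).mpr ((key (dep a) a ha1 (le_refl _)).mp ha2))

section

variable {D : ChevalleyDatum} {F : Type*} [Field F] {η : ℕ → ℕ → ℤ}

/-- For a bad pair `i`, `j` the commutator of `n_i` and `n_j` does not lie in `B`. -/
theorem comm_n_not_mem_B (R : BRel D F η) {i j : ℕ} (hi : i < D.rank) (hj : j < D.rank)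
    (hbad : BadPair D i j) :
    R.n i * R.n j * (R.n i)⁻¹ * (R.n j)⁻¹ ∉ D.borelSubgroup F := by
  intro hB
  obtain ⟨s, hs, hns⟩ := hbad
  have hL : ValidW D [i, j, i, j] :=
    ValidW.cons hi (ValidW.cons hj (ValidW.cons hi (ValidW.cons hj (validW_nil D))))
  have e : R.nW [i, j, i, j] =
      (R.n i * R.n j * (R.n i)⁻¹ * (R.n j)⁻¹) * (R.n j * (R.n i * R.n i) * (R.n j)⁻¹) * (R.n j * R.n j) := by
    rw [R.nW_cons, R.nW_cons, R.nW_cons, R.nW_cons, R.nW_nil]
    group
  have h1 : R.n j * (R.n i * R.n i) * (R.n j)⁻¹ ∈ D.borelSubgroup F :=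
    BRel.H_le_B D F (R.n_conj_H hj _ (R.n_sq_mem hi))
  have h2 : R.n j * R.n j ∈ D.borelSubgroup F := BRel.H_le_B D F (R.n_sq_mem hj)
  have hW : R.nW [i, j, i, j] ∈ D.borelSubgroup F := by
    rw [e]
    exact Subgroup.mul_mem _ (Subgroup.mul_mem _ hB h1) h2
  exact hns (R.pos_of_mem_B R.bv R.xinj hL hW hs)

/-- The (B, N)-pair of a Chevalley group with connected Dynkin diagram is irreducible. -/
theorem irreducible_of_dynkin (R : BRel D F η) (hDyn : DynkinFacts D) (P : Cfsg.BNPair ↥(D.group F))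
    (hPB : P.B = (D.borelSubgroup F).subgroupOf (D.group F))
    (hPS : P.S = {n : ↥(D.group F) | ∃ i < D.rank,
      ((n : GL D.Idx F) : Matrix D.Idx D.Idx F) = D.nMat F (D.simple i) 1}) : P.Irreducible := by
  intro J hJ hJne hcomp
  have hNG := monomialSubgroup_le_group (D := D) (F := F) R.xadd
  have hS : ∀ n : ↥(D.group F), n ∈ P.S → ∃ i < D.rank, (n : GL D.Idx F) = R.n i := by
    intro n hn
    rw [hPS] at hn
    obtain ⟨i, hi, hn'⟩ := hn
    exact ⟨i, hi, Units.ext (by rw [hn', R.n_val])⟩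
  have hmemS : ∀ i, i < D.rank → ∀ n : ↥(D.group F), (n : GL D.Idx F) = R.n i → n ∈ P.S := by
    intro i hi n hn
    rw [hPS]
    exact ⟨i, hi, by rw [hn, R.n_val]⟩
  obtain ⟨i, j, hi, hj, ⟨s, hsJ, hsi⟩, hIj, hbad⟩ := hDyn.crossing
    (fun i => ∃ n ∈ J, (n : GL D.Idx F) = R.n i)
    (by
      obtain ⟨n, hn⟩ := hJne
      obtain ⟨i, hi, hni⟩ := hS n (hJ hn)
      exact ⟨i, hi, n, hn, hni⟩)
    (by
      obtain ⟨n, hn, hnJ⟩ := hcomp
      obtain ⟨j, hj, hnj⟩ := hS n hn
      refine ⟨j, hj, ?_⟩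
      rintro ⟨n', hn', hn'j⟩
      have : n' = n := Subtype.ext (hn'j.trans hnj.symm)
      rw [this] at hn'
      exact hnJ hn')
  refine ⟨s, hsJ, ⟨R.n j, hNG (R.n_mem_monomial hj)⟩, ⟨hmemS j hj _ rfl, ?_⟩, ?_⟩
  · intro h
    exact hIj ⟨_, h, rfl⟩
  · rw [hPB, Subgroup.mem_subgroupOf]
    intro h
    apply comm_n_not_mem_B R hi hj hbad
    have e : ((s * (⟨R.n j, hNG (R.n_mem_monomial hj)⟩ : ↥(D.group F)) * s⁻¹ *
        (⟨R.n j, hNG (R.n_mem_monomial hj)⟩ : ↥(D.group F))⁻¹ : ↥(D.group F)) : GL D.Idx F) =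
        R.n i * R.n j * (R.n i)⁻¹ * (R.n j)⁻¹ := by
      rw [← hsi]; rfl
    rw [← e]
    exact h

/-- Simplicity from the Tits criterion: the Chevalley group of a datum with relations `BRel` and connected
Dynkin diagram is simple and not commutative as soon as `B` is solvable, the group is perfect and the core of `B`
is trivial. -/
theorem simple_of_bRel (R : BRel D F η) (hDyn : DynkinFacts D)
    (hsolv : Group.IsSolvable ↥(D.borelSubgroup F)) (hperf : commutator ↥(D.group F) = ⊤)
    (hcore : ((D.borelSubgroup F).subgroupOf (D.group F)).normalCore = ⊥) :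
    IsSimpleGroup ↥(D.group F) ∧ ¬ IsMulCommutative ↥(D.group F) := by
  obtain ⟨P, hPB, -, hPS⟩ := R.exists_bnPair
  have hBG := borelSubgroup_le_group (D := D) (F := F) R.xadd
  have hp := R.wf.simple_lt 0 hDyn.rank_pos
  have hne : (⟨xGL R.xadd (D.simple 0) 1, xGL_mem_group R.xadd _ _⟩ : ↥(D.group F)) ≠ 1 := by
    intro h
    have h1 := congrArg (fun g : ↥(D.group F) => ((g : GL D.Idx F) : Matrix D.Idx D.Idx F)) h
    simp only [xGL_val, OneMemClass.coe_one, Units.val_one] at h1
    exact one_ne_zero (R.xinj _ hp _ h1)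
  have : Nontrivial ↥(D.group F) := ⟨⟨_, _, hne⟩⟩
  have hsolvP : Group.IsSolvable ↥P.B := by
    rw [hPB]
    have := hsolv
    exact Group.isSolvable_of_isSolvable_injective
      (f := (Subgroup.subgroupOfEquivOfLe hBG).toMonoidHom) (Subgroup.subgroupOfEquivOfLe hBG).injective
  refine ⟨Cfsg.Agent.S0319.result P (irreducible_of_dynkin R hDyn P hPB hPS) hsolvP hperf
    (by rw [hPB]; exact hcore), ?_⟩
  intro hcomm
  have hbot : commutator ↥(D.group F) = ⊥ := by
    rw [commutator_def, Subgroup.commutator_eq_bot_iff_le_centralizer]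
    intro g _
    rw [Subgroup.mem_centralizer_iff]
    intro h _
    exact hcomm.is_comm.comm h g
  rw [hperf] at hbot
  exact hne (by
    have : (⟨xGL R.xadd (D.simple 0) 1, xGL_mem_group R.xadd _ _⟩ : ↥(D.group F)) ∈
        (⊥ : Subgroup ↥(D.group F)) := by rw [← hbot]; exact Subgroup.mem_top _
    exact Subgroup.mem_bot.mp this)

end

def dynDepG2 : List ℕ := [0, 1]
def dynParG2 : List ℕ := [0, 0]
def dynDepB2 : List ℕ := [0, 1]
def dynParB2 : List ℕ := [0, 0]
def dynDepD4 : List ℕ := [0, 1, 2, 2]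
def dynParD4 : List ℕ := [0, 0, 1, 1]
def dynDepF4 : List ℕ := [0, 1, 2, 3]
def dynParF4 : List ℕ := [0, 0, 1, 2]
def dynDepE6 : List ℕ := [0, 3, 1, 2, 3, 4]
def dynParE6 : List ℕ := [0, 3, 0, 2, 3, 4]
def dynDepE7 : List ℕ := [0, 3, 1, 2, 3, 4, 5]
def dynParE7 : List ℕ := [0, 3, 0, 2, 3, 4, 5]
def dynDepE8 : List ℕ := [0, 3, 1, 2, 3, 4, 5, 6]
def dynParE8 : List ℕ := [0, 3, 0, 2, 3, 4, 5, 6]

theorem dynkinOK_G2 : dynkinOK chevG2 dynDepG2 dynParG2 = true := by decide +kernel
theorem dynkinOK_B2 : dynkinOK chevB2 dynDepB2 dynParB2 = true := by decide +kernel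
theorem dynkinOK_D4 : dynkinOK chevD4 dynDepD4 dynParD4 = true := by decide +kernel
theorem dynkinOK_F4 : dynkinOK chevF4 dynDepF4 dynParF4 = true := by decide +kernel
theorem dynkinOK_E6 : dynkinOK chevE6 dynDepE6 dynParE6 = true := by decide +kernel
theorem dynkinOK_E7 : dynkinOK chevE7 dynDepE7 dynParE7 = true := by decide +kernel
theorem dynkinOK_E8 : dynkinOK chevE8 dynDepE8 dynParE8 = true := by decide +kernel

theorem dynkinFacts_of_mem {D : ChevalleyDatum}
    (hD : D ∈ [chevG2, chevB2, chevD4, chevF4, chevE6, chevE7, chevE8]) : DynkinFacts D := by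
  simp only [List.mem_cons, List.not_mem_nil, or_false] at hD
  rcases hD with rfl | rfl | rfl | rfl | rfl | rfl | rfl
  · exact dynkinFacts_of_OK dynkinOK_G2
  · exact dynkinFacts_of_OK dynkinOK_B2
  · exact dynkinFacts_of_OK dynkinOK_D4
  · exact dynkinFacts_of_OK dynkinOK_F4
  · exact dynkinFacts_of_OK dynkinOK_E6
  · exact dynkinFacts_of_OK dynkinOK_E7
  · exact dynkinFacts_of_OK dynkinOK_E8

end Cfsg.Agent.Helper17
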