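-- helper17: Steinberg's commutator relations for the explicit root elements of O_8^+ (S1082); machine generated.
import Cfsg.Agent.Helper17.D4Defs

set_option autoImplicit false
set_option linter.unusedSimpArgs false
set_option linter.unnecessarySeqFocus false
open Matrix Cfsg Cfsg.Lie

namespace Cfsg.Agent.Helper17.D4

variable {F : Type*} [Field F]

theorem ct_0_1 : chevD4.commTerms 0 1 = [] := by decide
theorem rel_0_1 (t u : F) : xg 1 u * xg 0 t = xg 0 t * xg 1 u * ((chevD4.commWord F 0 1 t u).map fun p => xg p.1 p.2).prod := by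
  rw [ChevalleyDatum.commWord, ct_0_1]
  simp only [List.map_cons, List.map_nil, List.prod_cons, List.prod_nil]
  apply Units.ext
  simp only [Units.val_mul, xg_val, Units.val_one]
  apply mat_ext_mulVec
  intro v
  simp only [← Matrix.mulVec_mulVec, Matrix.one_mulVec, xm_mulVec_0, xm_mulVec_1]
  funext i; fin_cases i <;> simp <;> ring
theorem ct_0_2 : chevD4.commTerms 0 2 = [] := by decide
theorem rel_0_2 (t u : F) : xg 2 u * xg 0 t = xg 0 t * xg 2 u * ((chevD4.commWord F 0 2 t u).map fun p => xg p.1 p.2).prod := by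
  rw [ChevalleyDatum.commWord, ct_0_2]
  simp only [List.map_cons, List.map_nil, List.prod_cons, List.prod_nil]
  apply Units.ext
  simp only [Units.val_mul, xg_val, Units.val_one]
  apply mat_ext_mulVec
  intro v
  simp only [← Matrix.mulVec_mulVec, Matrix.one_mulVec, xm_mulVec_0, xm_mulVec_2]
  funext i; fin_cases i <;> simp <;> ring
theorem ct_0_3 : chevD4.commTerms 0 3 = [] := by decide
theorem rel_0_3 (t u : F) : xg 3 u * xg 0 t = xg 0 t * xg 3 u * ((chevD4.commWord F 0 3 t u).map fun p => xg p.1 p.2).prod := by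
  rw [ChevalleyDatum.commWord, ct_0_3]
  simp only [List.map_cons, List.map_nil, List.prod_cons, List.prod_nil]
  apply Units.ext
  simp only [Units.val_mul, xg_val, Units.val_one]
  apply mat_ext_mulVec
  intro v
  simp only [← Matrix.mulVec_mulVec, Matrix.one_mulVec, xm_mulVec_0, xm_mulVec_3]
  funext i; fin_cases i <;> simp <;> ring
theorem ct_0_4 : chevD4.commTerms 0 4 = [] := by decide
theorem rel_0_4 (t u : F) : xg 4 u * xg 0 t = xg 0 t * xg 4 u * ((chevD4.commWord F 0 4 t u).map fun p => xg p.1 p.2).prod := by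
  rw [ChevalleyDatum.commWord, ct_0_4]
  simp only [List.map_cons, List.map_nil, List.prod_cons, List.prod_nil]
  apply Units.ext
  simp only [Units.val_mul, xg_val, Units.val_one]
  apply mat_ext_mulVec
  intro v
  simp only [← Matrix.mulVec_mulVec, Matrix.one_mulVec, xm_mulVec_0, xm_mulVec_4]
  funext i; fin_cases i <;> simp <;> ring
theorem ct_0_5 : chevD4.commTerms 0 5 = [] := by decide
theorem rel_0_5 (t u : F) : xg 5 u * xg 0 t = xg 0 t * xg 5 u * ((chevD4.commWord F 0 5 t u).map fun p => xg p.1 p.2).prod := by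
  rw [ChevalleyDatum.commWord, ct_0_5]
  simp only [List.map_cons, List.map_nil, List.prod_cons, List.prod_nil]
  apply Units.ext
  simp only [Units.val_mul, xg_val, Units.val_one]
  apply mat_ext_mulVec
  intro v
  simp only [← Matrix.mulVec_mulVec, Matrix.one_mulVec, xm_mulVec_0, xm_mulVec_5]
  funext i; fin_cases i <;> simp <;> ring
theorem ct_0_6 : chevD4.commTerms 0 6 = [] := by decide
theorem rel_0_6 (t u : F) : xg 6 u * xg 0 t = xg 0 t * xg 6 u * ((chevD4.commWord F 0 6 t u).map fun p => xg p.1 p.2).prod := by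
  rw [ChevalleyDatum.commWord, ct_0_6]
  simp only [List.map_cons, List.map_nil, List.prod_cons, List.prod_nil]
  apply Units.ext
  simp only [Units.val_mul, xg_val, Units.val_one]
  apply mat_ext_mulVec
  intro v
  simp only [← Matrix.mulVec_mulVec, Matrix.one_mulVec, xm_mulVec_0, xm_mulVec_6]
  funext i; fin_cases i <;> simp <;> ring
theorem ct_0_7 : chevD4.commTerms 0 7 = [] := by decide
theorem rel_0_7 (t u : F) : xg 7 u * xg 0 t = xg 0 t * xg 7 u * ((chevD4.commWord F 0 7 t u).map fun p => xg p.1 p.2).prod := by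
  rw [ChevalleyDatum.commWord, ct_0_7]
  simp only [List.map_cons, List.map_nil, List.prod_cons, List.prod_nil]
  apply Units.ext
  simp only [Units.val_mul, xg_val, Units.val_one]
  apply mat_ext_mulVec
  intro v
  simp only [← Matrix.mulVec_mulVec, Matrix.one_mulVec, xm_mulVec_0, xm_mulVec_7]
  funext i; fin_cases i <;> simp <;> ring
theorem ct_0_8 : chevD4.commTerms 0 8 = [] := by decide
theorem rel_0_8 (t u : F) : xg 8 u * xg 0 t = xg 0 t * xg 8 u * ((chevD4.commWord F 0 8 t u).map fun p => xg p.1 p.2).prod := by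
  rw [ChevalleyDatum.commWord, ct_0_8]
  simp only [List.map_cons, List.map_nil, List.prod_cons, List.prod_nil]
  apply Units.ext
  simp only [Units.val_mul, xg_val, Units.val_one]
  apply mat_ext_mulVec
  intro v
  simp only [← Matrix.mulVec_mulVec, Matrix.one_mulVec, xm_mulVec_0, xm_mulVec_8]
  funext i; fin_cases i <;> simp <;> ring
theorem ct_0_9 : chevD4.commTerms 0 9 = [] := by decide
theorem rel_0_9 (t u : F) : xg 9 u * xg 0 t = xg 0 t * xg 9 u * ((chevD4.commWord F 0 9 t u).map fun p => xg p.1 p.2).prod := by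
  rw [ChevalleyDatum.commWord, ct_0_9]
  simp only [List.map_cons, List.map_nil, List.prod_cons, List.prod_nil]
  apply Units.ext
  simp only [Units.val_mul, xg_val, Units.val_one]
  apply mat_ext_mulVec
  intro v
  simp only [← Matrix.mulVec_mulVec, Matrix.one_mulVec, xm_mulVec_0, xm_mulVec_9]
  funext i; fin_cases i <;> simp <;> ring
theorem ct_0_10 : chevD4.commTerms 0 10 = [] := by decide
theorem rel_0_10 (t u : F) : xg 10 u * xg 0 t = xg 0 t * xg 10 u * ((chevD4.commWord F 0 10 t u).map fun p => xg p.1 p.2).prod := by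
  rw [ChevalleyDatum.commWord, ct_0_10]
  simp only [List.map_cons, List.map_nil, List.prod_cons, List.prod_nil]
  apply Units.ext
  simp only [Units.val_mul, xg_val, Units.val_one]
  apply mat_ext_mulVec
  intro v
  simp only [← Matrix.mulVec_mulVec, Matrix.one_mulVec, xm_mulVec_0, xm_mulVec_10]
  funext i; fin_cases i <;> simp <;> ring
theorem ct_0_11 : chevD4.commTerms 0 11 = [] := by decide
theorem rel_0_11 (t u : F) : xg 11 u * xg 0 t = xg 0 t * xg 11 u * ((chevD4.commWord F 0 11 t u).map fun p => xg p.1 p.2).prod := by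
  rw [ChevalleyDatum.commWord, ct_0_11]
  simp only [List.map_cons, List.map_nil, List.prod_cons, List.prod_nil]
  apply Units.ext
  simp only [Units.val_mul, xg_val, Units.val_one]
  apply mat_ext_mulVec
  intro v
  simp only [← Matrix.mulVec_mulVec, Matrix.one_mulVec, xm_mulVec_0, xm_mulVec_11]
  funext i; fin_cases i <;> simp <;> ring
theorem ct_0_12 : chevD4.commTerms 0 12 = [] := by decide
theorem rel_0_12 (t u : F) : xg 12 u * xg 0 t = xg 0 t * xg 12 u * ((chevD4.commWord F 0 12 t u).map fun p => xg p.1 p.2).prod := by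
  rw [ChevalleyDatum.commWord, ct_0_12]
  simp only [List.map_cons, List.map_nil, List.prod_cons, List.prod_nil]
  apply Units.ext
  simp only [Units.val_mul, xg_val, Units.val_one]
  apply mat_ext_mulVec
  intro v
  simp only [← Matrix.mulVec_mulVec, Matrix.one_mulVec, xm_mulVec_0, xm_mulVec_12]
  funext i; fin_cases i <;> simp <;> ring
theorem ct_0_13 : chevD4.commTerms 0 13 = [] := by decide
theorem rel_0_13 (t u : F) : xg 13 u * xg 0 t = xg 0 t * xg 13 u * ((chevD4.commWord F 0 13 t u).map fun p => xg p.1 p.2).prod := by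
  rw [ChevalleyDatum.commWord, ct_0_13]
  simp only [List.map_cons, List.map_nil, List.prod_cons, List.prod_nil]
  apply Units.ext
  simp only [Units.val_mul, xg_val, Units.val_one]
  apply mat_ext_mulVec
  intro v
  simp only [← Matrix.mulVec_mulVec, Matrix.one_mulVec, xm_mulVec_0, xm_mulVec_13]
  funext i; fin_cases i <;> simp <;> ring
theorem ct_0_14 : chevD4.commTerms 0 14 = [(1, 1, 1, 1)] := by decide
theorem rel_0_14 (t u : F) : xg 14 u * xg 0 t = xg 0 t * xg 14 u * ((chevD4.commWord F 0 14 t u).map fun p => xg p.1 p.2).prod := by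
  rw [ChevalleyDatum.commWord, ct_0_14]
  simp only [List.map_cons, List.map_nil, List.prod_cons, List.prod_nil]
  apply Units.ext
  simp only [Units.val_mul, xg_val, Units.val_one]
  apply mat_ext_mulVec
  intro v
  simp only [← Matrix.mulVec_mulVec, Matrix.one_mulVec, xm_mulVec_0, xm_mulVec_1, xm_mulVec_14]
  funext i; fin_cases i <;> simp <;> ring
theorem ct_0_15 : chevD4.commTerms 0 15 = [(2, -1, 1, 1)] := by decide
theorem rel_0_15 (t u : F) : xg 15 u * xg 0 t = xg 0 t * xg 15 u * ((chevD4.commWord F 0 15 t u).map fun p => xg p.1 p.2).prod := by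
  rw [ChevalleyDatum.commWord, ct_0_15]
  simp only [List.map_cons, List.map_nil, List.prod_cons, List.prod_nil]
  apply Units.ext
  simp only [Units.val_mul, xg_val, Units.val_one]
  apply mat_ext_mulVec
  intro v
  simp only [← Matrix.mulVec_mulVec, Matrix.one_mulVec, xm_mulVec_0, xm_mulVec_2, xm_mulVec_15]
  funext i; fin_cases i <;> simp <;> ring
theorem ct_0_16 : chevD4.commTerms 0 16 = [(3, -1, 1, 1)] := by decide
theorem rel_0_16 (t u : F) : xg 16 u * xg 0 t = xg 0 t * xg 16 u * ((chevD4.commWord F 0 16 t u).map fun p => xg p.1 p.2).prod := by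
  rw [ChevalleyDatum.commWord, ct_0_16]
  simp only [List.map_cons, List.map_nil, List.prod_cons, List.prod_nil]
  apply Units.ext
  simp only [Units.val_mul, xg_val, Units.val_one]
  apply mat_ext_mulVec
  intro v
  simp only [← Matrix.mulVec_mulVec, Matrix.one_mulVec, xm_mulVec_0, xm_mulVec_3, xm_mulVec_16]
  funext i; fin_cases i <;> simp <;> ring
theorem ct_0_17 : chevD4.commTerms 0 17 = [(4, 1, 1, 1)] := by decide
theorem rel_0_17 (t u : F) : xg 17 u * xg 0 t = xg 0 t * xg 17 u * ((chevD4.commWord F 0 17 t u).map fun p => xg p.1 p.2).prod := by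
  rw [ChevalleyDatum.commWord, ct_0_17]
  simp only [List.map_cons, List.map_nil, List.prod_cons, List.prod_nil]
  apply Units.ext
  simp only [Units.val_mul, xg_val, Units.val_one]
  apply mat_ext_mulVec
  intro v
  simp only [← Matrix.mulVec_mulVec, Matrix.one_mulVec, xm_mulVec_0, xm_mulVec_4, xm_mulVec_17]
  funext i; fin_cases i <;> simp <;> ring
theorem ct_0_18 : chevD4.commTerms 0 18 = [] := by decide
theorem rel_0_18 (t u : F) : xg 18 u * xg 0 t = xg 0 t * xg 18 u * ((chevD4.commWord F 0 18 t u).map fun p => xg p.1 p.2).prod := by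
  rw [ChevalleyDatum.commWord, ct_0_18]
  simp only [List.map_cons, List.map_nil, List.prod_cons, List.prod_nil]
  apply Units.ext
  simp only [Units.val_mul, xg_val, Units.val_one]
  apply mat_ext_mulVec
  intro v
  simp only [← Matrix.mulVec_mulVec, Matrix.one_mulVec, xm_mulVec_0, xm_mulVec_18]
  funext i; fin_cases i <;> simp <;> ring
theorem ct_0_19 : chevD4.commTerms 0 19 = [(6, -1, 1, 1)] := by decide
theorem rel_0_19 (t u : F) : xg 19 u * xg 0 t = xg 0 t * xg 19 u * ((chevD4.commWord F 0 19 t u).map fun p => xg p.1 p.2).prod := by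
  rw [ChevalleyDatum.commWord, ct_0_19]
  simp only [List.map_cons, List.map_nil, List.prod_cons, List.prod_nil]
  apply Units.ext
  simp only [Units.val_mul, xg_val, Units.val_one]
  apply mat_ext_mulVec
  intro v
  simp only [← Matrix.mulVec_mulVec, Matrix.one_mulVec, xm_mulVec_0, xm_mulVec_6, xm_mulVec_19]
  funext i; fin_cases i <;> simp <;> ring
theorem ct_0_20 : chevD4.commTerms 0 20 = [(7, 1, 1, 1)] := by decide
theorem rel_0_20 (t u : F) : xg 20 u * xg 0 t = xg 0 t * xg 20 u * ((chevD4.commWord F 0 20 t u).map fun p => xg p.1 p.2).prod := by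
  rw [ChevalleyDatum.commWord, ct_0_20]
  simp only [List.map_cons, List.map_nil, List.prod_cons, List.prod_nil]
  apply Units.ext
  simp only [Units.val_mul, xg_val, Units.val_one]
  apply mat_ext_mulVec
  intro v
  simp only [← Matrix.mulVec_mulVec, Matrix.one_mulVec, xm_mulVec_0, xm_mulVec_7, xm_mulVec_20]
  funext i; fin_cases i <;> simp <;> ring
theorem ct_0_21 : chevD4.commTerms 0 21 = [(8, 1, 1, 1)] := by decide
theorem rel_0_21 (t u : F) : xg 21 u * xg 0 t = xg 0 t * xg 21 u * ((chevD4.commWord F 0 21 t u).map fun p => xg p.1 p.2).prod := by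
  rw [ChevalleyDatum.commWord, ct_0_21]
  simp only [List.map_cons, List.map_nil, List.prod_cons, List.prod_nil]
  apply Units.ext
  simp only [Units.val_mul, xg_val, Units.val_one]
  apply mat_ext_mulVec
  intro v
  simp only [← Matrix.mulVec_mulVec, Matrix.one_mulVec, xm_mulVec_0, xm_mulVec_8, xm_mulVec_21]
  funext i; fin_cases i <;> simp <;> ring
theorem ct_0_22 : chevD4.commTerms 0 22 = [(9, -1, 1, 1)] := by decide
theorem rel_0_22 (t u : F) : xg 22 u * xg 0 t = xg 0 t * xg 22 u * ((chevD4.commWord F 0 22 t u).map fun p => xg p.1 p.2).prod := by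
  rw [ChevalleyDatum.commWord, ct_0_22]
  simp only [List.map_cons, List.map_nil, List.prod_cons, List.prod_nil]
  apply Units.ext
  simp only [Units.val_mul, xg_val, Units.val_one]
  apply mat_ext_mulVec
  intro v
  simp only [← Matrix.mulVec_mulVec, Matrix.one_mulVec, xm_mulVec_0, xm_mulVec_9, xm_mulVec_22]
  funext i; fin_cases i <;> simp <;> ring
theorem ct_1_0 : chevD4.commTerms 1 0 = [] := by decide
theorem rel_1_0 (t u : F) : xg 0 u * xg 1 t = xg 1 t * xg 0 u * ((chevD4.commWord F 1 0 t u).map fun p => xg p.1 p.2).prod := by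
  rw [ChevalleyDatum.commWord, ct_1_0]
  simp only [List.map_cons, List.map_nil, List.prod_cons, List.prod_nil]
  apply Units.ext
  simp only [Units.val_mul, xg_val, Units.val_one]
  apply mat_ext_mulVec
  intro v
  simp only [← Matrix.mulVec_mulVec, Matrix.one_mulVec, xm_mulVec_0, xm_mulVec_1]
  funext i; fin_cases i <;> simp <;> ring
theorem ct_1_2 : chevD4.commTerms 1 2 = [] := by decide
theorem rel_1_2 (t u : F) : xg 2 u * xg 1 t = xg 1 t * xg 2 u * ((chevD4.commWord F 1 2 t u).map fun p => xg p.1 p.2).prod := by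
  rw [ChevalleyDatum.commWord, ct_1_2]
  simp only [List.map_cons, List.map_nil, List.prod_cons, List.prod_nil]
  apply Units.ext
  simp only [Units.val_mul, xg_val, Units.val_one]
  apply mat_ext_mulVec
  intro v
  simp only [← Matrix.mulVec_mulVec, Matrix.one_mulVec, xm_mulVec_1, xm_mulVec_2]
  funext i; fin_cases i <;> simp <;> ring
theorem ct_1_3 : chevD4.commTerms 1 3 = [] := by decide
theorem rel_1_3 (t u : F) : xg 3 u * xg 1 t = xg 1 t * xg 3 u * ((chevD4.commWord F 1 3 t u).map fun p => xg p.1 p.2).prod := by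
  rw [ChevalleyDatum.commWord, ct_1_3]
  simp only [List.map_cons, List.map_nil, List.prod_cons, List.prod_nil]
  apply Units.ext
  simp only [Units.val_mul, xg_val, Units.val_one]
  apply mat_ext_mulVec
  intro v
  simp only [← Matrix.mulVec_mulVec, Matrix.one_mulVec, xm_mulVec_1, xm_mulVec_3]
  funext i; fin_cases i <;> simp <;> ring
theorem ct_1_4 : chevD4.commTerms 1 4 = [] := by decide
theorem rel_1_4 (t u : F) : xg 4 u * xg 1 t = xg 1 t * xg 4 u * ((chevD4.commWord F 1 4 t u).map fun p => xg p.1 p.2).prod := by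
  rw [ChevalleyDatum.commWord, ct_1_4]
  simp only [List.map_cons, List.map_nil, List.prod_cons, List.prod_nil]
  apply Units.ext
  simp only [Units.val_mul, xg_val, Units.val_one]
  apply mat_ext_mulVec
  intro v
  simp only [← Matrix.mulVec_mulVec, Matrix.one_mulVec, xm_mulVec_1, xm_mulVec_4]
  funext i; fin_cases i <;> simp <;> ring
theorem ct_1_5 : chevD4.commTerms 1 5 = [] := by decide
theorem rel_1_5 (t u : F) : xg 5 u * xg 1 t = xg 1 t * xg 5 u * ((chevD4.commWord F 1 5 t u).map fun p => xg p.1 p.2).prod := by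
  rw [ChevalleyDatum.commWord, ct_1_5]
  simp only [List.map_cons, List.map_nil, List.prod_cons, List.prod_nil]
  apply Units.ext
  simp only [Units.val_mul, xg_val, Units.val_one]
  apply mat_ext_mulVec
  intro v
  simp only [← Matrix.mulVec_mulVec, Matrix.one_mulVec, xm_mulVec_1, xm_mulVec_5]
  funext i; fin_cases i <;> simp <;> ring
theorem ct_1_6 : chevD4.commTerms 1 6 = [] := by decide
theorem rel_1_6 (t u : F) : xg 6 u * xg 1 t = xg 1 t * xg 6 u * ((chevD4.commWord F 1 6 t u).map fun p => xg p.1 p.2).prod := by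
  rw [ChevalleyDatum.commWord, ct_1_6]
  simp only [List.map_cons, List.map_nil, List.prod_cons, List.prod_nil]
  apply Units.ext
  simp only [Units.val_mul, xg_val, Units.val_one]
  apply mat_ext_mulVec
  intro v
  simp only [← Matrix.mulVec_mulVec, Matrix.one_mulVec, xm_mulVec_1, xm_mulVec_6]
  funext i; fin_cases i <;> simp <;> ring
theorem ct_1_7 : chevD4.commTerms 1 7 = [] := by decide
theorem rel_1_7 (t u : F) : xg 7 u * xg 1 t = xg 1 t * xg 7 u * ((chevD4.commWord F 1 7 t u).map fun p => xg p.1 p.2).prod := by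
  rw [ChevalleyDatum.commWord, ct_1_7]
  simp only [List.map_cons, List.map_nil, List.prod_cons, List.prod_nil]
  apply Units.ext
  simp only [Units.val_mul, xg_val, Units.val_one]
  apply mat_ext_mulVec
  intro v
  simp only [← Matrix.mulVec_mulVec, Matrix.one_mulVec, xm_mulVec_1, xm_mulVec_7]
  funext i; fin_cases i <;> simp <;> ring
theorem ct_1_8 : chevD4.commTerms 1 8 = [] := by decide
theorem rel_1_8 (t u : F) : xg 8 u * xg 1 t = xg 1 t * xg 8 u * ((chevD4.commWord F 1 8 t u).map fun p => xg p.1 p.2).prod := by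
  rw [ChevalleyDatum.commWord, ct_1_8]
  simp only [List.map_cons, List.map_nil, List.prod_cons, List.prod_nil]
  apply Units.ext
  simp only [Units.val_mul, xg_val, Units.val_one]
  apply mat_ext_mulVec
  intro v
  simp only [← Matrix.mulVec_mulVec, Matrix.one_mulVec, xm_mulVec_1, xm_mulVec_8]
  funext i; fin_cases i <;> simp <;> ring
theorem ct_1_9 : chevD4.commTerms 1 9 = [(0, 1, 1, 1)] := by decide
theorem rel_1_9 (t u : F) : xg 9 u * xg 1 t = xg 1 t * xg 9 u * ((chevD4.commWord F 1 9 t u).map fun p => xg p.1 p.2).prod := by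
  rw [ChevalleyDatum.commWord, ct_1_9]
  simp only [List.map_cons, List.map_nil, List.prod_cons, List.prod_nil]
  apply Units.ext
  simp only [Units.val_mul, xg_val, Units.val_one]
  apply mat_ext_mulVec
  intro v
  simp only [← Matrix.mulVec_mulVec, Matrix.one_mulVec, xm_mulVec_0, xm_mulVec_1, xm_mulVec_9]
  funext i; fin_cases i <;> simp <;> ring
theorem ct_1_10 : chevD4.commTerms 1 10 = [] := by decide
theorem rel_1_10 (t u : F) : xg 10 u * xg 1 t = xg 1 t * xg 10 u * ((chevD4.commWord F 1 10 t u).map fun p => xg p.1 p.2).prod := by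
  rw [ChevalleyDatum.commWord, ct_1_10]
  simp only [List.map_cons, List.map_nil, List.prod_cons, List.prod_nil]
  apply Units.ext
  simp only [Units.val_mul, xg_val, Units.val_one]
  apply mat_ext_mulVec
  intro v
  simp only [← Matrix.mulVec_mulVec, Matrix.one_mulVec, xm_mulVec_1, xm_mulVec_10]
  funext i; fin_cases i <;> simp <;> ring
theorem ct_1_11 : chevD4.commTerms 1 11 = [] := by decide
theorem rel_1_11 (t u : F) : xg 11 u * xg 1 t = xg 1 t * xg 11 u * ((chevD4.commWord F 1 11 t u).map fun p => xg p.1 p.2).prod := by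
  rw [ChevalleyDatum.commWord, ct_1_11]
  simp only [List.map_cons, List.map_nil, List.prod_cons, List.prod_nil]
  apply Units.ext
  simp only [Units.val_mul, xg_val, Units.val_one]
  apply mat_ext_mulVec
  intro v
  simp only [← Matrix.mulVec_mulVec, Matrix.one_mulVec, xm_mulVec_1, xm_mulVec_11]
  funext i; fin_cases i <;> simp <;> ring
theorem ct_1_12 : chevD4.commTerms 1 12 = [(2, 1, 1, 1)] := by decide
theorem rel_1_12 (t u : F) : xg 12 u * xg 1 t = xg 1 t * xg 12 u * ((chevD4.commWord F 1 12 t u).map fun p => xg p.1 p.2).prod := by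
  rw [ChevalleyDatum.commWord, ct_1_12]
  simp only [List.map_cons, List.map_nil, List.prod_cons, List.prod_nil]
  apply Units.ext
  simp only [Units.val_mul, xg_val, Units.val_one]
  apply mat_ext_mulVec
  intro v
  simp only [← Matrix.mulVec_mulVec, Matrix.one_mulVec, xm_mulVec_1, xm_mulVec_2, xm_mulVec_12]
  funext i; fin_cases i <;> simp <;> ring
theorem ct_1_13 : chevD4.commTerms 1 13 = [(3, 1, 1, 1)] := by decide
theorem rel_1_13 (t u : F) : xg 13 u * xg 1 t = xg 1 t * xg 13 u * ((chevD4.commWord F 1 13 t u).map fun p => xg p.1 p.2).prod := by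
  rw [ChevalleyDatum.commWord, ct_1_13]
  simp only [List.map_cons, List.map_nil, List.prod_cons, List.prod_nil]
  apply Units.ext
  simp only [Units.val_mul, xg_val, Units.val_one]
  apply mat_ext_mulVec
  intro v
  simp only [← Matrix.mulVec_mulVec, Matrix.one_mulVec, xm_mulVec_1, xm_mulVec_3, xm_mulVec_13]
  funext i; fin_cases i <;> simp <;> ring
theorem ct_1_14 : chevD4.commTerms 1 14 = [] := by decide
theorem rel_1_14 (t u : F) : xg 14 u * xg 1 t = xg 1 t * xg 14 u * ((chevD4.commWord F 1 14 t u).map fun p => xg p.1 p.2).prod := by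
  rw [ChevalleyDatum.commWord, ct_1_14]
  simp only [List.map_cons, List.map_nil, List.prod_cons, List.prod_nil]
  apply Units.ext
  simp only [Units.val_mul, xg_val, Units.val_one]
  apply mat_ext_mulVec
  intro v
  simp only [← Matrix.mulVec_mulVec, Matrix.one_mulVec, xm_mulVec_1, xm_mulVec_14]
  funext i; fin_cases i <;> simp <;> ring
theorem ct_1_15 : chevD4.commTerms 1 15 = [] := by decide
theorem rel_1_15 (t u : F) : xg 15 u * xg 1 t = xg 1 t * xg 15 u * ((chevD4.commWord F 1 15 t u).map fun p => xg p.1 p.2).prod := by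
  rw [ChevalleyDatum.commWord, ct_1_15]
  simp only [List.map_cons, List.map_nil, List.prod_cons, List.prod_nil]
  apply Units.ext
  simp only [Units.val_mul, xg_val, Units.val_one]
  apply mat_ext_mulVec
  intro v
  simp only [← Matrix.mulVec_mulVec, Matrix.one_mulVec, xm_mulVec_1, xm_mulVec_15]
  funext i; fin_cases i <;> simp <;> ring
theorem ct_1_16 : chevD4.commTerms 1 16 = [] := by decide
theorem rel_1_16 (t u : F) : xg 16 u * xg 1 t = xg 1 t * xg 16 u * ((chevD4.commWord F 1 16 t u).map fun p => xg p.1 p.2).prod := by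
  rw [ChevalleyDatum.commWord, ct_1_16]
  simp only [List.map_cons, List.map_nil, List.prod_cons, List.prod_nil]
  apply Units.ext
  simp only [Units.val_mul, xg_val, Units.val_one]
  apply mat_ext_mulVec
  intro v
  simp only [← Matrix.mulVec_mulVec, Matrix.one_mulVec, xm_mulVec_1, xm_mulVec_16]
  funext i; fin_cases i <;> simp <;> ring
theorem ct_1_17 : chevD4.commTerms 1 17 = [(5, 1, 1, 1)] := by decide
theorem rel_1_17 (t u : F) : xg 17 u * xg 1 t = xg 1 t * xg 17 u * ((chevD4.commWord F 1 17 t u).map fun p => xg p.1 p.2).prod := by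
  rw [ChevalleyDatum.commWord, ct_1_17]
  simp only [List.map_cons, List.map_nil, List.prod_cons, List.prod_nil]
  apply Units.ext
  simp only [Units.val_mul, xg_val, Units.val_one]
  apply mat_ext_mulVec
  intro v
  simp only [← Matrix.mulVec_mulVec, Matrix.one_mulVec, xm_mulVec_1, xm_mulVec_5, xm_mulVec_17]
  funext i; fin_cases i <;> simp <;> ring
theorem ct_1_18 : chevD4.commTerms 1 18 = [(6, -1, 1, 1)] := by decide
theorem rel_1_18 (t u : F) : xg 18 u * xg 1 t = xg 1 t * xg 18 u * ((chevD4.commWord F 1 18 t u).map fun p => xg p.1 p.2).prod := by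
  rw [ChevalleyDatum.commWord, ct_1_18]
  simp only [List.map_cons, List.map_nil, List.prod_cons, List.prod_nil]
  apply Units.ext
  simp only [Units.val_mul, xg_val, Units.val_one]
  apply mat_ext_mulVec
  intro v
  simp only [← Matrix.mulVec_mulVec, Matrix.one_mulVec, xm_mulVec_1, xm_mulVec_6, xm_mulVec_18]
  funext i; fin_cases i <;> simp <;> ring
theorem ct_1_19 : chevD4.commTerms 1 19 = [] := by decide
theorem rel_1_19 (t u : F) : xg 19 u * xg 1 t = xg 1 t * xg 19 u * ((chevD4.commWord F 1 19 t u).map fun p => xg p.1 p.2).prod := by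
  rw [ChevalleyDatum.commWord, ct_1_19]
  simp only [List.map_cons, List.map_nil, List.prod_cons, List.prod_nil]
  apply Units.ext
  simp only [Units.val_mul, xg_val, Units.val_one]
  apply mat_ext_mulVec
  intro v
  simp only [← Matrix.mulVec_mulVec, Matrix.one_mulVec, xm_mulVec_1, xm_mulVec_19]
  funext i; fin_cases i <;> simp <;> ring
theorem ct_1_20 : chevD4.commTerms 1 20 = [(10, -1, 1, 1)] := by decide
theorem rel_1_20 (t u : F) : xg 20 u * xg 1 t = xg 1 t * xg 20 u * ((chevD4.commWord F 1 20 t u).map fun p => xg p.1 p.2).prod := by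
  rw [ChevalleyDatum.commWord, ct_1_20]
  simp only [List.map_cons, List.map_nil, List.prod_cons, List.prod_nil]
  apply Units.ext
  simp only [Units.val_mul, xg_val, Units.val_one]
  apply mat_ext_mulVec
  intro v
  simp only [← Matrix.mulVec_mulVec, Matrix.one_mulVec, xm_mulVec_1, xm_mulVec_10, xm_mulVec_20]
  funext i; fin_cases i <;> simp <;> ring
theorem ct_1_21 : chevD4.commTerms 1 21 = [(11, -1, 1, 1)] := by decide
theorem rel_1_21 (t u : F) : xg 21 u * xg 1 t = xg 1 t * xg 21 u * ((chevD4.commWord F 1 21 t u).map fun p => xg p.1 p.2).prod := by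
  rw [ChevalleyDatum.commWord, ct_1_21]
  simp only [List.map_cons, List.map_nil, List.prod_cons, List.prod_nil]
  apply Units.ext
  simp only [Units.val_mul, xg_val, Units.val_one]
  apply mat_ext_mulVec
  intro v
  simp only [← Matrix.mulVec_mulVec, Matrix.one_mulVec, xm_mulVec_1, xm_mulVec_11, xm_mulVec_21]
  funext i; fin_cases i <;> simp <;> ring
theorem ct_1_23 : chevD4.commTerms 1 23 = [(14, -1, 1, 1)] := by decide
theorem rel_1_23 (t u : F) : xg 23 u * xg 1 t = xg 1 t * xg 23 u * ((chevD4.commWord F 1 23 t u).map fun p => xg p.1 p.2).prod := by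
  rw [ChevalleyDatum.commWord, ct_1_23]
  simp only [List.map_cons, List.map_nil, List.prod_cons, List.prod_nil]
  apply Units.ext
  simp only [Units.val_mul, xg_val, Units.val_one]
  apply mat_ext_mulVec
  intro v
  simp only [← Matrix.mulVec_mulVec, Matrix.one_mulVec, xm_mulVec_1, xm_mulVec_14, xm_mulVec_23]
  funext i; fin_cases i <;> simp <;> ring
theorem ct_2_0 : chevD4.commTerms 2 0 = [] := by decide
theorem rel_2_0 (t u : F) : xg 0 u * xg 2 t = xg 2 t * xg 0 u * ((chevD4.commWord F 2 0 t u).map fun p => xg p.1 p.2).prod := by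
  rw [ChevalleyDatum.commWord, ct_2_0]
  simp only [List.map_cons, List.map_nil, List.prod_cons, List.prod_nil]
  apply Units.ext
  simp only [Units.val_mul, xg_val, Units.val_one]
  apply mat_ext_mulVec
  intro v
  simp only [← Matrix.mulVec_mulVec, Matrix.one_mulVec, xm_mulVec_0, xm_mulVec_2]
  funext i; fin_cases i <;> simp <;> ring
theorem ct_2_1 : chevD4.commTerms 2 1 = [] := by decide
theorem rel_2_1 (t u : F) : xg 1 u * xg 2 t = xg 2 t * xg 1 u * ((chevD4.commWord F 2 1 t u).map fun p => xg p.1 p.2).prod := by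
  rw [ChevalleyDatum.commWord, ct_2_1]
  simp only [List.map_cons, List.map_nil, List.prod_cons, List.prod_nil]
  apply Units.ext
  simp only [Units.val_mul, xg_val, Units.val_one]
  apply mat_ext_mulVec
  intro v
  simp only [← Matrix.mulVec_mulVec, Matrix.one_mulVec, xm_mulVec_1, xm_mulVec_2]
  funext i; fin_cases i <;> simp <;> ring
theorem ct_2_3 : chevD4.commTerms 2 3 = [] := by decide
theorem rel_2_3 (t u : F) : xg 3 u * xg 2 t = xg 2 t * xg 3 u * ((chevD4.commWord F 2 3 t u).map fun p => xg p.1 p.2).prod := by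
  rw [ChevalleyDatum.commWord, ct_2_3]
  simp only [List.map_cons, List.map_nil, List.prod_cons, List.prod_nil]
  apply Units.ext
  simp only [Units.val_mul, xg_val, Units.val_one]
  apply mat_ext_mulVec
  intro v
  simp only [← Matrix.mulVec_mulVec, Matrix.one_mulVec, xm_mulVec_2, xm_mulVec_3]
  funext i; fin_cases i <;> simp <;> ring
theorem ct_2_4 : chevD4.commTerms 2 4 = [] := by decide
theorem rel_2_4 (t u : F) : xg 4 u * xg 2 t = xg 2 t * xg 4 u * ((chevD4.commWord F 2 4 t u).map fun p => xg p.1 p.2).prod := by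
  rw [ChevalleyDatum.commWord, ct_2_4]
  simp only [List.map_cons, List.map_nil, List.prod_cons, List.prod_nil]
  apply Units.ext
  simp only [Units.val_mul, xg_val, Units.val_one]
  apply mat_ext_mulVec
  intro v
  simp only [← Matrix.mulVec_mulVec, Matrix.one_mulVec, xm_mulVec_2, xm_mulVec_4]
  funext i; fin_cases i <;> simp <;> ring
theorem ct_2_5 : chevD4.commTerms 2 5 = [] := by decide
theorem rel_2_5 (t u : F) : xg 5 u * xg 2 t = xg 2 t * xg 5 u * ((chevD4.commWord F 2 5 t u).map fun p => xg p.1 p.2).prod := by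
  rw [ChevalleyDatum.commWord, ct_2_5]
  simp only [List.map_cons, List.map_nil, List.prod_cons, List.prod_nil]
  apply Units.ext
  simp only [Units.val_mul, xg_val, Units.val_one]
  apply mat_ext_mulVec
  intro v
  simp only [← Matrix.mulVec_mulVec, Matrix.one_mulVec, xm_mulVec_2, xm_mulVec_5]
  funext i; fin_cases i <;> simp <;> ring
theorem ct_2_6 : chevD4.commTerms 2 6 = [] := by decide
theorem rel_2_6 (t u : F) : xg 6 u * xg 2 t = xg 2 t * xg 6 u * ((chevD4.commWord F 2 6 t u).map fun p => xg p.1 p.2).prod := by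
  rw [ChevalleyDatum.commWord, ct_2_6]
  simp only [List.map_cons, List.map_nil, List.prod_cons, List.prod_nil]
  apply Units.ext
  simp only [Units.val_mul, xg_val, Units.val_one]
  apply mat_ext_mulVec
  intro v
  simp only [← Matrix.mulVec_mulVec, Matrix.one_mulVec, xm_mulVec_2, xm_mulVec_6]
  funext i; fin_cases i <;> simp <;> ring
theorem ct_2_7 : chevD4.commTerms 2 7 = [] := by decide
theorem rel_2_7 (t u : F) : xg 7 u * xg 2 t = xg 2 t * xg 7 u * ((chevD4.commWord F 2 7 t u).map fun p => xg p.1 p.2).prod := by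
  rw [ChevalleyDatum.commWord, ct_2_7]
  simp only [List.map_cons, List.map_nil, List.prod_cons, List.prod_nil]
  apply Units.ext
  simp only [Units.val_mul, xg_val, Units.val_one]
  apply mat_ext_mulVec
  intro v
  simp only [← Matrix.mulVec_mulVec, Matrix.one_mulVec, xm_mulVec_2, xm_mulVec_7]
  funext i; fin_cases i <;> simp <;> ring
theorem ct_2_8 : chevD4.commTerms 2 8 = [(0, -1, 1, 1)] := by decide
theorem rel_2_8 (t u : F) : xg 8 u * xg 2 t = xg 2 t * xg 8 u * ((chevD4.commWord F 2 8 t u).map fun p => xg p.1 p.2).prod := by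
  rw [ChevalleyDatum.commWord, ct_2_8]
  simp only [List.map_cons, List.map_nil, List.prod_cons, List.prod_nil]
  apply Units.ext
  simp only [Units.val_mul, xg_val, Units.val_one]
  apply mat_ext_mulVec
  intro v
  simp only [← Matrix.mulVec_mulVec, Matrix.one_mulVec, xm_mulVec_0, xm_mulVec_2, xm_mulVec_8]
  funext i; fin_cases i <;> simp <;> ring
theorem ct_2_9 : chevD4.commTerms 2 9 = [] := by decide
theorem rel_2_9 (t u : F) : xg 9 u * xg 2 t = xg 2 t * xg 9 u * ((chevD4.commWord F 2 9 t u).map fun p => xg p.1 p.2).prod := by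
  rw [ChevalleyDatum.commWord, ct_2_9]
  simp only [List.map_cons, List.map_nil, List.prod_cons, List.prod_nil]
  apply Units.ext
  simp only [Units.val_mul, xg_val, Units.val_one]
  apply mat_ext_mulVec
  intro v
  simp only [← Matrix.mulVec_mulVec, Matrix.one_mulVec, xm_mulVec_2, xm_mulVec_9]
  funext i; fin_cases i <;> simp <;> ring
theorem ct_2_10 : chevD4.commTerms 2 10 = [] := by decide
theorem rel_2_10 (t u : F) : xg 10 u * xg 2 t = xg 2 t * xg 10 u * ((chevD4.commWord F 2 10 t u).map fun p => xg p.1 p.2).prod := by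
  rw [ChevalleyDatum.commWord, ct_2_10]
  simp only [List.map_cons, List.map_nil, List.prod_cons, List.prod_nil]
  apply Units.ext
  simp only [Units.val_mul, xg_val, Units.val_one]
  apply mat_ext_mulVec
  intro v
  simp only [← Matrix.mulVec_mulVec, Matrix.one_mulVec, xm_mulVec_2, xm_mulVec_10]
  funext i; fin_cases i <;> simp <;> ring
theorem ct_2_11 : chevD4.commTerms 2 11 = [(1, 1, 1, 1)] := by decide
theorem rel_2_11 (t u : F) : xg 11 u * xg 2 t = xg 2 t * xg 11 u * ((chevD4.commWord F 2 11 t u).map fun p => xg p.1 p.2).prod := by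
  rw [ChevalleyDatum.commWord, ct_2_11]
  simp only [List.map_cons, List.map_nil, List.prod_cons, List.prod_nil]
  apply Units.ext
  simp only [Units.val_mul, xg_val, Units.val_one]
  apply mat_ext_mulVec
  intro v
  simp only [← Matrix.mulVec_mulVec, Matrix.one_mulVec, xm_mulVec_1, xm_mulVec_2, xm_mulVec_11]
  funext i; fin_cases i <;> simp <;> ring
theorem ct_2_12 : chevD4.commTerms 2 12 = [] := by decide
theorem rel_2_12 (t u : F) : xg 12 u * xg 2 t = xg 2 t * xg 12 u * ((chevD4.commWord F 2 12 t u).map fun p => xg p.1 p.2).prod := by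
  rw [ChevalleyDatum.commWord, ct_2_12]
  simp only [List.map_cons, List.map_nil, List.prod_cons, List.prod_nil]
  apply Units.ext
  simp only [Units.val_mul, xg_val, Units.val_one]
  apply mat_ext_mulVec
  intro v
  simp only [← Matrix.mulVec_mulVec, Matrix.one_mulVec, xm_mulVec_2, xm_mulVec_12]
  funext i; fin_cases i <;> simp <;> ring
theorem ct_2_13 : chevD4.commTerms 2 13 = [(4, 1, 1, 1)] := by decide
theorem rel_2_13 (t u : F) : xg 13 u * xg 2 t = xg 2 t * xg 13 u * ((chevD4.commWord F 2 13 t u).map fun p => xg p.1 p.2).prod := by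
  rw [ChevalleyDatum.commWord, ct_2_13]
  simp only [List.map_cons, List.map_nil, List.prod_cons, List.prod_nil]
  apply Units.ext
  simp only [Units.val_mul, xg_val, Units.val_one]
  apply mat_ext_mulVec
  intro v
  simp only [← Matrix.mulVec_mulVec, Matrix.one_mulVec, xm_mulVec_2, xm_mulVec_4, xm_mulVec_13]
  funext i; fin_cases i <;> simp <;> ring
theorem ct_2_14 : chevD4.commTerms 2 14 = [] := by decide
theorem rel_2_14 (t u : F) : xg 14 u * xg 2 t = xg 2 t * xg 14 u * ((chevD4.commWord F 2 14 t u).map fun p => xg p.1 p.2).prod := by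
  rw [ChevalleyDatum.commWord, ct_2_14]
  simp only [List.map_cons, List.map_nil, List.prod_cons, List.prod_nil]
  apply Units.ext
  simp only [Units.val_mul, xg_val, Units.val_one]
  apply mat_ext_mulVec
  intro v
  simp only [← Matrix.mulVec_mulVec, Matrix.one_mulVec, xm_mulVec_2, xm_mulVec_14]
  funext i; fin_cases i <;> simp <;> ring
theorem ct_2_15 : chevD4.commTerms 2 15 = [] := by decide
theorem rel_2_15 (t u : F) : xg 15 u * xg 2 t = xg 2 t * xg 15 u * ((chevD4.commWord F 2 15 t u).map fun p => xg p.1 p.2).prod := by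
  rw [ChevalleyDatum.commWord, ct_2_15]
  simp only [List.map_cons, List.map_nil, List.prod_cons, List.prod_nil]
  apply Units.ext
  simp only [Units.val_mul, xg_val, Units.val_one]
  apply mat_ext_mulVec
  intro v
  simp only [← Matrix.mulVec_mulVec, Matrix.one_mulVec, xm_mulVec_2, xm_mulVec_15]
  funext i; fin_cases i <;> simp <;> ring
theorem ct_2_16 : chevD4.commTerms 2 16 = [(5, 1, 1, 1)] := by decide
theorem rel_2_16 (t u : F) : xg 16 u * xg 2 t = xg 2 t * xg 16 u * ((chevD4.commWord F 2 16 t u).map fun p => xg p.1 p.2).prod := by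
  rw [ChevalleyDatum.commWord, ct_2_16]
  simp only [List.map_cons, List.map_nil, List.prod_cons, List.prod_nil]
  apply Units.ext
  simp only [Units.val_mul, xg_val, Units.val_one]
  apply mat_ext_mulVec
  intro v
  simp only [← Matrix.mulVec_mulVec, Matrix.one_mulVec, xm_mulVec_2, xm_mulVec_5, xm_mulVec_16]
  funext i; fin_cases i <;> simp <;> ring
theorem ct_2_17 : chevD4.commTerms 2 17 = [] := by decide
theorem rel_2_17 (t u : F) : xg 17 u * xg 2 t = xg 2 t * xg 17 u * ((chevD4.commWord F 2 17 t u).map fun p => xg p.1 p.2).prod := by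
  rw [ChevalleyDatum.commWord, ct_2_17]
  simp only [List.map_cons, List.map_nil, List.prod_cons, List.prod_nil]
  apply Units.ext
  simp only [Units.val_mul, xg_val, Units.val_one]
  apply mat_ext_mulVec
  intro v
  simp only [← Matrix.mulVec_mulVec, Matrix.one_mulVec, xm_mulVec_2, xm_mulVec_17]
  funext i; fin_cases i <;> simp <;> ring
theorem ct_2_18 : chevD4.commTerms 2 18 = [(7, -1, 1, 1)] := by decide
theorem rel_2_18 (t u : F) : xg 18 u * xg 2 t = xg 2 t * xg 18 u * ((chevD4.commWord F 2 18 t u).map fun p => xg p.1 p.2).prod := by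
  rw [ChevalleyDatum.commWord, ct_2_18]
  simp only [List.map_cons, List.map_nil, List.prod_cons, List.prod_nil]
  apply Units.ext
  simp only [Units.val_mul, xg_val, Units.val_one]
  apply mat_ext_mulVec
  intro v
  simp only [← Matrix.mulVec_mulVec, Matrix.one_mulVec, xm_mulVec_2, xm_mulVec_7, xm_mulVec_18]
  funext i; fin_cases i <;> simp <;> ring
theorem ct_2_19 : chevD4.commTerms 2 19 = [(10, -1, 1, 1)] := by decide
theorem rel_2_19 (t u : F) : xg 19 u * xg 2 t = xg 2 t * xg 19 u * ((chevD4.commWord F 2 19 t u).map fun p => xg p.1 p.2).prod := by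
  rw [ChevalleyDatum.commWord, ct_2_19]
  simp only [List.map_cons, List.map_nil, List.prod_cons, List.prod_nil]
  apply Units.ext
  simp only [Units.val_mul, xg_val, Units.val_one]
  apply mat_ext_mulVec
  intro v
  simp only [← Matrix.mulVec_mulVec, Matrix.one_mulVec, xm_mulVec_2, xm_mulVec_10, xm_mulVec_19]
  funext i; fin_cases i <;> simp <;> ring
theorem ct_2_20 : chevD4.commTerms 2 20 = [] := by decide
theorem rel_2_20 (t u : F) : xg 20 u * xg 2 t = xg 2 t * xg 20 u * ((chevD4.commWord F 2 20 t u).map fun p => xg p.1 p.2).prod := by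
  rw [ChevalleyDatum.commWord, ct_2_20]
  simp only [List.map_cons, List.map_nil, List.prod_cons, List.prod_nil]
  apply Units.ext
  simp only [Units.val_mul, xg_val, Units.val_one]
  apply mat_ext_mulVec
  intro v
  simp only [← Matrix.mulVec_mulVec, Matrix.one_mulVec, xm_mulVec_2, xm_mulVec_20]
  funext i; fin_cases i <;> simp <;> ring
theorem ct_2_22 : chevD4.commTerms 2 22 = [(12, -1, 1, 1)] := by decide
theorem rel_2_22 (t u : F) : xg 22 u * xg 2 t = xg 2 t * xg 22 u * ((chevD4.commWord F 2 22 t u).map fun p => xg p.1 p.2).prod := by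
  rw [ChevalleyDatum.commWord, ct_2_22]
  simp only [List.map_cons, List.map_nil, List.prod_cons, List.prod_nil]
  apply Units.ext
  simp only [Units.val_mul, xg_val, Units.val_one]
  apply mat_ext_mulVec
  intro v
  simp only [← Matrix.mulVec_mulVec, Matrix.one_mulVec, xm_mulVec_2, xm_mulVec_12, xm_mulVec_22]
  funext i; fin_cases i <;> simp <;> ring
theorem ct_2_23 : chevD4.commTerms 2 23 = [(15, 1, 1, 1)] := by decide
theorem rel_2_23 (t u : F) : xg 23 u * xg 2 t = xg 2 t * xg 23 u * ((chevD4.commWord F 2 23 t u).map fun p => xg p.1 p.2).prod := by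
  rw [ChevalleyDatum.commWord, ct_2_23]
  simp only [List.map_cons, List.map_nil, List.prod_cons, List.prod_nil]
  apply Units.ext
  simp only [Units.val_mul, xg_val, Units.val_one]
  apply mat_ext_mulVec
  intro v
  simp only [← Matrix.mulVec_mulVec, Matrix.one_mulVec, xm_mulVec_2, xm_mulVec_15, xm_mulVec_23]
  funext i; fin_cases i <;> simp <;> ring

end Cfsg.Agent.Helper17.D4
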