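-- helper17: Steinberg's commutator relations for the explicit root elements of O_8^+ (S1082); machine generated.
import Cfsg.Agent.Helper17.D4Defs

set_option autoImplicit false
set_option linter.unusedSimpArgs false
set_option linter.unnecessarySeqFocus false
open Matrix Cfsg Cfsg.Lie

namespace Cfsg.Agent.Helper17.D4

variable {F : Type*} [Field F]

theorem ct_3_0 : chevD4.commTerms 3 0 = [] := by decide
theorem rel_3_0 (t u : F) : xg 0 u * xg 3 t = xg 3 t * xg 0 u * ((chevD4.commWord F 3 0 t u).map fun p => xg p.1 p.2).prod := by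
  rw [ChevalleyDatum.commWord, ct_3_0]
  simp only [List.map_cons, List.map_nil, List.prod_cons, List.prod_nil]
  apply Units.ext
  simp only [Units.val_mul, xg_val, Units.val_one]
  apply mat_ext_mulVec
  intro v
  simp only [← Matrix.mulVec_mulVec, Matrix.one_mulVec, xm_mulVec_0, xm_mulVec_3]
  funext i; fin_cases i <;> simp <;> ring
theorem ct_3_1 : chevD4.commTerms 3 1 = [] := by decide
theorem rel_3_1 (t u : F) : xg 1 u * xg 3 t = xg 3 t * xg 1 u * ((chevD4.commWord F 3 1 t u).map fun p => xg p.1 p.2).prod := by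
  rw [ChevalleyDatum.commWord, ct_3_1]
  simp only [List.map_cons, List.map_nil, List.prod_cons, List.prod_nil]
  apply Units.ext
  simp only [Units.val_mul, xg_val, Units.val_one]
  apply mat_ext_mulVec
  intro v
  simp only [← Matrix.mulVec_mulVec, Matrix.one_mulVec, xm_mulVec_1, xm_mulVec_3]
  funext i; fin_cases i <;> simp <;> ring
theorem ct_3_2 : chevD4.commTerms 3 2 = [] := by decide
theorem rel_3_2 (t u : F) : xg 2 u * xg 3 t = xg 3 t * xg 2 u * ((chevD4.commWord F 3 2 t u).map fun p => xg p.1 p.2).prod := by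
  rw [ChevalleyDatum.commWord, ct_3_2]
  simp only [List.map_cons, List.map_nil, List.prod_cons, List.prod_nil]
  apply Units.ext
  simp only [Units.val_mul, xg_val, Units.val_one]
  apply mat_ext_mulVec
  intro v
  simp only [← Matrix.mulVec_mulVec, Matrix.one_mulVec, xm_mulVec_2, xm_mulVec_3]
  funext i; fin_cases i <;> simp <;> ring
theorem ct_3_4 : chevD4.commTerms 3 4 = [] := by decide
theorem rel_3_4 (t u : F) : xg 4 u * xg 3 t = xg 3 t * xg 4 u * ((chevD4.commWord F 3 4 t u).map fun p => xg p.1 p.2).prod := by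
  rw [ChevalleyDatum.commWord, ct_3_4]
  simp only [List.map_cons, List.map_nil, List.prod_cons, List.prod_nil]
  apply Units.ext
  simp only [Units.val_mul, xg_val, Units.val_one]
  apply mat_ext_mulVec
  intro v
  simp only [← Matrix.mulVec_mulVec, Matrix.one_mulVec, xm_mulVec_3, xm_mulVec_4]
  funext i; fin_cases i <;> simp <;> ring
theorem ct_3_5 : chevD4.commTerms 3 5 = [] := by decide
theorem rel_3_5 (t u : F) : xg 5 u * xg 3 t = xg 3 t * xg 5 u * ((chevD4.commWord F 3 5 t u).map fun p => xg p.1 p.2).prod := by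
  rw [ChevalleyDatum.commWord, ct_3_5]
  simp only [List.map_cons, List.map_nil, List.prod_cons, List.prod_nil]
  apply Units.ext
  simp only [Units.val_mul, xg_val, Units.val_one]
  apply mat_ext_mulVec
  intro v
  simp only [← Matrix.mulVec_mulVec, Matrix.one_mulVec, xm_mulVec_3, xm_mulVec_5]
  funext i; fin_cases i <;> simp <;> ring
theorem ct_3_6 : chevD4.commTerms 3 6 = [] := by decide
theorem rel_3_6 (t u : F) : xg 6 u * xg 3 t = xg 3 t * xg 6 u * ((chevD4.commWord F 3 6 t u).map fun p => xg p.1 p.2).prod := by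
  rw [ChevalleyDatum.commWord, ct_3_6]
  simp only [List.map_cons, List.map_nil, List.prod_cons, List.prod_nil]
  apply Units.ext
  simp only [Units.val_mul, xg_val, Units.val_one]
  apply mat_ext_mulVec
  intro v
  simp only [← Matrix.mulVec_mulVec, Matrix.one_mulVec, xm_mulVec_3, xm_mulVec_6]
  funext i; fin_cases i <;> simp <;> ring
theorem ct_3_7 : chevD4.commTerms 3 7 = [(0, -1, 1, 1)] := by decide
theorem rel_3_7 (t u : F) : xg 7 u * xg 3 t = xg 3 t * xg 7 u * ((chevD4.commWord F 3 7 t u).map fun p => xg p.1 p.2).prod := by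
  rw [ChevalleyDatum.commWord, ct_3_7]
  simp only [List.map_cons, List.map_nil, List.prod_cons, List.prod_nil]
  apply Units.ext
  simp only [Units.val_mul, xg_val, Units.val_one]
  apply mat_ext_mulVec
  intro v
  simp only [← Matrix.mulVec_mulVec, Matrix.one_mulVec, xm_mulVec_0, xm_mulVec_3, xm_mulVec_7]
  funext i; fin_cases i <;> simp <;> ring
theorem ct_3_8 : chevD4.commTerms 3 8 = [] := by decide
theorem rel_3_8 (t u : F) : xg 8 u * xg 3 t = xg 3 t * xg 8 u * ((chevD4.commWord F 3 8 t u).map fun p => xg p.1 p.2).prod := by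
  rw [ChevalleyDatum.commWord, ct_3_8]
  simp only [List.map_cons, List.map_nil, List.prod_cons, List.prod_nil]
  apply Units.ext
  simp only [Units.val_mul, xg_val, Units.val_one]
  apply mat_ext_mulVec
  intro v
  simp only [← Matrix.mulVec_mulVec, Matrix.one_mulVec, xm_mulVec_3, xm_mulVec_8]
  funext i; fin_cases i <;> simp <;> ring
theorem ct_3_9 : chevD4.commTerms 3 9 = [] := by decide
theorem rel_3_9 (t u : F) : xg 9 u * xg 3 t = xg 3 t * xg 9 u * ((chevD4.commWord F 3 9 t u).map fun p => xg p.1 p.2).prod := by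
  rw [ChevalleyDatum.commWord, ct_3_9]
  simp only [List.map_cons, List.map_nil, List.prod_cons, List.prod_nil]
  apply Units.ext
  simp only [Units.val_mul, xg_val, Units.val_one]
  apply mat_ext_mulVec
  intro v
  simp only [← Matrix.mulVec_mulVec, Matrix.one_mulVec, xm_mulVec_3, xm_mulVec_9]
  funext i; fin_cases i <;> simp <;> ring
theorem ct_3_10 : chevD4.commTerms 3 10 = [(1, 1, 1, 1)] := by decide
theorem rel_3_10 (t u : F) : xg 10 u * xg 3 t = xg 3 t * xg 10 u * ((chevD4.commWord F 3 10 t u).map fun p => xg p.1 p.2).prod := by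
  rw [ChevalleyDatum.commWord, ct_3_10]
  simp only [List.map_cons, List.map_nil, List.prod_cons, List.prod_nil]
  apply Units.ext
  simp only [Units.val_mul, xg_val, Units.val_one]
  apply mat_ext_mulVec
  intro v
  simp only [← Matrix.mulVec_mulVec, Matrix.one_mulVec, xm_mulVec_1, xm_mulVec_3, xm_mulVec_10]
  funext i; fin_cases i <;> simp <;> ring
theorem ct_3_11 : chevD4.commTerms 3 11 = [] := by decide
theorem rel_3_11 (t u : F) : xg 11 u * xg 3 t = xg 3 t * xg 11 u * ((chevD4.commWord F 3 11 t u).map fun p => xg p.1 p.2).prod := by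
  rw [ChevalleyDatum.commWord, ct_3_11]
  simp only [List.map_cons, List.map_nil, List.prod_cons, List.prod_nil]
  apply Units.ext
  simp only [Units.val_mul, xg_val, Units.val_one]
  apply mat_ext_mulVec
  intro v
  simp only [← Matrix.mulVec_mulVec, Matrix.one_mulVec, xm_mulVec_3, xm_mulVec_11]
  funext i; fin_cases i <;> simp <;> ring
theorem ct_3_12 : chevD4.commTerms 3 12 = [(4, 1, 1, 1)] := by decide
theorem rel_3_12 (t u : F) : xg 12 u * xg 3 t = xg 3 t * xg 12 u * ((chevD4.commWord F 3 12 t u).map fun p => xg p.1 p.2).prod := by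
  rw [ChevalleyDatum.commWord, ct_3_12]
  simp only [List.map_cons, List.map_nil, List.prod_cons, List.prod_nil]
  apply Units.ext
  simp only [Units.val_mul, xg_val, Units.val_one]
  apply mat_ext_mulVec
  intro v
  simp only [← Matrix.mulVec_mulVec, Matrix.one_mulVec, xm_mulVec_3, xm_mulVec_4, xm_mulVec_12]
  funext i; fin_cases i <;> simp <;> ring
theorem ct_3_13 : chevD4.commTerms 3 13 = [] := by decide
theorem rel_3_13 (t u : F) : xg 13 u * xg 3 t = xg 3 t * xg 13 u * ((chevD4.commWord F 3 13 t u).map fun p => xg p.1 p.2).prod := by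
  rw [ChevalleyDatum.commWord, ct_3_13]
  simp only [List.map_cons, List.map_nil, List.prod_cons, List.prod_nil]
  apply Units.ext
  simp only [Units.val_mul, xg_val, Units.val_one]
  apply mat_ext_mulVec
  intro v
  simp only [← Matrix.mulVec_mulVec, Matrix.one_mulVec, xm_mulVec_3, xm_mulVec_13]
  funext i; fin_cases i <;> simp <;> ring
theorem ct_3_14 : chevD4.commTerms 3 14 = [] := by decide
theorem rel_3_14 (t u : F) : xg 14 u * xg 3 t = xg 3 t * xg 14 u * ((chevD4.commWord F 3 14 t u).map fun p => xg p.1 p.2).prod := by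
  rw [ChevalleyDatum.commWord, ct_3_14]
  simp only [List.map_cons, List.map_nil, List.prod_cons, List.prod_nil]
  apply Units.ext
  simp only [Units.val_mul, xg_val, Units.val_one]
  apply mat_ext_mulVec
  intro v
  simp only [← Matrix.mulVec_mulVec, Matrix.one_mulVec, xm_mulVec_3, xm_mulVec_14]
  funext i; fin_cases i <;> simp <;> ring
theorem ct_3_15 : chevD4.commTerms 3 15 = [(5, 1, 1, 1)] := by decide
theorem rel_3_15 (t u : F) : xg 15 u * xg 3 t = xg 3 t * xg 15 u * ((chevD4.commWord F 3 15 t u).map fun p => xg p.1 p.2).prod := by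
  rw [ChevalleyDatum.commWord, ct_3_15]
  simp only [List.map_cons, List.map_nil, List.prod_cons, List.prod_nil]
  apply Units.ext
  simp only [Units.val_mul, xg_val, Units.val_one]
  apply mat_ext_mulVec
  intro v
  simp only [← Matrix.mulVec_mulVec, Matrix.one_mulVec, xm_mulVec_3, xm_mulVec_5, xm_mulVec_15]
  funext i; fin_cases i <;> simp <;> ring
theorem ct_3_16 : chevD4.commTerms 3 16 = [] := by decide
theorem rel_3_16 (t u : F) : xg 16 u * xg 3 t = xg 3 t * xg 16 u * ((chevD4.commWord F 3 16 t u).map fun p => xg p.1 p.2).prod := by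
  rw [ChevalleyDatum.commWord, ct_3_16]
  simp only [List.map_cons, List.map_nil, List.prod_cons, List.prod_nil]
  apply Units.ext
  simp only [Units.val_mul, xg_val, Units.val_one]
  apply mat_ext_mulVec
  intro v
  simp only [← Matrix.mulVec_mulVec, Matrix.one_mulVec, xm_mulVec_3, xm_mulVec_16]
  funext i; fin_cases i <;> simp <;> ring
theorem ct_3_17 : chevD4.commTerms 3 17 = [] := by decide
theorem rel_3_17 (t u : F) : xg 17 u * xg 3 t = xg 3 t * xg 17 u * ((chevD4.commWord F 3 17 t u).map fun p => xg p.1 p.2).prod := by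
  rw [ChevalleyDatum.commWord, ct_3_17]
  simp only [List.map_cons, List.map_nil, List.prod_cons, List.prod_nil]
  apply Units.ext
  simp only [Units.val_mul, xg_val, Units.val_one]
  apply mat_ext_mulVec
  intro v
  simp only [← Matrix.mulVec_mulVec, Matrix.one_mulVec, xm_mulVec_3, xm_mulVec_17]
  funext i; fin_cases i <;> simp <;> ring
theorem ct_3_18 : chevD4.commTerms 3 18 = [(8, -1, 1, 1)] := by decide
theorem rel_3_18 (t u : F) : xg 18 u * xg 3 t = xg 3 t * xg 18 u * ((chevD4.commWord F 3 18 t u).map fun p => xg p.1 p.2).prod := by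
  rw [ChevalleyDatum.commWord, ct_3_18]
  simp only [List.map_cons, List.map_nil, List.prod_cons, List.prod_nil]
  apply Units.ext
  simp only [Units.val_mul, xg_val, Units.val_one]
  apply mat_ext_mulVec
  intro v
  simp only [← Matrix.mulVec_mulVec, Matrix.one_mulVec, xm_mulVec_3, xm_mulVec_8, xm_mulVec_18]
  funext i; fin_cases i <;> simp <;> ring
theorem ct_3_19 : chevD4.commTerms 3 19 = [(11, -1, 1, 1)] := by decide
theorem rel_3_19 (t u : F) : xg 19 u * xg 3 t = xg 3 t * xg 19 u * ((chevD4.commWord F 3 19 t u).map fun p => xg p.1 p.2).prod := by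
  rw [ChevalleyDatum.commWord, ct_3_19]
  simp only [List.map_cons, List.map_nil, List.prod_cons, List.prod_nil]
  apply Units.ext
  simp only [Units.val_mul, xg_val, Units.val_one]
  apply mat_ext_mulVec
  intro v
  simp only [← Matrix.mulVec_mulVec, Matrix.one_mulVec, xm_mulVec_3, xm_mulVec_11, xm_mulVec_19]
  funext i; fin_cases i <;> simp <;> ring
theorem ct_3_21 : chevD4.commTerms 3 21 = [] := by decide
theorem rel_3_21 (t u : F) : xg 21 u * xg 3 t = xg 3 t * xg 21 u * ((chevD4.commWord F 3 21 t u).map fun p => xg p.1 p.2).prod := by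
  rw [ChevalleyDatum.commWord, ct_3_21]
  simp only [List.map_cons, List.map_nil, List.prod_cons, List.prod_nil]
  apply Units.ext
  simp only [Units.val_mul, xg_val, Units.val_one]
  apply mat_ext_mulVec
  intro v
  simp only [← Matrix.mulVec_mulVec, Matrix.one_mulVec, xm_mulVec_3, xm_mulVec_21]
  funext i; fin_cases i <;> simp <;> ring
theorem ct_3_22 : chevD4.commTerms 3 22 = [(13, -1, 1, 1)] := by decide
theorem rel_3_22 (t u : F) : xg 22 u * xg 3 t = xg 3 t * xg 22 u * ((chevD4.commWord F 3 22 t u).map fun p => xg p.1 p.2).prod := by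
  rw [ChevalleyDatum.commWord, ct_3_22]
  simp only [List.map_cons, List.map_nil, List.prod_cons, List.prod_nil]
  apply Units.ext
  simp only [Units.val_mul, xg_val, Units.val_one]
  apply mat_ext_mulVec
  intro v
  simp only [← Matrix.mulVec_mulVec, Matrix.one_mulVec, xm_mulVec_3, xm_mulVec_13, xm_mulVec_22]
  funext i; fin_cases i <;> simp <;> ring
theorem ct_3_23 : chevD4.commTerms 3 23 = [(16, 1, 1, 1)] := by decide
theorem rel_3_23 (t u : F) : xg 23 u * xg 3 t = xg 3 t * xg 23 u * ((chevD4.commWord F 3 23 t u).map fun p => xg p.1 p.2).prod := by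
  rw [ChevalleyDatum.commWord, ct_3_23]
  simp only [List.map_cons, List.map_nil, List.prod_cons, List.prod_nil]
  apply Units.ext
  simp only [Units.val_mul, xg_val, Units.val_one]
  apply mat_ext_mulVec
  intro v
  simp only [← Matrix.mulVec_mulVec, Matrix.one_mulVec, xm_mulVec_3, xm_mulVec_16, xm_mulVec_23]
  funext i; fin_cases i <;> simp <;> ring
theorem ct_4_0 : chevD4.commTerms 4 0 = [] := by decide
theorem rel_4_0 (t u : F) : xg 0 u * xg 4 t = xg 4 t * xg 0 u * ((chevD4.commWord F 4 0 t u).map fun p => xg p.1 p.2).prod := by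
  rw [ChevalleyDatum.commWord, ct_4_0]
  simp only [List.map_cons, List.map_nil, List.prod_cons, List.prod_nil]
  apply Units.ext
  simp only [Units.val_mul, xg_val, Units.val_one]
  apply mat_ext_mulVec
  intro v
  simp only [← Matrix.mulVec_mulVec, Matrix.one_mulVec, xm_mulVec_0, xm_mulVec_4]
  funext i; fin_cases i <;> simp <;> ring
theorem ct_4_1 : chevD4.commTerms 4 1 = [] := by decide
theorem rel_4_1 (t u : F) : xg 1 u * xg 4 t = xg 4 t * xg 1 u * ((chevD4.commWord F 4 1 t u).map fun p => xg p.1 p.2).prod := by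
  rw [ChevalleyDatum.commWord, ct_4_1]
  simp only [List.map_cons, List.map_nil, List.prod_cons, List.prod_nil]
  apply Units.ext
  simp only [Units.val_mul, xg_val, Units.val_one]
  apply mat_ext_mulVec
  intro v
  simp only [← Matrix.mulVec_mulVec, Matrix.one_mulVec, xm_mulVec_1, xm_mulVec_4]
  funext i; fin_cases i <;> simp <;> ring
theorem ct_4_2 : chevD4.commTerms 4 2 = [] := by decide
theorem rel_4_2 (t u : F) : xg 2 u * xg 4 t = xg 4 t * xg 2 u * ((chevD4.commWord F 4 2 t u).map fun p => xg p.1 p.2).prod := by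
  rw [ChevalleyDatum.commWord, ct_4_2]
  simp only [List.map_cons, List.map_nil, List.prod_cons, List.prod_nil]
  apply Units.ext
  simp only [Units.val_mul, xg_val, Units.val_one]
  apply mat_ext_mulVec
  intro v
  simp only [← Matrix.mulVec_mulVec, Matrix.one_mulVec, xm_mulVec_2, xm_mulVec_4]
  funext i; fin_cases i <;> simp <;> ring
theorem ct_4_3 : chevD4.commTerms 4 3 = [] := by decide
theorem rel_4_3 (t u : F) : xg 3 u * xg 4 t = xg 4 t * xg 3 u * ((chevD4.commWord F 4 3 t u).map fun p => xg p.1 p.2).prod := by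
  rw [ChevalleyDatum.commWord, ct_4_3]
  simp only [List.map_cons, List.map_nil, List.prod_cons, List.prod_nil]
  apply Units.ext
  simp only [Units.val_mul, xg_val, Units.val_one]
  apply mat_ext_mulVec
  intro v
  simp only [← Matrix.mulVec_mulVec, Matrix.one_mulVec, xm_mulVec_3, xm_mulVec_4]
  funext i; fin_cases i <;> simp <;> ring
theorem ct_4_5 : chevD4.commTerms 4 5 = [] := by decide
theorem rel_4_5 (t u : F) : xg 5 u * xg 4 t = xg 4 t * xg 5 u * ((chevD4.commWord F 4 5 t u).map fun p => xg p.1 p.2).prod := by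
  rw [ChevalleyDatum.commWord, ct_4_5]
  simp only [List.map_cons, List.map_nil, List.prod_cons, List.prod_nil]
  apply Units.ext
  simp only [Units.val_mul, xg_val, Units.val_one]
  apply mat_ext_mulVec
  intro v
  simp only [← Matrix.mulVec_mulVec, Matrix.one_mulVec, xm_mulVec_4, xm_mulVec_5]
  funext i; fin_cases i <;> simp <;> ring
theorem ct_4_6 : chevD4.commTerms 4 6 = [(0, 1, 1, 1)] := by decide
theorem rel_4_6 (t u : F) : xg 6 u * xg 4 t = xg 4 t * xg 6 u * ((chevD4.commWord F 4 6 t u).map fun p => xg p.1 p.2).prod := by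
  rw [ChevalleyDatum.commWord, ct_4_6]
  simp only [List.map_cons, List.map_nil, List.prod_cons, List.prod_nil]
  apply Units.ext
  simp only [Units.val_mul, xg_val, Units.val_one]
  apply mat_ext_mulVec
  intro v
  simp only [← Matrix.mulVec_mulVec, Matrix.one_mulVec, xm_mulVec_0, xm_mulVec_4, xm_mulVec_6]
  funext i; fin_cases i <;> simp <;> ring
theorem ct_4_7 : chevD4.commTerms 4 7 = [] := by decide
theorem rel_4_7 (t u : F) : xg 7 u * xg 4 t = xg 4 t * xg 7 u * ((chevD4.commWord F 4 7 t u).map fun p => xg p.1 p.2).prod := by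
  rw [ChevalleyDatum.commWord, ct_4_7]
  simp only [List.map_cons, List.map_nil, List.prod_cons, List.prod_nil]
  apply Units.ext
  simp only [Units.val_mul, xg_val, Units.val_one]
  apply mat_ext_mulVec
  intro v
  simp only [← Matrix.mulVec_mulVec, Matrix.one_mulVec, xm_mulVec_4, xm_mulVec_7]
  funext i; fin_cases i <;> simp <;> ring
theorem ct_4_8 : chevD4.commTerms 4 8 = [] := by decide
theorem rel_4_8 (t u : F) : xg 8 u * xg 4 t = xg 4 t * xg 8 u * ((chevD4.commWord F 4 8 t u).map fun p => xg p.1 p.2).prod := by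
  rw [ChevalleyDatum.commWord, ct_4_8]
  simp only [List.map_cons, List.map_nil, List.prod_cons, List.prod_nil]
  apply Units.ext
  simp only [Units.val_mul, xg_val, Units.val_one]
  apply mat_ext_mulVec
  intro v
  simp only [← Matrix.mulVec_mulVec, Matrix.one_mulVec, xm_mulVec_4, xm_mulVec_8]
  funext i; fin_cases i <;> simp <;> ring
theorem ct_4_9 : chevD4.commTerms 4 9 = [] := by decide
theorem rel_4_9 (t u : F) : xg 9 u * xg 4 t = xg 4 t * xg 9 u * ((chevD4.commWord F 4 9 t u).map fun p => xg p.1 p.2).prod := by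
  rw [ChevalleyDatum.commWord, ct_4_9]
  simp only [List.map_cons, List.map_nil, List.prod_cons, List.prod_nil]
  apply Units.ext
  simp only [Units.val_mul, xg_val, Units.val_one]
  apply mat_ext_mulVec
  intro v
  simp only [← Matrix.mulVec_mulVec, Matrix.one_mulVec, xm_mulVec_4, xm_mulVec_9]
  funext i; fin_cases i <;> simp <;> ring
theorem ct_4_10 : chevD4.commTerms 4 10 = [(2, 1, 1, 1)] := by decide
theorem rel_4_10 (t u : F) : xg 10 u * xg 4 t = xg 4 t * xg 10 u * ((chevD4.commWord F 4 10 t u).map fun p => xg p.1 p.2).prod := by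
  rw [ChevalleyDatum.commWord, ct_4_10]
  simp only [List.map_cons, List.map_nil, List.prod_cons, List.prod_nil]
  apply Units.ext
  simp only [Units.val_mul, xg_val, Units.val_one]
  apply mat_ext_mulVec
  intro v
  simp only [← Matrix.mulVec_mulVec, Matrix.one_mulVec, xm_mulVec_2, xm_mulVec_4, xm_mulVec_10]
  funext i; fin_cases i <;> simp <;> ring
theorem ct_4_11 : chevD4.commTerms 4 11 = [(3, 1, 1, 1)] := by decide
theorem rel_4_11 (t u : F) : xg 11 u * xg 4 t = xg 4 t * xg 11 u * ((chevD4.commWord F 4 11 t u).map fun p => xg p.1 p.2).prod := by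
  rw [ChevalleyDatum.commWord, ct_4_11]
  simp only [List.map_cons, List.map_nil, List.prod_cons, List.prod_nil]
  apply Units.ext
  simp only [Units.val_mul, xg_val, Units.val_one]
  apply mat_ext_mulVec
  intro v
  simp only [← Matrix.mulVec_mulVec, Matrix.one_mulVec, xm_mulVec_3, xm_mulVec_4, xm_mulVec_11]
  funext i; fin_cases i <;> simp <;> ring
theorem ct_4_12 : chevD4.commTerms 4 12 = [] := by decide
theorem rel_4_12 (t u : F) : xg 12 u * xg 4 t = xg 4 t * xg 12 u * ((chevD4.commWord F 4 12 t u).map fun p => xg p.1 p.2).prod := by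
  rw [ChevalleyDatum.commWord, ct_4_12]
  simp only [List.map_cons, List.map_nil, List.prod_cons, List.prod_nil]
  apply Units.ext
  simp only [Units.val_mul, xg_val, Units.val_one]
  apply mat_ext_mulVec
  intro v
  simp only [← Matrix.mulVec_mulVec, Matrix.one_mulVec, xm_mulVec_4, xm_mulVec_12]
  funext i; fin_cases i <;> simp <;> ring
theorem ct_4_13 : chevD4.commTerms 4 13 = [] := by decide
theorem rel_4_13 (t u : F) : xg 13 u * xg 4 t = xg 4 t * xg 13 u * ((chevD4.commWord F 4 13 t u).map fun p => xg p.1 p.2).prod := by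
  rw [ChevalleyDatum.commWord, ct_4_13]
  simp only [List.map_cons, List.map_nil, List.prod_cons, List.prod_nil]
  apply Units.ext
  simp only [Units.val_mul, xg_val, Units.val_one]
  apply mat_ext_mulVec
  intro v
  simp only [← Matrix.mulVec_mulVec, Matrix.one_mulVec, xm_mulVec_4, xm_mulVec_13]
  funext i; fin_cases i <;> simp <;> ring
theorem ct_4_14 : chevD4.commTerms 4 14 = [(5, 1, 1, 1)] := by decide
theorem rel_4_14 (t u : F) : xg 14 u * xg 4 t = xg 4 t * xg 14 u * ((chevD4.commWord F 4 14 t u).map fun p => xg p.1 p.2).prod := by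
  rw [ChevalleyDatum.commWord, ct_4_14]
  simp only [List.map_cons, List.map_nil, List.prod_cons, List.prod_nil]
  apply Units.ext
  simp only [Units.val_mul, xg_val, Units.val_one]
  apply mat_ext_mulVec
  intro v
  simp only [← Matrix.mulVec_mulVec, Matrix.one_mulVec, xm_mulVec_4, xm_mulVec_5, xm_mulVec_14]
  funext i; fin_cases i <;> simp <;> ring
theorem ct_4_15 : chevD4.commTerms 4 15 = [] := by decide
theorem rel_4_15 (t u : F) : xg 15 u * xg 4 t = xg 4 t * xg 15 u * ((chevD4.commWord F 4 15 t u).map fun p => xg p.1 p.2).prod := by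
  rw [ChevalleyDatum.commWord, ct_4_15]
  simp only [List.map_cons, List.map_nil, List.prod_cons, List.prod_nil]
  apply Units.ext
  simp only [Units.val_mul, xg_val, Units.val_one]
  apply mat_ext_mulVec
  intro v
  simp only [← Matrix.mulVec_mulVec, Matrix.one_mulVec, xm_mulVec_4, xm_mulVec_15]
  funext i; fin_cases i <;> simp <;> ring
theorem ct_4_16 : chevD4.commTerms 4 16 = [] := by decide
theorem rel_4_16 (t u : F) : xg 16 u * xg 4 t = xg 4 t * xg 16 u * ((chevD4.commWord F 4 16 t u).map fun p => xg p.1 p.2).prod := by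
  rw [ChevalleyDatum.commWord, ct_4_16]
  simp only [List.map_cons, List.map_nil, List.prod_cons, List.prod_nil]
  apply Units.ext
  simp only [Units.val_mul, xg_val, Units.val_one]
  apply mat_ext_mulVec
  intro v
  simp only [← Matrix.mulVec_mulVec, Matrix.one_mulVec, xm_mulVec_4, xm_mulVec_16]
  funext i; fin_cases i <;> simp <;> ring
theorem ct_4_17 : chevD4.commTerms 4 17 = [] := by decide
theorem rel_4_17 (t u : F) : xg 17 u * xg 4 t = xg 4 t * xg 17 u * ((chevD4.commWord F 4 17 t u).map fun p => xg p.1 p.2).prod := by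
  rw [ChevalleyDatum.commWord, ct_4_17]
  simp only [List.map_cons, List.map_nil, List.prod_cons, List.prod_nil]
  apply Units.ext
  simp only [Units.val_mul, xg_val, Units.val_one]
  apply mat_ext_mulVec
  intro v
  simp only [← Matrix.mulVec_mulVec, Matrix.one_mulVec, xm_mulVec_4, xm_mulVec_17]
  funext i; fin_cases i <;> simp <;> ring
theorem ct_4_18 : chevD4.commTerms 4 18 = [(9, -1, 1, 1)] := by decide
theorem rel_4_18 (t u : F) : xg 18 u * xg 4 t = xg 4 t * xg 18 u * ((chevD4.commWord F 4 18 t u).map fun p => xg p.1 p.2).prod := by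
  rw [ChevalleyDatum.commWord, ct_4_18]
  simp only [List.map_cons, List.map_nil, List.prod_cons, List.prod_nil]
  apply Units.ext
  simp only [Units.val_mul, xg_val, Units.val_one]
  apply mat_ext_mulVec
  intro v
  simp only [← Matrix.mulVec_mulVec, Matrix.one_mulVec, xm_mulVec_4, xm_mulVec_9, xm_mulVec_18]
  funext i; fin_cases i <;> simp <;> ring
theorem ct_4_20 : chevD4.commTerms 4 20 = [(12, -1, 1, 1)] := by decide
theorem rel_4_20 (t u : F) : xg 20 u * xg 4 t = xg 4 t * xg 20 u * ((chevD4.commWord F 4 20 t u).map fun p => xg p.1 p.2).prod := by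
  rw [ChevalleyDatum.commWord, ct_4_20]
  simp only [List.map_cons, List.map_nil, List.prod_cons, List.prod_nil]
  apply Units.ext
  simp only [Units.val_mul, xg_val, Units.val_one]
  apply mat_ext_mulVec
  intro v
  simp only [← Matrix.mulVec_mulVec, Matrix.one_mulVec, xm_mulVec_4, xm_mulVec_12, xm_mulVec_20]
  funext i; fin_cases i <;> simp <;> ring
theorem ct_4_21 : chevD4.commTerms 4 21 = [(13, -1, 1, 1)] := by decide
theorem rel_4_21 (t u : F) : xg 21 u * xg 4 t = xg 4 t * xg 21 u * ((chevD4.commWord F 4 21 t u).map fun p => xg p.1 p.2).prod := by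
  rw [ChevalleyDatum.commWord, ct_4_21]
  simp only [List.map_cons, List.map_nil, List.prod_cons, List.prod_nil]
  apply Units.ext
  simp only [Units.val_mul, xg_val, Units.val_one]
  apply mat_ext_mulVec
  intro v
  simp only [← Matrix.mulVec_mulVec, Matrix.one_mulVec, xm_mulVec_4, xm_mulVec_13, xm_mulVec_21]
  funext i; fin_cases i <;> simp <;> ring
theorem ct_4_22 : chevD4.commTerms 4 22 = [] := by decide
theorem rel_4_22 (t u : F) : xg 22 u * xg 4 t = xg 4 t * xg 22 u * ((chevD4.commWord F 4 22 t u).map fun p => xg p.1 p.2).prod := by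
  rw [ChevalleyDatum.commWord, ct_4_22]
  simp only [List.map_cons, List.map_nil, List.prod_cons, List.prod_nil]
  apply Units.ext
  simp only [Units.val_mul, xg_val, Units.val_one]
  apply mat_ext_mulVec
  intro v
  simp only [← Matrix.mulVec_mulVec, Matrix.one_mulVec, xm_mulVec_4, xm_mulVec_22]
  funext i; fin_cases i <;> simp <;> ring
theorem ct_4_23 : chevD4.commTerms 4 23 = [(17, -1, 1, 1)] := by decide
theorem rel_4_23 (t u : F) : xg 23 u * xg 4 t = xg 4 t * xg 23 u * ((chevD4.commWord F 4 23 t u).map fun p => xg p.1 p.2).prod := by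
  rw [ChevalleyDatum.commWord, ct_4_23]
  simp only [List.map_cons, List.map_nil, List.prod_cons, List.prod_nil]
  apply Units.ext
  simp only [Units.val_mul, xg_val, Units.val_one]
  apply mat_ext_mulVec
  intro v
  simp only [← Matrix.mulVec_mulVec, Matrix.one_mulVec, xm_mulVec_4, xm_mulVec_17, xm_mulVec_23]
  funext i; fin_cases i <;> simp <;> ring
theorem ct_5_0 : chevD4.commTerms 5 0 = [] := by decide
theorem rel_5_0 (t u : F) : xg 0 u * xg 5 t = xg 5 t * xg 0 u * ((chevD4.commWord F 5 0 t u).map fun p => xg p.1 p.2).prod := by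
  rw [ChevalleyDatum.commWord, ct_5_0]
  simp only [List.map_cons, List.map_nil, List.prod_cons, List.prod_nil]
  apply Units.ext
  simp only [Units.val_mul, xg_val, Units.val_one]
  apply mat_ext_mulVec
  intro v
  simp only [← Matrix.mulVec_mulVec, Matrix.one_mulVec, xm_mulVec_0, xm_mulVec_5]
  funext i; fin_cases i <;> simp <;> ring
theorem ct_5_1 : chevD4.commTerms 5 1 = [] := by decide
theorem rel_5_1 (t u : F) : xg 1 u * xg 5 t = xg 5 t * xg 1 u * ((chevD4.commWord F 5 1 t u).map fun p => xg p.1 p.2).prod := by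
  rw [ChevalleyDatum.commWord, ct_5_1]
  simp only [List.map_cons, List.map_nil, List.prod_cons, List.prod_nil]
  apply Units.ext
  simp only [Units.val_mul, xg_val, Units.val_one]
  apply mat_ext_mulVec
  intro v
  simp only [← Matrix.mulVec_mulVec, Matrix.one_mulVec, xm_mulVec_1, xm_mulVec_5]
  funext i; fin_cases i <;> simp <;> ring
theorem ct_5_2 : chevD4.commTerms 5 2 = [] := by decide
theorem rel_5_2 (t u : F) : xg 2 u * xg 5 t = xg 5 t * xg 2 u * ((chevD4.commWord F 5 2 t u).map fun p => xg p.1 p.2).prod := by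
  rw [ChevalleyDatum.commWord, ct_5_2]
  simp only [List.map_cons, List.map_nil, List.prod_cons, List.prod_nil]
  apply Units.ext
  simp only [Units.val_mul, xg_val, Units.val_one]
  apply mat_ext_mulVec
  intro v
  simp only [← Matrix.mulVec_mulVec, Matrix.one_mulVec, xm_mulVec_2, xm_mulVec_5]
  funext i; fin_cases i <;> simp <;> ring
theorem ct_5_3 : chevD4.commTerms 5 3 = [] := by decide
theorem rel_5_3 (t u : F) : xg 3 u * xg 5 t = xg 5 t * xg 3 u * ((chevD4.commWord F 5 3 t u).map fun p => xg p.1 p.2).prod := by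
  rw [ChevalleyDatum.commWord, ct_5_3]
  simp only [List.map_cons, List.map_nil, List.prod_cons, List.prod_nil]
  apply Units.ext
  simp only [Units.val_mul, xg_val, Units.val_one]
  apply mat_ext_mulVec
  intro v
  simp only [← Matrix.mulVec_mulVec, Matrix.one_mulVec, xm_mulVec_3, xm_mulVec_5]
  funext i; fin_cases i <;> simp <;> ring
theorem ct_5_4 : chevD4.commTerms 5 4 = [] := by decide
theorem rel_5_4 (t u : F) : xg 4 u * xg 5 t = xg 5 t * xg 4 u * ((chevD4.commWord F 5 4 t u).map fun p => xg p.1 p.2).prod := by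
  rw [ChevalleyDatum.commWord, ct_5_4]
  simp only [List.map_cons, List.map_nil, List.prod_cons, List.prod_nil]
  apply Units.ext
  simp only [Units.val_mul, xg_val, Units.val_one]
  apply mat_ext_mulVec
  intro v
  simp only [← Matrix.mulVec_mulVec, Matrix.one_mulVec, xm_mulVec_4, xm_mulVec_5]
  funext i; fin_cases i <;> simp <;> ring
theorem ct_5_6 : chevD4.commTerms 5 6 = [(1, 1, 1, 1)] := by decide
theorem rel_5_6 (t u : F) : xg 6 u * xg 5 t = xg 5 t * xg 6 u * ((chevD4.commWord F 5 6 t u).map fun p => xg p.1 p.2).prod := by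
  rw [ChevalleyDatum.commWord, ct_5_6]
  simp only [List.map_cons, List.map_nil, List.prod_cons, List.prod_nil]
  apply Units.ext
  simp only [Units.val_mul, xg_val, Units.val_one]
  apply mat_ext_mulVec
  intro v
  simp only [← Matrix.mulVec_mulVec, Matrix.one_mulVec, xm_mulVec_1, xm_mulVec_5, xm_mulVec_6]
  funext i; fin_cases i <;> simp <;> ring
theorem ct_5_7 : chevD4.commTerms 5 7 = [(2, 1, 1, 1)] := by decide
theorem rel_5_7 (t u : F) : xg 7 u * xg 5 t = xg 5 t * xg 7 u * ((chevD4.commWord F 5 7 t u).map fun p => xg p.1 p.2).prod := by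
  rw [ChevalleyDatum.commWord, ct_5_7]
  simp only [List.map_cons, List.map_nil, List.prod_cons, List.prod_nil]
  apply Units.ext
  simp only [Units.val_mul, xg_val, Units.val_one]
  apply mat_ext_mulVec
  intro v
  simp only [← Matrix.mulVec_mulVec, Matrix.one_mulVec, xm_mulVec_2, xm_mulVec_5, xm_mulVec_7]
  funext i; fin_cases i <;> simp <;> ring
theorem ct_5_8 : chevD4.commTerms 5 8 = [(3, 1, 1, 1)] := by decide
theorem rel_5_8 (t u : F) : xg 8 u * xg 5 t = xg 5 t * xg 8 u * ((chevD4.commWord F 5 8 t u).map fun p => xg p.1 p.2).prod := by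
  rw [ChevalleyDatum.commWord, ct_5_8]
  simp only [List.map_cons, List.map_nil, List.prod_cons, List.prod_nil]
  apply Units.ext
  simp only [Units.val_mul, xg_val, Units.val_one]
  apply mat_ext_mulVec
  intro v
  simp only [← Matrix.mulVec_mulVec, Matrix.one_mulVec, xm_mulVec_3, xm_mulVec_5, xm_mulVec_8]
  funext i; fin_cases i <;> simp <;> ring
theorem ct_5_9 : chevD4.commTerms 5 9 = [(4, 1, 1, 1)] := by decide
theorem rel_5_9 (t u : F) : xg 9 u * xg 5 t = xg 5 t * xg 9 u * ((chevD4.commWord F 5 9 t u).map fun p => xg p.1 p.2).prod := by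
  rw [ChevalleyDatum.commWord, ct_5_9]
  simp only [List.map_cons, List.map_nil, List.prod_cons, List.prod_nil]
  apply Units.ext
  simp only [Units.val_mul, xg_val, Units.val_one]
  apply mat_ext_mulVec
  intro v
  simp only [← Matrix.mulVec_mulVec, Matrix.one_mulVec, xm_mulVec_4, xm_mulVec_5, xm_mulVec_9]
  funext i; fin_cases i <;> simp <;> ring
theorem ct_5_10 : chevD4.commTerms 5 10 = [] := by decide
theorem rel_5_10 (t u : F) : xg 10 u * xg 5 t = xg 5 t * xg 10 u * ((chevD4.commWord F 5 10 t u).map fun p => xg p.1 p.2).prod := by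
  rw [ChevalleyDatum.commWord, ct_5_10]
  simp only [List.map_cons, List.map_nil, List.prod_cons, List.prod_nil]
  apply Units.ext
  simp only [Units.val_mul, xg_val, Units.val_one]
  apply mat_ext_mulVec
  intro v
  simp only [← Matrix.mulVec_mulVec, Matrix.one_mulVec, xm_mulVec_5, xm_mulVec_10]
  funext i; fin_cases i <;> simp <;> ring
theorem ct_5_11 : chevD4.commTerms 5 11 = [] := by decide
theorem rel_5_11 (t u : F) : xg 11 u * xg 5 t = xg 5 t * xg 11 u * ((chevD4.commWord F 5 11 t u).map fun p => xg p.1 p.2).prod := by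
  rw [ChevalleyDatum.commWord, ct_5_11]
  simp only [List.map_cons, List.map_nil, List.prod_cons, List.prod_nil]
  apply Units.ext
  simp only [Units.val_mul, xg_val, Units.val_one]
  apply mat_ext_mulVec
  intro v
  simp only [← Matrix.mulVec_mulVec, Matrix.one_mulVec, xm_mulVec_5, xm_mulVec_11]
  funext i; fin_cases i <;> simp <;> ring
theorem ct_5_12 : chevD4.commTerms 5 12 = [] := by decide
theorem rel_5_12 (t u : F) : xg 12 u * xg 5 t = xg 5 t * xg 12 u * ((chevD4.commWord F 5 12 t u).map fun p => xg p.1 p.2).prod := by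
  rw [ChevalleyDatum.commWord, ct_5_12]
  simp only [List.map_cons, List.map_nil, List.prod_cons, List.prod_nil]
  apply Units.ext
  simp only [Units.val_mul, xg_val, Units.val_one]
  apply mat_ext_mulVec
  intro v
  simp only [← Matrix.mulVec_mulVec, Matrix.one_mulVec, xm_mulVec_5, xm_mulVec_12]
  funext i; fin_cases i <;> simp <;> ring
theorem ct_5_13 : chevD4.commTerms 5 13 = [] := by decide
theorem rel_5_13 (t u : F) : xg 13 u * xg 5 t = xg 5 t * xg 13 u * ((chevD4.commWord F 5 13 t u).map fun p => xg p.1 p.2).prod := by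
  rw [ChevalleyDatum.commWord, ct_5_13]
  simp only [List.map_cons, List.map_nil, List.prod_cons, List.prod_nil]
  apply Units.ext
  simp only [Units.val_mul, xg_val, Units.val_one]
  apply mat_ext_mulVec
  intro v
  simp only [← Matrix.mulVec_mulVec, Matrix.one_mulVec, xm_mulVec_5, xm_mulVec_13]
  funext i; fin_cases i <;> simp <;> ring
theorem ct_5_14 : chevD4.commTerms 5 14 = [] := by decide
theorem rel_5_14 (t u : F) : xg 14 u * xg 5 t = xg 5 t * xg 14 u * ((chevD4.commWord F 5 14 t u).map fun p => xg p.1 p.2).prod := by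
  rw [ChevalleyDatum.commWord, ct_5_14]
  simp only [List.map_cons, List.map_nil, List.prod_cons, List.prod_nil]
  apply Units.ext
  simp only [Units.val_mul, xg_val, Units.val_one]
  apply mat_ext_mulVec
  intro v
  simp only [← Matrix.mulVec_mulVec, Matrix.one_mulVec, xm_mulVec_5, xm_mulVec_14]
  funext i; fin_cases i <;> simp <;> ring
theorem ct_5_15 : chevD4.commTerms 5 15 = [] := by decide
theorem rel_5_15 (t u : F) : xg 15 u * xg 5 t = xg 5 t * xg 15 u * ((chevD4.commWord F 5 15 t u).map fun p => xg p.1 p.2).prod := by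
  rw [ChevalleyDatum.commWord, ct_5_15]
  simp only [List.map_cons, List.map_nil, List.prod_cons, List.prod_nil]
  apply Units.ext
  simp only [Units.val_mul, xg_val, Units.val_one]
  apply mat_ext_mulVec
  intro v
  simp only [← Matrix.mulVec_mulVec, Matrix.one_mulVec, xm_mulVec_5, xm_mulVec_15]
  funext i; fin_cases i <;> simp <;> ring
theorem ct_5_16 : chevD4.commTerms 5 16 = [] := by decide
theorem rel_5_16 (t u : F) : xg 16 u * xg 5 t = xg 5 t * xg 16 u * ((chevD4.commWord F 5 16 t u).map fun p => xg p.1 p.2).prod := by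
  rw [ChevalleyDatum.commWord, ct_5_16]
  simp only [List.map_cons, List.map_nil, List.prod_cons, List.prod_nil]
  apply Units.ext
  simp only [Units.val_mul, xg_val, Units.val_one]
  apply mat_ext_mulVec
  intro v
  simp only [← Matrix.mulVec_mulVec, Matrix.one_mulVec, xm_mulVec_5, xm_mulVec_16]
  funext i; fin_cases i <;> simp <;> ring
theorem ct_5_17 : chevD4.commTerms 5 17 = [] := by decide
theorem rel_5_17 (t u : F) : xg 17 u * xg 5 t = xg 5 t * xg 17 u * ((chevD4.commWord F 5 17 t u).map fun p => xg p.1 p.2).prod := by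
  rw [ChevalleyDatum.commWord, ct_5_17]
  simp only [List.map_cons, List.map_nil, List.prod_cons, List.prod_nil]
  apply Units.ext
  simp only [Units.val_mul, xg_val, Units.val_one]
  apply mat_ext_mulVec
  intro v
  simp only [← Matrix.mulVec_mulVec, Matrix.one_mulVec, xm_mulVec_5, xm_mulVec_17]
  funext i; fin_cases i <;> simp <;> ring
theorem ct_5_19 : chevD4.commTerms 5 19 = [(14, -1, 1, 1)] := by decide
theorem rel_5_19 (t u : F) : xg 19 u * xg 5 t = xg 5 t * xg 19 u * ((chevD4.commWord F 5 19 t u).map fun p => xg p.1 p.2).prod := by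
  rw [ChevalleyDatum.commWord, ct_5_19]
  simp only [List.map_cons, List.map_nil, List.prod_cons, List.prod_nil]
  apply Units.ext
  simp only [Units.val_mul, xg_val, Units.val_one]
  apply mat_ext_mulVec
  intro v
  simp only [← Matrix.mulVec_mulVec, Matrix.one_mulVec, xm_mulVec_5, xm_mulVec_14, xm_mulVec_19]
  funext i; fin_cases i <;> simp <;> ring
theorem ct_5_20 : chevD4.commTerms 5 20 = [(15, -1, 1, 1)] := by decide
theorem rel_5_20 (t u : F) : xg 20 u * xg 5 t = xg 5 t * xg 20 u * ((chevD4.commWord F 5 20 t u).map fun p => xg p.1 p.2).prod := by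
  rw [ChevalleyDatum.commWord, ct_5_20]
  simp only [List.map_cons, List.map_nil, List.prod_cons, List.prod_nil]
  apply Units.ext
  simp only [Units.val_mul, xg_val, Units.val_one]
  apply mat_ext_mulVec
  intro v
  simp only [← Matrix.mulVec_mulVec, Matrix.one_mulVec, xm_mulVec_5, xm_mulVec_15, xm_mulVec_20]
  funext i; fin_cases i <;> simp <;> ring
theorem ct_5_21 : chevD4.commTerms 5 21 = [(16, -1, 1, 1)] := by decide
theorem rel_5_21 (t u : F) : xg 21 u * xg 5 t = xg 5 t * xg 21 u * ((chevD4.commWord F 5 21 t u).map fun p => xg p.1 p.2).prod := by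
  rw [ChevalleyDatum.commWord, ct_5_21]
  simp only [List.map_cons, List.map_nil, List.prod_cons, List.prod_nil]
  apply Units.ext
  simp only [Units.val_mul, xg_val, Units.val_one]
  apply mat_ext_mulVec
  intro v
  simp only [← Matrix.mulVec_mulVec, Matrix.one_mulVec, xm_mulVec_5, xm_mulVec_16, xm_mulVec_21]
  funext i; fin_cases i <;> simp <;> ring
theorem ct_5_22 : chevD4.commTerms 5 22 = [(17, -1, 1, 1)] := by decide
theorem rel_5_22 (t u : F) : xg 22 u * xg 5 t = xg 5 t * xg 22 u * ((chevD4.commWord F 5 22 t u).map fun p => xg p.1 p.2).prod := by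
  rw [ChevalleyDatum.commWord, ct_5_22]
  simp only [List.map_cons, List.map_nil, List.prod_cons, List.prod_nil]
  apply Units.ext
  simp only [Units.val_mul, xg_val, Units.val_one]
  apply mat_ext_mulVec
  intro v
  simp only [← Matrix.mulVec_mulVec, Matrix.one_mulVec, xm_mulVec_5, xm_mulVec_17, xm_mulVec_22]
  funext i; fin_cases i <;> simp <;> ring
theorem ct_5_23 : chevD4.commTerms 5 23 = [] := by decide
theorem rel_5_23 (t u : F) : xg 23 u * xg 5 t = xg 5 t * xg 23 u * ((chevD4.commWord F 5 23 t u).map fun p => xg p.1 p.2).prod := by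
  rw [ChevalleyDatum.commWord, ct_5_23]
  simp only [List.map_cons, List.map_nil, List.prod_cons, List.prod_nil]
  apply Units.ext
  simp only [Units.val_mul, xg_val, Units.val_one]
  apply mat_ext_mulVec
  intro v
  simp only [← Matrix.mulVec_mulVec, Matrix.one_mulVec, xm_mulVec_5, xm_mulVec_23]
  funext i; fin_cases i <;> simp <;> ring

end Cfsg.Agent.Helper17.D4
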