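-- helper17: Steinberg's commutator relations for the explicit root elements of O_8^+ (S1082); machine generated.
import Cfsg.Agent.Helper17.D4Defs

set_option autoImplicit false
set_option linter.unusedSimpArgs false
set_option linter.unnecessarySeqFocus false
open Matrix Cfsg Cfsg.Lie

namespace Cfsg.Agent.Helper17.D4

variable {F : Type*} [Field F]

theorem ct_6_0 : chevD4.commTerms 6 0 = [] := by decide
theorem rel_6_0 (t u : F) : xg 0 u * xg 6 t = xg 6 t * xg 0 u * ((chevD4.commWord F 6 0 t u).map fun p => xg p.1 p.2).prod := by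
  rw [ChevalleyDatum.commWord, ct_6_0]
  simp only [List.map_cons, List.map_nil, List.prod_cons, List.prod_nil]
  apply Units.ext
  simp only [Units.val_mul, xg_val, Units.val_one]
  apply mat_ext_mulVec
  intro v
  simp only [← Matrix.mulVec_mulVec, Matrix.one_mulVec, xm_mulVec_0, xm_mulVec_6]
  funext i; fin_cases i <;> simp <;> ring
theorem ct_6_1 : chevD4.commTerms 6 1 = [] := by decide
theorem rel_6_1 (t u : F) : xg 1 u * xg 6 t = xg 6 t * xg 1 u * ((chevD4.commWord F 6 1 t u).map fun p => xg p.1 p.2).prod := by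
  rw [ChevalleyDatum.commWord, ct_6_1]
  simp only [List.map_cons, List.map_nil, List.prod_cons, List.prod_nil]
  apply Units.ext
  simp only [Units.val_mul, xg_val, Units.val_one]
  apply mat_ext_mulVec
  intro v
  simp only [← Matrix.mulVec_mulVec, Matrix.one_mulVec, xm_mulVec_1, xm_mulVec_6]
  funext i; fin_cases i <;> simp <;> ring
theorem ct_6_2 : chevD4.commTerms 6 2 = [] := by decide
theorem rel_6_2 (t u : F) : xg 2 u * xg 6 t = xg 6 t * xg 2 u * ((chevD4.commWord F 6 2 t u).map fun p => xg p.1 p.2).prod := by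
  rw [ChevalleyDatum.commWord, ct_6_2]
  simp only [List.map_cons, List.map_nil, List.prod_cons, List.prod_nil]
  apply Units.ext
  simp only [Units.val_mul, xg_val, Units.val_one]
  apply mat_ext_mulVec
  intro v
  simp only [← Matrix.mulVec_mulVec, Matrix.one_mulVec, xm_mulVec_2, xm_mulVec_6]
  funext i; fin_cases i <;> simp <;> ring
theorem ct_6_3 : chevD4.commTerms 6 3 = [] := by decide
theorem rel_6_3 (t u : F) : xg 3 u * xg 6 t = xg 6 t * xg 3 u * ((chevD4.commWord F 6 3 t u).map fun p => xg p.1 p.2).prod := by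
  rw [ChevalleyDatum.commWord, ct_6_3]
  simp only [List.map_cons, List.map_nil, List.prod_cons, List.prod_nil]
  apply Units.ext
  simp only [Units.val_mul, xg_val, Units.val_one]
  apply mat_ext_mulVec
  intro v
  simp only [← Matrix.mulVec_mulVec, Matrix.one_mulVec, xm_mulVec_3, xm_mulVec_6]
  funext i; fin_cases i <;> simp <;> ring
theorem ct_6_4 : chevD4.commTerms 6 4 = [(0, -1, 1, 1)] := by decide
theorem rel_6_4 (t u : F) : xg 4 u * xg 6 t = xg 6 t * xg 4 u * ((chevD4.commWord F 6 4 t u).map fun p => xg p.1 p.2).prod := by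
  rw [ChevalleyDatum.commWord, ct_6_4]
  simp only [List.map_cons, List.map_nil, List.prod_cons, List.prod_nil]
  apply Units.ext
  simp only [Units.val_mul, xg_val, Units.val_one]
  apply mat_ext_mulVec
  intro v
  simp only [← Matrix.mulVec_mulVec, Matrix.one_mulVec, xm_mulVec_0, xm_mulVec_4, xm_mulVec_6]
  funext i; fin_cases i <;> simp <;> ring
theorem ct_6_5 : chevD4.commTerms 6 5 = [(1, -1, 1, 1)] := by decide
theorem rel_6_5 (t u : F) : xg 5 u * xg 6 t = xg 6 t * xg 5 u * ((chevD4.commWord F 6 5 t u).map fun p => xg p.1 p.2).prod := by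
  rw [ChevalleyDatum.commWord, ct_6_5]
  simp only [List.map_cons, List.map_nil, List.prod_cons, List.prod_nil]
  apply Units.ext
  simp only [Units.val_mul, xg_val, Units.val_one]
  apply mat_ext_mulVec
  intro v
  simp only [← Matrix.mulVec_mulVec, Matrix.one_mulVec, xm_mulVec_1, xm_mulVec_5, xm_mulVec_6]
  funext i; fin_cases i <;> simp <;> ring
theorem ct_6_7 : chevD4.commTerms 6 7 = [] := by decide
theorem rel_6_7 (t u : F) : xg 7 u * xg 6 t = xg 6 t * xg 7 u * ((chevD4.commWord F 6 7 t u).map fun p => xg p.1 p.2).prod := by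
  rw [ChevalleyDatum.commWord, ct_6_7]
  simp only [List.map_cons, List.map_nil, List.prod_cons, List.prod_nil]
  apply Units.ext
  simp only [Units.val_mul, xg_val, Units.val_one]
  apply mat_ext_mulVec
  intro v
  simp only [← Matrix.mulVec_mulVec, Matrix.one_mulVec, xm_mulVec_6, xm_mulVec_7]
  funext i; fin_cases i <;> simp <;> ring
theorem ct_6_8 : chevD4.commTerms 6 8 = [] := by decide
theorem rel_6_8 (t u : F) : xg 8 u * xg 6 t = xg 6 t * xg 8 u * ((chevD4.commWord F 6 8 t u).map fun p => xg p.1 p.2).prod := by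
  rw [ChevalleyDatum.commWord, ct_6_8]
  simp only [List.map_cons, List.map_nil, List.prod_cons, List.prod_nil]
  apply Units.ext
  simp only [Units.val_mul, xg_val, Units.val_one]
  apply mat_ext_mulVec
  intro v
  simp only [← Matrix.mulVec_mulVec, Matrix.one_mulVec, xm_mulVec_6, xm_mulVec_8]
  funext i; fin_cases i <;> simp <;> ring
theorem ct_6_9 : chevD4.commTerms 6 9 = [] := by decide
theorem rel_6_9 (t u : F) : xg 9 u * xg 6 t = xg 6 t * xg 9 u * ((chevD4.commWord F 6 9 t u).map fun p => xg p.1 p.2).prod := by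
  rw [ChevalleyDatum.commWord, ct_6_9]
  simp only [List.map_cons, List.map_nil, List.prod_cons, List.prod_nil]
  apply Units.ext
  simp only [Units.val_mul, xg_val, Units.val_one]
  apply mat_ext_mulVec
  intro v
  simp only [← Matrix.mulVec_mulVec, Matrix.one_mulVec, xm_mulVec_6, xm_mulVec_9]
  funext i; fin_cases i <;> simp <;> ring
theorem ct_6_10 : chevD4.commTerms 6 10 = [] := by decide
theorem rel_6_10 (t u : F) : xg 10 u * xg 6 t = xg 6 t * xg 10 u * ((chevD4.commWord F 6 10 t u).map fun p => xg p.1 p.2).prod := by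
  rw [ChevalleyDatum.commWord, ct_6_10]
  simp only [List.map_cons, List.map_nil, List.prod_cons, List.prod_nil]
  apply Units.ext
  simp only [Units.val_mul, xg_val, Units.val_one]
  apply mat_ext_mulVec
  intro v
  simp only [← Matrix.mulVec_mulVec, Matrix.one_mulVec, xm_mulVec_6, xm_mulVec_10]
  funext i; fin_cases i <;> simp <;> ring
theorem ct_6_11 : chevD4.commTerms 6 11 = [] := by decide
theorem rel_6_11 (t u : F) : xg 11 u * xg 6 t = xg 6 t * xg 11 u * ((chevD4.commWord F 6 11 t u).map fun p => xg p.1 p.2).prod := by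
  rw [ChevalleyDatum.commWord, ct_6_11]
  simp only [List.map_cons, List.map_nil, List.prod_cons, List.prod_nil]
  apply Units.ext
  simp only [Units.val_mul, xg_val, Units.val_one]
  apply mat_ext_mulVec
  intro v
  simp only [← Matrix.mulVec_mulVec, Matrix.one_mulVec, xm_mulVec_6, xm_mulVec_11]
  funext i; fin_cases i <;> simp <;> ring
theorem ct_6_12 : chevD4.commTerms 6 12 = [(7, 1, 1, 1)] := by decide
theorem rel_6_12 (t u : F) : xg 12 u * xg 6 t = xg 6 t * xg 12 u * ((chevD4.commWord F 6 12 t u).map fun p => xg p.1 p.2).prod := by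
  rw [ChevalleyDatum.commWord, ct_6_12]
  simp only [List.map_cons, List.map_nil, List.prod_cons, List.prod_nil]
  apply Units.ext
  simp only [Units.val_mul, xg_val, Units.val_one]
  apply mat_ext_mulVec
  intro v
  simp only [← Matrix.mulVec_mulVec, Matrix.one_mulVec, xm_mulVec_6, xm_mulVec_7, xm_mulVec_12]
  funext i; fin_cases i <;> simp <;> ring
theorem ct_6_13 : chevD4.commTerms 6 13 = [(8, 1, 1, 1)] := by decide
theorem rel_6_13 (t u : F) : xg 13 u * xg 6 t = xg 6 t * xg 13 u * ((chevD4.commWord F 6 13 t u).map fun p => xg p.1 p.2).prod := by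
  rw [ChevalleyDatum.commWord, ct_6_13]
  simp only [List.map_cons, List.map_nil, List.prod_cons, List.prod_nil]
  apply Units.ext
  simp only [Units.val_mul, xg_val, Units.val_one]
  apply mat_ext_mulVec
  intro v
  simp only [← Matrix.mulVec_mulVec, Matrix.one_mulVec, xm_mulVec_6, xm_mulVec_8, xm_mulVec_13]
  funext i; fin_cases i <;> simp <;> ring
theorem ct_6_14 : chevD4.commTerms 6 14 = [] := by decide
theorem rel_6_14 (t u : F) : xg 14 u * xg 6 t = xg 6 t * xg 14 u * ((chevD4.commWord F 6 14 t u).map fun p => xg p.1 p.2).prod := by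
  rw [ChevalleyDatum.commWord, ct_6_14]
  simp only [List.map_cons, List.map_nil, List.prod_cons, List.prod_nil]
  apply Units.ext
  simp only [Units.val_mul, xg_val, Units.val_one]
  apply mat_ext_mulVec
  intro v
  simp only [← Matrix.mulVec_mulVec, Matrix.one_mulVec, xm_mulVec_6, xm_mulVec_14]
  funext i; fin_cases i <;> simp <;> ring
theorem ct_6_15 : chevD4.commTerms 6 15 = [(10, -1, 1, 1)] := by decide
theorem rel_6_15 (t u : F) : xg 15 u * xg 6 t = xg 6 t * xg 15 u * ((chevD4.commWord F 6 15 t u).map fun p => xg p.1 p.2).prod := by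
  rw [ChevalleyDatum.commWord, ct_6_15]
  simp only [List.map_cons, List.map_nil, List.prod_cons, List.prod_nil]
  apply Units.ext
  simp only [Units.val_mul, xg_val, Units.val_one]
  apply mat_ext_mulVec
  intro v
  simp only [← Matrix.mulVec_mulVec, Matrix.one_mulVec, xm_mulVec_6, xm_mulVec_10, xm_mulVec_15]
  funext i; fin_cases i <;> simp <;> ring
theorem ct_6_16 : chevD4.commTerms 6 16 = [(11, -1, 1, 1)] := by decide
theorem rel_6_16 (t u : F) : xg 16 u * xg 6 t = xg 6 t * xg 16 u * ((chevD4.commWord F 6 16 t u).map fun p => xg p.1 p.2).prod := by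
  rw [ChevalleyDatum.commWord, ct_6_16]
  simp only [List.map_cons, List.map_nil, List.prod_cons, List.prod_nil]
  apply Units.ext
  simp only [Units.val_mul, xg_val, Units.val_one]
  apply mat_ext_mulVec
  intro v
  simp only [← Matrix.mulVec_mulVec, Matrix.one_mulVec, xm_mulVec_6, xm_mulVec_11, xm_mulVec_16]
  funext i; fin_cases i <;> simp <;> ring
theorem ct_6_18 : chevD4.commTerms 6 18 = [] := by decide
theorem rel_6_18 (t u : F) : xg 18 u * xg 6 t = xg 6 t * xg 18 u * ((chevD4.commWord F 6 18 t u).map fun p => xg p.1 p.2).prod := by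
  rw [ChevalleyDatum.commWord, ct_6_18]
  simp only [List.map_cons, List.map_nil, List.prod_cons, List.prod_nil]
  apply Units.ext
  simp only [Units.val_mul, xg_val, Units.val_one]
  apply mat_ext_mulVec
  intro v
  simp only [← Matrix.mulVec_mulVec, Matrix.one_mulVec, xm_mulVec_6, xm_mulVec_18]
  funext i; fin_cases i <;> simp <;> ring
theorem ct_6_19 : chevD4.commTerms 6 19 = [] := by decide
theorem rel_6_19 (t u : F) : xg 19 u * xg 6 t = xg 6 t * xg 19 u * ((chevD4.commWord F 6 19 t u).map fun p => xg p.1 p.2).prod := by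
  rw [ChevalleyDatum.commWord, ct_6_19]
  simp only [List.map_cons, List.map_nil, List.prod_cons, List.prod_nil]
  apply Units.ext
  simp only [Units.val_mul, xg_val, Units.val_one]
  apply mat_ext_mulVec
  intro v
  simp only [← Matrix.mulVec_mulVec, Matrix.one_mulVec, xm_mulVec_6, xm_mulVec_19]
  funext i; fin_cases i <;> simp <;> ring
theorem ct_6_20 : chevD4.commTerms 6 20 = [] := by decide
theorem rel_6_20 (t u : F) : xg 20 u * xg 6 t = xg 6 t * xg 20 u * ((chevD4.commWord F 6 20 t u).map fun p => xg p.1 p.2).prod := by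
  rw [ChevalleyDatum.commWord, ct_6_20]
  simp only [List.map_cons, List.map_nil, List.prod_cons, List.prod_nil]
  apply Units.ext
  simp only [Units.val_mul, xg_val, Units.val_one]
  apply mat_ext_mulVec
  intro v
  simp only [← Matrix.mulVec_mulVec, Matrix.one_mulVec, xm_mulVec_6, xm_mulVec_20]
  funext i; fin_cases i <;> simp <;> ring
theorem ct_6_21 : chevD4.commTerms 6 21 = [] := by decide
theorem rel_6_21 (t u : F) : xg 21 u * xg 6 t = xg 6 t * xg 21 u * ((chevD4.commWord F 6 21 t u).map fun p => xg p.1 p.2).prod := by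
  rw [ChevalleyDatum.commWord, ct_6_21]
  simp only [List.map_cons, List.map_nil, List.prod_cons, List.prod_nil]
  apply Units.ext
  simp only [Units.val_mul, xg_val, Units.val_one]
  apply mat_ext_mulVec
  intro v
  simp only [← Matrix.mulVec_mulVec, Matrix.one_mulVec, xm_mulVec_6, xm_mulVec_21]
  funext i; fin_cases i <;> simp <;> ring
theorem ct_6_22 : chevD4.commTerms 6 22 = [(18, 1, 1, 1)] := by decide
theorem rel_6_22 (t u : F) : xg 22 u * xg 6 t = xg 6 t * xg 22 u * ((chevD4.commWord F 6 22 t u).map fun p => xg p.1 p.2).prod := by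
  rw [ChevalleyDatum.commWord, ct_6_22]
  simp only [List.map_cons, List.map_nil, List.prod_cons, List.prod_nil]
  apply Units.ext
  simp only [Units.val_mul, xg_val, Units.val_one]
  apply mat_ext_mulVec
  intro v
  simp only [← Matrix.mulVec_mulVec, Matrix.one_mulVec, xm_mulVec_6, xm_mulVec_18, xm_mulVec_22]
  funext i; fin_cases i <;> simp <;> ring
theorem ct_6_23 : chevD4.commTerms 6 23 = [(19, 1, 1, 1)] := by decide
theorem rel_6_23 (t u : F) : xg 23 u * xg 6 t = xg 6 t * xg 23 u * ((chevD4.commWord F 6 23 t u).map fun p => xg p.1 p.2).prod := by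
  rw [ChevalleyDatum.commWord, ct_6_23]
  simp only [List.map_cons, List.map_nil, List.prod_cons, List.prod_nil]
  apply Units.ext
  simp only [Units.val_mul, xg_val, Units.val_one]
  apply mat_ext_mulVec
  intro v
  simp only [← Matrix.mulVec_mulVec, Matrix.one_mulVec, xm_mulVec_6, xm_mulVec_19, xm_mulVec_23]
  funext i; fin_cases i <;> simp <;> ring
theorem ct_7_0 : chevD4.commTerms 7 0 = [] := by decide
theorem rel_7_0 (t u : F) : xg 0 u * xg 7 t = xg 7 t * xg 0 u * ((chevD4.commWord F 7 0 t u).map fun p => xg p.1 p.2).prod := by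
  rw [ChevalleyDatum.commWord, ct_7_0]
  simp only [List.map_cons, List.map_nil, List.prod_cons, List.prod_nil]
  apply Units.ext
  simp only [Units.val_mul, xg_val, Units.val_one]
  apply mat_ext_mulVec
  intro v
  simp only [← Matrix.mulVec_mulVec, Matrix.one_mulVec, xm_mulVec_0, xm_mulVec_7]
  funext i; fin_cases i <;> simp <;> ring
theorem ct_7_1 : chevD4.commTerms 7 1 = [] := by decide
theorem rel_7_1 (t u : F) : xg 1 u * xg 7 t = xg 7 t * xg 1 u * ((chevD4.commWord F 7 1 t u).map fun p => xg p.1 p.2).prod := by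
  rw [ChevalleyDatum.commWord, ct_7_1]
  simp only [List.map_cons, List.map_nil, List.prod_cons, List.prod_nil]
  apply Units.ext
  simp only [Units.val_mul, xg_val, Units.val_one]
  apply mat_ext_mulVec
  intro v
  simp only [← Matrix.mulVec_mulVec, Matrix.one_mulVec, xm_mulVec_1, xm_mulVec_7]
  funext i; fin_cases i <;> simp <;> ring
theorem ct_7_2 : chevD4.commTerms 7 2 = [] := by decide
theorem rel_7_2 (t u : F) : xg 2 u * xg 7 t = xg 7 t * xg 2 u * ((chevD4.commWord F 7 2 t u).map fun p => xg p.1 p.2).prod := by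
  rw [ChevalleyDatum.commWord, ct_7_2]
  simp only [List.map_cons, List.map_nil, List.prod_cons, List.prod_nil]
  apply Units.ext
  simp only [Units.val_mul, xg_val, Units.val_one]
  apply mat_ext_mulVec
  intro v
  simp only [← Matrix.mulVec_mulVec, Matrix.one_mulVec, xm_mulVec_2, xm_mulVec_7]
  funext i; fin_cases i <;> simp <;> ring
theorem ct_7_3 : chevD4.commTerms 7 3 = [(0, 1, 1, 1)] := by decide
theorem rel_7_3 (t u : F) : xg 3 u * xg 7 t = xg 7 t * xg 3 u * ((chevD4.commWord F 7 3 t u).map fun p => xg p.1 p.2).prod := by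
  rw [ChevalleyDatum.commWord, ct_7_3]
  simp only [List.map_cons, List.map_nil, List.prod_cons, List.prod_nil]
  apply Units.ext
  simp only [Units.val_mul, xg_val, Units.val_one]
  apply mat_ext_mulVec
  intro v
  simp only [← Matrix.mulVec_mulVec, Matrix.one_mulVec, xm_mulVec_0, xm_mulVec_3, xm_mulVec_7]
  funext i; fin_cases i <;> simp <;> ring
theorem ct_7_4 : chevD4.commTerms 7 4 = [] := by decide
theorem rel_7_4 (t u : F) : xg 4 u * xg 7 t = xg 7 t * xg 4 u * ((chevD4.commWord F 7 4 t u).map fun p => xg p.1 p.2).prod := by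
  rw [ChevalleyDatum.commWord, ct_7_4]
  simp only [List.map_cons, List.map_nil, List.prod_cons, List.prod_nil]
  apply Units.ext
  simp only [Units.val_mul, xg_val, Units.val_one]
  apply mat_ext_mulVec
  intro v
  simp only [← Matrix.mulVec_mulVec, Matrix.one_mulVec, xm_mulVec_4, xm_mulVec_7]
  funext i; fin_cases i <;> simp <;> ring
theorem ct_7_5 : chevD4.commTerms 7 5 = [(2, -1, 1, 1)] := by decide
theorem rel_7_5 (t u : F) : xg 5 u * xg 7 t = xg 7 t * xg 5 u * ((chevD4.commWord F 7 5 t u).map fun p => xg p.1 p.2).prod := by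
  rw [ChevalleyDatum.commWord, ct_7_5]
  simp only [List.map_cons, List.map_nil, List.prod_cons, List.prod_nil]
  apply Units.ext
  simp only [Units.val_mul, xg_val, Units.val_one]
  apply mat_ext_mulVec
  intro v
  simp only [← Matrix.mulVec_mulVec, Matrix.one_mulVec, xm_mulVec_2, xm_mulVec_5, xm_mulVec_7]
  funext i; fin_cases i <;> simp <;> ring
theorem ct_7_6 : chevD4.commTerms 7 6 = [] := by decide
theorem rel_7_6 (t u : F) : xg 6 u * xg 7 t = xg 7 t * xg 6 u * ((chevD4.commWord F 7 6 t u).map fun p => xg p.1 p.2).prod := by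
  rw [ChevalleyDatum.commWord, ct_7_6]
  simp only [List.map_cons, List.map_nil, List.prod_cons, List.prod_nil]
  apply Units.ext
  simp only [Units.val_mul, xg_val, Units.val_one]
  apply mat_ext_mulVec
  intro v
  simp only [← Matrix.mulVec_mulVec, Matrix.one_mulVec, xm_mulVec_6, xm_mulVec_7]
  funext i; fin_cases i <;> simp <;> ring
theorem ct_7_8 : chevD4.commTerms 7 8 = [] := by decide
theorem rel_7_8 (t u : F) : xg 8 u * xg 7 t = xg 7 t * xg 8 u * ((chevD4.commWord F 7 8 t u).map fun p => xg p.1 p.2).prod := by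
  rw [ChevalleyDatum.commWord, ct_7_8]
  simp only [List.map_cons, List.map_nil, List.prod_cons, List.prod_nil]
  apply Units.ext
  simp only [Units.val_mul, xg_val, Units.val_one]
  apply mat_ext_mulVec
  intro v
  simp only [← Matrix.mulVec_mulVec, Matrix.one_mulVec, xm_mulVec_7, xm_mulVec_8]
  funext i; fin_cases i <;> simp <;> ring
theorem ct_7_9 : chevD4.commTerms 7 9 = [] := by decide
theorem rel_7_9 (t u : F) : xg 9 u * xg 7 t = xg 7 t * xg 9 u * ((chevD4.commWord F 7 9 t u).map fun p => xg p.1 p.2).prod := by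
  rw [ChevalleyDatum.commWord, ct_7_9]
  simp only [List.map_cons, List.map_nil, List.prod_cons, List.prod_nil]
  apply Units.ext
  simp only [Units.val_mul, xg_val, Units.val_one]
  apply mat_ext_mulVec
  intro v
  simp only [← Matrix.mulVec_mulVec, Matrix.one_mulVec, xm_mulVec_7, xm_mulVec_9]
  funext i; fin_cases i <;> simp <;> ring
theorem ct_7_10 : chevD4.commTerms 7 10 = [] := by decide
theorem rel_7_10 (t u : F) : xg 10 u * xg 7 t = xg 7 t * xg 10 u * ((chevD4.commWord F 7 10 t u).map fun p => xg p.1 p.2).prod := by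
  rw [ChevalleyDatum.commWord, ct_7_10]
  simp only [List.map_cons, List.map_nil, List.prod_cons, List.prod_nil]
  apply Units.ext
  simp only [Units.val_mul, xg_val, Units.val_one]
  apply mat_ext_mulVec
  intro v
  simp only [← Matrix.mulVec_mulVec, Matrix.one_mulVec, xm_mulVec_7, xm_mulVec_10]
  funext i; fin_cases i <;> simp <;> ring
theorem ct_7_11 : chevD4.commTerms 7 11 = [(6, 1, 1, 1)] := by decide
theorem rel_7_11 (t u : F) : xg 11 u * xg 7 t = xg 7 t * xg 11 u * ((chevD4.commWord F 7 11 t u).map fun p => xg p.1 p.2).prod := by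
  rw [ChevalleyDatum.commWord, ct_7_11]
  simp only [List.map_cons, List.map_nil, List.prod_cons, List.prod_nil]
  apply Units.ext
  simp only [Units.val_mul, xg_val, Units.val_one]
  apply mat_ext_mulVec
  intro v
  simp only [← Matrix.mulVec_mulVec, Matrix.one_mulVec, xm_mulVec_6, xm_mulVec_7, xm_mulVec_11]
  funext i; fin_cases i <;> simp <;> ring
theorem ct_7_12 : chevD4.commTerms 7 12 = [] := by decide
theorem rel_7_12 (t u : F) : xg 12 u * xg 7 t = xg 7 t * xg 12 u * ((chevD4.commWord F 7 12 t u).map fun p => xg p.1 p.2).prod := by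
  rw [ChevalleyDatum.commWord, ct_7_12]
  simp only [List.map_cons, List.map_nil, List.prod_cons, List.prod_nil]
  apply Units.ext
  simp only [Units.val_mul, xg_val, Units.val_one]
  apply mat_ext_mulVec
  intro v
  simp only [← Matrix.mulVec_mulVec, Matrix.one_mulVec, xm_mulVec_7, xm_mulVec_12]
  funext i; fin_cases i <;> simp <;> ring
theorem ct_7_13 : chevD4.commTerms 7 13 = [(9, 1, 1, 1)] := by decide
theorem rel_7_13 (t u : F) : xg 13 u * xg 7 t = xg 7 t * xg 13 u * ((chevD4.commWord F 7 13 t u).map fun p => xg p.1 p.2).prod := by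
  rw [ChevalleyDatum.commWord, ct_7_13]
  simp only [List.map_cons, List.map_nil, List.prod_cons, List.prod_nil]
  apply Units.ext
  simp only [Units.val_mul, xg_val, Units.val_one]
  apply mat_ext_mulVec
  intro v
  simp only [← Matrix.mulVec_mulVec, Matrix.one_mulVec, xm_mulVec_7, xm_mulVec_9, xm_mulVec_13]
  funext i; fin_cases i <;> simp <;> ring
theorem ct_7_14 : chevD4.commTerms 7 14 = [(10, -1, 1, 1)] := by decide
theorem rel_7_14 (t u : F) : xg 14 u * xg 7 t = xg 7 t * xg 14 u * ((chevD4.commWord F 7 14 t u).map fun p => xg p.1 p.2).prod := by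
  rw [ChevalleyDatum.commWord, ct_7_14]
  simp only [List.map_cons, List.map_nil, List.prod_cons, List.prod_nil]
  apply Units.ext
  simp only [Units.val_mul, xg_val, Units.val_one]
  apply mat_ext_mulVec
  intro v
  simp only [← Matrix.mulVec_mulVec, Matrix.one_mulVec, xm_mulVec_7, xm_mulVec_10, xm_mulVec_14]
  funext i; fin_cases i <;> simp <;> ring
theorem ct_7_15 : chevD4.commTerms 7 15 = [] := by decide
theorem rel_7_15 (t u : F) : xg 15 u * xg 7 t = xg 7 t * xg 15 u * ((chevD4.commWord F 7 15 t u).map fun p => xg p.1 p.2).prod := by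
  rw [ChevalleyDatum.commWord, ct_7_15]
  simp only [List.map_cons, List.map_nil, List.prod_cons, List.prod_nil]
  apply Units.ext
  simp only [Units.val_mul, xg_val, Units.val_one]
  apply mat_ext_mulVec
  intro v
  simp only [← Matrix.mulVec_mulVec, Matrix.one_mulVec, xm_mulVec_7, xm_mulVec_15]
  funext i; fin_cases i <;> simp <;> ring
theorem ct_7_17 : chevD4.commTerms 7 17 = [(12, -1, 1, 1)] := by decide
theorem rel_7_17 (t u : F) : xg 17 u * xg 7 t = xg 7 t * xg 17 u * ((chevD4.commWord F 7 17 t u).map fun p => xg p.1 p.2).prod := by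
  rw [ChevalleyDatum.commWord, ct_7_17]
  simp only [List.map_cons, List.map_nil, List.prod_cons, List.prod_nil]
  apply Units.ext
  simp only [Units.val_mul, xg_val, Units.val_one]
  apply mat_ext_mulVec
  intro v
  simp only [← Matrix.mulVec_mulVec, Matrix.one_mulVec, xm_mulVec_7, xm_mulVec_12, xm_mulVec_17]
  funext i; fin_cases i <;> simp <;> ring
theorem ct_7_18 : chevD4.commTerms 7 18 = [] := by decide
theorem rel_7_18 (t u : F) : xg 18 u * xg 7 t = xg 7 t * xg 18 u * ((chevD4.commWord F 7 18 t u).map fun p => xg p.1 p.2).prod := by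
  rw [ChevalleyDatum.commWord, ct_7_18]
  simp only [List.map_cons, List.map_nil, List.prod_cons, List.prod_nil]
  apply Units.ext
  simp only [Units.val_mul, xg_val, Units.val_one]
  apply mat_ext_mulVec
  intro v
  simp only [← Matrix.mulVec_mulVec, Matrix.one_mulVec, xm_mulVec_7, xm_mulVec_18]
  funext i; fin_cases i <;> simp <;> ring
theorem ct_7_19 : chevD4.commTerms 7 19 = [] := by decide
theorem rel_7_19 (t u : F) : xg 19 u * xg 7 t = xg 7 t * xg 19 u * ((chevD4.commWord F 7 19 t u).map fun p => xg p.1 p.2).prod := by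
  rw [ChevalleyDatum.commWord, ct_7_19]
  simp only [List.map_cons, List.map_nil, List.prod_cons, List.prod_nil]
  apply Units.ext
  simp only [Units.val_mul, xg_val, Units.val_one]
  apply mat_ext_mulVec
  intro v
  simp only [← Matrix.mulVec_mulVec, Matrix.one_mulVec, xm_mulVec_7, xm_mulVec_19]
  funext i; fin_cases i <;> simp <;> ring
theorem ct_7_20 : chevD4.commTerms 7 20 = [] := by decide
theorem rel_7_20 (t u : F) : xg 20 u * xg 7 t = xg 7 t * xg 20 u * ((chevD4.commWord F 7 20 t u).map fun p => xg p.1 p.2).prod := by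
  rw [ChevalleyDatum.commWord, ct_7_20]
  simp only [List.map_cons, List.map_nil, List.prod_cons, List.prod_nil]
  apply Units.ext
  simp only [Units.val_mul, xg_val, Units.val_one]
  apply mat_ext_mulVec
  intro v
  simp only [← Matrix.mulVec_mulVec, Matrix.one_mulVec, xm_mulVec_7, xm_mulVec_20]
  funext i; fin_cases i <;> simp <;> ring
theorem ct_7_21 : chevD4.commTerms 7 21 = [(18, 1, 1, 1)] := by decide
theorem rel_7_21 (t u : F) : xg 21 u * xg 7 t = xg 7 t * xg 21 u * ((chevD4.commWord F 7 21 t u).map fun p => xg p.1 p.2).prod := by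
  rw [ChevalleyDatum.commWord, ct_7_21]
  simp only [List.map_cons, List.map_nil, List.prod_cons, List.prod_nil]
  apply Units.ext
  simp only [Units.val_mul, xg_val, Units.val_one]
  apply mat_ext_mulVec
  intro v
  simp only [← Matrix.mulVec_mulVec, Matrix.one_mulVec, xm_mulVec_7, xm_mulVec_18, xm_mulVec_21]
  funext i; fin_cases i <;> simp <;> ring
theorem ct_7_22 : chevD4.commTerms 7 22 = [] := by decide
theorem rel_7_22 (t u : F) : xg 22 u * xg 7 t = xg 7 t * xg 22 u * ((chevD4.commWord F 7 22 t u).map fun p => xg p.1 p.2).prod := by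
  rw [ChevalleyDatum.commWord, ct_7_22]
  simp only [List.map_cons, List.map_nil, List.prod_cons, List.prod_nil]
  apply Units.ext
  simp only [Units.val_mul, xg_val, Units.val_one]
  apply mat_ext_mulVec
  intro v
  simp only [← Matrix.mulVec_mulVec, Matrix.one_mulVec, xm_mulVec_7, xm_mulVec_22]
  funext i; fin_cases i <;> simp <;> ring
theorem ct_7_23 : chevD4.commTerms 7 23 = [(20, -1, 1, 1)] := by decide
theorem rel_7_23 (t u : F) : xg 23 u * xg 7 t = xg 7 t * xg 23 u * ((chevD4.commWord F 7 23 t u).map fun p => xg p.1 p.2).prod := by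
  rw [ChevalleyDatum.commWord, ct_7_23]
  simp only [List.map_cons, List.map_nil, List.prod_cons, List.prod_nil]
  apply Units.ext
  simp only [Units.val_mul, xg_val, Units.val_one]
  apply mat_ext_mulVec
  intro v
  simp only [← Matrix.mulVec_mulVec, Matrix.one_mulVec, xm_mulVec_7, xm_mulVec_20, xm_mulVec_23]
  funext i; fin_cases i <;> simp <;> ring
theorem ct_8_0 : chevD4.commTerms 8 0 = [] := by decide
theorem rel_8_0 (t u : F) : xg 0 u * xg 8 t = xg 8 t * xg 0 u * ((chevD4.commWord F 8 0 t u).map fun p => xg p.1 p.2).prod := by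
  rw [ChevalleyDatum.commWord, ct_8_0]
  simp only [List.map_cons, List.map_nil, List.prod_cons, List.prod_nil]
  apply Units.ext
  simp only [Units.val_mul, xg_val, Units.val_one]
  apply mat_ext_mulVec
  intro v
  simp only [← Matrix.mulVec_mulVec, Matrix.one_mulVec, xm_mulVec_0, xm_mulVec_8]
  funext i; fin_cases i <;> simp <;> ring
theorem ct_8_1 : chevD4.commTerms 8 1 = [] := by decide
theorem rel_8_1 (t u : F) : xg 1 u * xg 8 t = xg 8 t * xg 1 u * ((chevD4.commWord F 8 1 t u).map fun p => xg p.1 p.2).prod := by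
  rw [ChevalleyDatum.commWord, ct_8_1]
  simp only [List.map_cons, List.map_nil, List.prod_cons, List.prod_nil]
  apply Units.ext
  simp only [Units.val_mul, xg_val, Units.val_one]
  apply mat_ext_mulVec
  intro v
  simp only [← Matrix.mulVec_mulVec, Matrix.one_mulVec, xm_mulVec_1, xm_mulVec_8]
  funext i; fin_cases i <;> simp <;> ring
theorem ct_8_2 : chevD4.commTerms 8 2 = [(0, 1, 1, 1)] := by decide
theorem rel_8_2 (t u : F) : xg 2 u * xg 8 t = xg 8 t * xg 2 u * ((chevD4.commWord F 8 2 t u).map fun p => xg p.1 p.2).prod := by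
  rw [ChevalleyDatum.commWord, ct_8_2]
  simp only [List.map_cons, List.map_nil, List.prod_cons, List.prod_nil]
  apply Units.ext
  simp only [Units.val_mul, xg_val, Units.val_one]
  apply mat_ext_mulVec
  intro v
  simp only [← Matrix.mulVec_mulVec, Matrix.one_mulVec, xm_mulVec_0, xm_mulVec_2, xm_mulVec_8]
  funext i; fin_cases i <;> simp <;> ring
theorem ct_8_3 : chevD4.commTerms 8 3 = [] := by decide
theorem rel_8_3 (t u : F) : xg 3 u * xg 8 t = xg 8 t * xg 3 u * ((chevD4.commWord F 8 3 t u).map fun p => xg p.1 p.2).prod := by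
  rw [ChevalleyDatum.commWord, ct_8_3]
  simp only [List.map_cons, List.map_nil, List.prod_cons, List.prod_nil]
  apply Units.ext
  simp only [Units.val_mul, xg_val, Units.val_one]
  apply mat_ext_mulVec
  intro v
  simp only [← Matrix.mulVec_mulVec, Matrix.one_mulVec, xm_mulVec_3, xm_mulVec_8]
  funext i; fin_cases i <;> simp <;> ring
theorem ct_8_4 : chevD4.commTerms 8 4 = [] := by decide
theorem rel_8_4 (t u : F) : xg 4 u * xg 8 t = xg 8 t * xg 4 u * ((chevD4.commWord F 8 4 t u).map fun p => xg p.1 p.2).prod := by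
  rw [ChevalleyDatum.commWord, ct_8_4]
  simp only [List.map_cons, List.map_nil, List.prod_cons, List.prod_nil]
  apply Units.ext
  simp only [Units.val_mul, xg_val, Units.val_one]
  apply mat_ext_mulVec
  intro v
  simp only [← Matrix.mulVec_mulVec, Matrix.one_mulVec, xm_mulVec_4, xm_mulVec_8]
  funext i; fin_cases i <;> simp <;> ring
theorem ct_8_5 : chevD4.commTerms 8 5 = [(3, -1, 1, 1)] := by decide
theorem rel_8_5 (t u : F) : xg 5 u * xg 8 t = xg 8 t * xg 5 u * ((chevD4.commWord F 8 5 t u).map fun p => xg p.1 p.2).prod := by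
  rw [ChevalleyDatum.commWord, ct_8_5]
  simp only [List.map_cons, List.map_nil, List.prod_cons, List.prod_nil]
  apply Units.ext
  simp only [Units.val_mul, xg_val, Units.val_one]
  apply mat_ext_mulVec
  intro v
  simp only [← Matrix.mulVec_mulVec, Matrix.one_mulVec, xm_mulVec_3, xm_mulVec_5, xm_mulVec_8]
  funext i; fin_cases i <;> simp <;> ring
theorem ct_8_6 : chevD4.commTerms 8 6 = [] := by decide
theorem rel_8_6 (t u : F) : xg 6 u * xg 8 t = xg 8 t * xg 6 u * ((chevD4.commWord F 8 6 t u).map fun p => xg p.1 p.2).prod := by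
  rw [ChevalleyDatum.commWord, ct_8_6]
  simp only [List.map_cons, List.map_nil, List.prod_cons, List.prod_nil]
  apply Units.ext
  simp only [Units.val_mul, xg_val, Units.val_one]
  apply mat_ext_mulVec
  intro v
  simp only [← Matrix.mulVec_mulVec, Matrix.one_mulVec, xm_mulVec_6, xm_mulVec_8]
  funext i; fin_cases i <;> simp <;> ring
theorem ct_8_7 : chevD4.commTerms 8 7 = [] := by decide
theorem rel_8_7 (t u : F) : xg 7 u * xg 8 t = xg 8 t * xg 7 u * ((chevD4.commWord F 8 7 t u).map fun p => xg p.1 p.2).prod := by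
  rw [ChevalleyDatum.commWord, ct_8_7]
  simp only [List.map_cons, List.map_nil, List.prod_cons, List.prod_nil]
  apply Units.ext
  simp only [Units.val_mul, xg_val, Units.val_one]
  apply mat_ext_mulVec
  intro v
  simp only [← Matrix.mulVec_mulVec, Matrix.one_mulVec, xm_mulVec_7, xm_mulVec_8]
  funext i; fin_cases i <;> simp <;> ring
theorem ct_8_9 : chevD4.commTerms 8 9 = [] := by decide
theorem rel_8_9 (t u : F) : xg 9 u * xg 8 t = xg 8 t * xg 9 u * ((chevD4.commWord F 8 9 t u).map fun p => xg p.1 p.2).prod := by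
  rw [ChevalleyDatum.commWord, ct_8_9]
  simp only [List.map_cons, List.map_nil, List.prod_cons, List.prod_nil]
  apply Units.ext
  simp only [Units.val_mul, xg_val, Units.val_one]
  apply mat_ext_mulVec
  intro v
  simp only [← Matrix.mulVec_mulVec, Matrix.one_mulVec, xm_mulVec_8, xm_mulVec_9]
  funext i; fin_cases i <;> simp <;> ring
theorem ct_8_10 : chevD4.commTerms 8 10 = [(6, 1, 1, 1)] := by decide
theorem rel_8_10 (t u : F) : xg 10 u * xg 8 t = xg 8 t * xg 10 u * ((chevD4.commWord F 8 10 t u).map fun p => xg p.1 p.2).prod := by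
  rw [ChevalleyDatum.commWord, ct_8_10]
  simp only [List.map_cons, List.map_nil, List.prod_cons, List.prod_nil]
  apply Units.ext
  simp only [Units.val_mul, xg_val, Units.val_one]
  apply mat_ext_mulVec
  intro v
  simp only [← Matrix.mulVec_mulVec, Matrix.one_mulVec, xm_mulVec_6, xm_mulVec_8, xm_mulVec_10]
  funext i; fin_cases i <;> simp <;> ring
theorem ct_8_11 : chevD4.commTerms 8 11 = [] := by decide
theorem rel_8_11 (t u : F) : xg 11 u * xg 8 t = xg 8 t * xg 11 u * ((chevD4.commWord F 8 11 t u).map fun p => xg p.1 p.2).prod := by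
  rw [ChevalleyDatum.commWord, ct_8_11]
  simp only [List.map_cons, List.map_nil, List.prod_cons, List.prod_nil]
  apply Units.ext
  simp only [Units.val_mul, xg_val, Units.val_one]
  apply mat_ext_mulVec
  intro v
  simp only [← Matrix.mulVec_mulVec, Matrix.one_mulVec, xm_mulVec_8, xm_mulVec_11]
  funext i; fin_cases i <;> simp <;> ring
theorem ct_8_12 : chevD4.commTerms 8 12 = [(9, 1, 1, 1)] := by decide
theorem rel_8_12 (t u : F) : xg 12 u * xg 8 t = xg 8 t * xg 12 u * ((chevD4.commWord F 8 12 t u).map fun p => xg p.1 p.2).prod := by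
  rw [ChevalleyDatum.commWord, ct_8_12]
  simp only [List.map_cons, List.map_nil, List.prod_cons, List.prod_nil]
  apply Units.ext
  simp only [Units.val_mul, xg_val, Units.val_one]
  apply mat_ext_mulVec
  intro v
  simp only [← Matrix.mulVec_mulVec, Matrix.one_mulVec, xm_mulVec_8, xm_mulVec_9, xm_mulVec_12]
  funext i; fin_cases i <;> simp <;> ring
theorem ct_8_13 : chevD4.commTerms 8 13 = [] := by decide
theorem rel_8_13 (t u : F) : xg 13 u * xg 8 t = xg 8 t * xg 13 u * ((chevD4.commWord F 8 13 t u).map fun p => xg p.1 p.2).prod := by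
  rw [ChevalleyDatum.commWord, ct_8_13]
  simp only [List.map_cons, List.map_nil, List.prod_cons, List.prod_nil]
  apply Units.ext
  simp only [Units.val_mul, xg_val, Units.val_one]
  apply mat_ext_mulVec
  intro v
  simp only [← Matrix.mulVec_mulVec, Matrix.one_mulVec, xm_mulVec_8, xm_mulVec_13]
  funext i; fin_cases i <;> simp <;> ring
theorem ct_8_14 : chevD4.commTerms 8 14 = [(11, -1, 1, 1)] := by decide
theorem rel_8_14 (t u : F) : xg 14 u * xg 8 t = xg 8 t * xg 14 u * ((chevD4.commWord F 8 14 t u).map fun p => xg p.1 p.2).prod := by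
  rw [ChevalleyDatum.commWord, ct_8_14]
  simp only [List.map_cons, List.map_nil, List.prod_cons, List.prod_nil]
  apply Units.ext
  simp only [Units.val_mul, xg_val, Units.val_one]
  apply mat_ext_mulVec
  intro v
  simp only [← Matrix.mulVec_mulVec, Matrix.one_mulVec, xm_mulVec_8, xm_mulVec_11, xm_mulVec_14]
  funext i; fin_cases i <;> simp <;> ring
theorem ct_8_16 : chevD4.commTerms 8 16 = [] := by decide
theorem rel_8_16 (t u : F) : xg 16 u * xg 8 t = xg 8 t * xg 16 u * ((chevD4.commWord F 8 16 t u).map fun p => xg p.1 p.2).prod := by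
  rw [ChevalleyDatum.commWord, ct_8_16]
  simp only [List.map_cons, List.map_nil, List.prod_cons, List.prod_nil]
  apply Units.ext
  simp only [Units.val_mul, xg_val, Units.val_one]
  apply mat_ext_mulVec
  intro v
  simp only [← Matrix.mulVec_mulVec, Matrix.one_mulVec, xm_mulVec_8, xm_mulVec_16]
  funext i; fin_cases i <;> simp <;> ring
theorem ct_8_17 : chevD4.commTerms 8 17 = [(13, -1, 1, 1)] := by decide
theorem rel_8_17 (t u : F) : xg 17 u * xg 8 t = xg 8 t * xg 17 u * ((chevD4.commWord F 8 17 t u).map fun p => xg p.1 p.2).prod := by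
  rw [ChevalleyDatum.commWord, ct_8_17]
  simp only [List.map_cons, List.map_nil, List.prod_cons, List.prod_nil]
  apply Units.ext
  simp only [Units.val_mul, xg_val, Units.val_one]
  apply mat_ext_mulVec
  intro v
  simp only [← Matrix.mulVec_mulVec, Matrix.one_mulVec, xm_mulVec_8, xm_mulVec_13, xm_mulVec_17]
  funext i; fin_cases i <;> simp <;> ring
theorem ct_8_18 : chevD4.commTerms 8 18 = [] := by decide
theorem rel_8_18 (t u : F) : xg 18 u * xg 8 t = xg 8 t * xg 18 u * ((chevD4.commWord F 8 18 t u).map fun p => xg p.1 p.2).prod := by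
  rw [ChevalleyDatum.commWord, ct_8_18]
  simp only [List.map_cons, List.map_nil, List.prod_cons, List.prod_nil]
  apply Units.ext
  simp only [Units.val_mul, xg_val, Units.val_one]
  apply mat_ext_mulVec
  intro v
  simp only [← Matrix.mulVec_mulVec, Matrix.one_mulVec, xm_mulVec_8, xm_mulVec_18]
  funext i; fin_cases i <;> simp <;> ring
theorem ct_8_19 : chevD4.commTerms 8 19 = [] := by decide
theorem rel_8_19 (t u : F) : xg 19 u * xg 8 t = xg 8 t * xg 19 u * ((chevD4.commWord F 8 19 t u).map fun p => xg p.1 p.2).prod := by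
  rw [ChevalleyDatum.commWord, ct_8_19]
  simp only [List.map_cons, List.map_nil, List.prod_cons, List.prod_nil]
  apply Units.ext
  simp only [Units.val_mul, xg_val, Units.val_one]
  apply mat_ext_mulVec
  intro v
  simp only [← Matrix.mulVec_mulVec, Matrix.one_mulVec, xm_mulVec_8, xm_mulVec_19]
  funext i; fin_cases i <;> simp <;> ring
theorem ct_8_20 : chevD4.commTerms 8 20 = [(18, 1, 1, 1)] := by decide
theorem rel_8_20 (t u : F) : xg 20 u * xg 8 t = xg 8 t * xg 20 u * ((chevD4.commWord F 8 20 t u).map fun p => xg p.1 p.2).prod := by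
  rw [ChevalleyDatum.commWord, ct_8_20]
  simp only [List.map_cons, List.map_nil, List.prod_cons, List.prod_nil]
  apply Units.ext
  simp only [Units.val_mul, xg_val, Units.val_one]
  apply mat_ext_mulVec
  intro v
  simp only [← Matrix.mulVec_mulVec, Matrix.one_mulVec, xm_mulVec_8, xm_mulVec_18, xm_mulVec_20]
  funext i; fin_cases i <;> simp <;> ring
theorem ct_8_21 : chevD4.commTerms 8 21 = [] := by decide
theorem rel_8_21 (t u : F) : xg 21 u * xg 8 t = xg 8 t * xg 21 u * ((chevD4.commWord F 8 21 t u).map fun p => xg p.1 p.2).prod := by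
  rw [ChevalleyDatum.commWord, ct_8_21]
  simp only [List.map_cons, List.map_nil, List.prod_cons, List.prod_nil]
  apply Units.ext
  simp only [Units.val_mul, xg_val, Units.val_one]
  apply mat_ext_mulVec
  intro v
  simp only [← Matrix.mulVec_mulVec, Matrix.one_mulVec, xm_mulVec_8, xm_mulVec_21]
  funext i; fin_cases i <;> simp <;> ring
theorem ct_8_22 : chevD4.commTerms 8 22 = [] := by decide
theorem rel_8_22 (t u : F) : xg 22 u * xg 8 t = xg 8 t * xg 22 u * ((chevD4.commWord F 8 22 t u).map fun p => xg p.1 p.2).prod := by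
  rw [ChevalleyDatum.commWord, ct_8_22]
  simp only [List.map_cons, List.map_nil, List.prod_cons, List.prod_nil]
  apply Units.ext
  simp only [Units.val_mul, xg_val, Units.val_one]
  apply mat_ext_mulVec
  intro v
  simp only [← Matrix.mulVec_mulVec, Matrix.one_mulVec, xm_mulVec_8, xm_mulVec_22]
  funext i; fin_cases i <;> simp <;> ring
theorem ct_8_23 : chevD4.commTerms 8 23 = [(21, -1, 1, 1)] := by decide
theorem rel_8_23 (t u : F) : xg 23 u * xg 8 t = xg 8 t * xg 23 u * ((chevD4.commWord F 8 23 t u).map fun p => xg p.1 p.2).prod := by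
  rw [ChevalleyDatum.commWord, ct_8_23]
  simp only [List.map_cons, List.map_nil, List.prod_cons, List.prod_nil]
  apply Units.ext
  simp only [Units.val_mul, xg_val, Units.val_one]
  apply mat_ext_mulVec
  intro v
  simp only [← Matrix.mulVec_mulVec, Matrix.one_mulVec, xm_mulVec_8, xm_mulVec_21, xm_mulVec_23]
  funext i; fin_cases i <;> simp <;> ring

end Cfsg.Agent.Helper17.D4
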