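-- helper17: Steinberg's commutator relations for the explicit root elements of O_8^+ (S1082); machine generated.
import Cfsg.Agent.Helper17.D4Defs

set_option autoImplicit false
set_option linter.unusedSimpArgs false
set_option linter.unnecessarySeqFocus false
open Matrix Cfsg Cfsg.Lie

namespace Cfsg.Agent.Helper17.D4

variable {F : Type*} [Field F]

theorem ct_9_0 : chevD4.commTerms 9 0 = [] := by decide
theorem rel_9_0 (t u : F) : xg 0 u * xg 9 t = xg 9 t * xg 0 u * ((chevD4.commWord F 9 0 t u).map fun p => xg p.1 p.2).prod := by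
  rw [ChevalleyDatum.commWord, ct_9_0]
  simp only [List.map_cons, List.map_nil, List.prod_cons, List.prod_nil]
  apply Units.ext
  simp only [Units.val_mul, xg_val, Units.val_one]
  apply mat_ext_mulVec
  intro v
  simp only [← Matrix.mulVec_mulVec, Matrix.one_mulVec, xm_mulVec_0, xm_mulVec_9]
  funext i; fin_cases i <;> simp <;> ring
theorem ct_9_1 : chevD4.commTerms 9 1 = [(0, -1, 1, 1)] := by decide
theorem rel_9_1 (t u : F) : xg 1 u * xg 9 t = xg 9 t * xg 1 u * ((chevD4.commWord F 9 1 t u).map fun p => xg p.1 p.2).prod := by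
  rw [ChevalleyDatum.commWord, ct_9_1]
  simp only [List.map_cons, List.map_nil, List.prod_cons, List.prod_nil]
  apply Units.ext
  simp only [Units.val_mul, xg_val, Units.val_one]
  apply mat_ext_mulVec
  intro v
  simp only [← Matrix.mulVec_mulVec, Matrix.one_mulVec, xm_mulVec_0, xm_mulVec_1, xm_mulVec_9]
  funext i; fin_cases i <;> simp <;> ring
theorem ct_9_2 : chevD4.commTerms 9 2 = [] := by decide
theorem rel_9_2 (t u : F) : xg 2 u * xg 9 t = xg 9 t * xg 2 u * ((chevD4.commWord F 9 2 t u).map fun p => xg p.1 p.2).prod := by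
  rw [ChevalleyDatum.commWord, ct_9_2]
  simp only [List.map_cons, List.map_nil, List.prod_cons, List.prod_nil]
  apply Units.ext
  simp only [Units.val_mul, xg_val, Units.val_one]
  apply mat_ext_mulVec
  intro v
  simp only [← Matrix.mulVec_mulVec, Matrix.one_mulVec, xm_mulVec_2, xm_mulVec_9]
  funext i; fin_cases i <;> simp <;> ring
theorem ct_9_3 : chevD4.commTerms 9 3 = [] := by decide
theorem rel_9_3 (t u : F) : xg 3 u * xg 9 t = xg 9 t * xg 3 u * ((chevD4.commWord F 9 3 t u).map fun p => xg p.1 p.2).prod := by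
  rw [ChevalleyDatum.commWord, ct_9_3]
  simp only [List.map_cons, List.map_nil, List.prod_cons, List.prod_nil]
  apply Units.ext
  simp only [Units.val_mul, xg_val, Units.val_one]
  apply mat_ext_mulVec
  intro v
  simp only [← Matrix.mulVec_mulVec, Matrix.one_mulVec, xm_mulVec_3, xm_mulVec_9]
  funext i; fin_cases i <;> simp <;> ring
theorem ct_9_4 : chevD4.commTerms 9 4 = [] := by decide
theorem rel_9_4 (t u : F) : xg 4 u * xg 9 t = xg 9 t * xg 4 u * ((chevD4.commWord F 9 4 t u).map fun p => xg p.1 p.2).prod := by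
  rw [ChevalleyDatum.commWord, ct_9_4]
  simp only [List.map_cons, List.map_nil, List.prod_cons, List.prod_nil]
  apply Units.ext
  simp only [Units.val_mul, xg_val, Units.val_one]
  apply mat_ext_mulVec
  intro v
  simp only [← Matrix.mulVec_mulVec, Matrix.one_mulVec, xm_mulVec_4, xm_mulVec_9]
  funext i; fin_cases i <;> simp <;> ring
theorem ct_9_5 : chevD4.commTerms 9 5 = [(4, -1, 1, 1)] := by decide
theorem rel_9_5 (t u : F) : xg 5 u * xg 9 t = xg 9 t * xg 5 u * ((chevD4.commWord F 9 5 t u).map fun p => xg p.1 p.2).prod := by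
  rw [ChevalleyDatum.commWord, ct_9_5]
  simp only [List.map_cons, List.map_nil, List.prod_cons, List.prod_nil]
  apply Units.ext
  simp only [Units.val_mul, xg_val, Units.val_one]
  apply mat_ext_mulVec
  intro v
  simp only [← Matrix.mulVec_mulVec, Matrix.one_mulVec, xm_mulVec_4, xm_mulVec_5, xm_mulVec_9]
  funext i; fin_cases i <;> simp <;> ring
theorem ct_9_6 : chevD4.commTerms 9 6 = [] := by decide
theorem rel_9_6 (t u : F) : xg 6 u * xg 9 t = xg 9 t * xg 6 u * ((chevD4.commWord F 9 6 t u).map fun p => xg p.1 p.2).prod := by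
  rw [ChevalleyDatum.commWord, ct_9_6]
  simp only [List.map_cons, List.map_nil, List.prod_cons, List.prod_nil]
  apply Units.ext
  simp only [Units.val_mul, xg_val, Units.val_one]
  apply mat_ext_mulVec
  intro v
  simp only [← Matrix.mulVec_mulVec, Matrix.one_mulVec, xm_mulVec_6, xm_mulVec_9]
  funext i; fin_cases i <;> simp <;> ring
theorem ct_9_7 : chevD4.commTerms 9 7 = [] := by decide
theorem rel_9_7 (t u : F) : xg 7 u * xg 9 t = xg 9 t * xg 7 u * ((chevD4.commWord F 9 7 t u).map fun p => xg p.1 p.2).prod := by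
  rw [ChevalleyDatum.commWord, ct_9_7]
  simp only [List.map_cons, List.map_nil, List.prod_cons, List.prod_nil]
  apply Units.ext
  simp only [Units.val_mul, xg_val, Units.val_one]
  apply mat_ext_mulVec
  intro v
  simp only [← Matrix.mulVec_mulVec, Matrix.one_mulVec, xm_mulVec_7, xm_mulVec_9]
  funext i; fin_cases i <;> simp <;> ring
theorem ct_9_8 : chevD4.commTerms 9 8 = [] := by decide
theorem rel_9_8 (t u : F) : xg 8 u * xg 9 t = xg 9 t * xg 8 u * ((chevD4.commWord F 9 8 t u).map fun p => xg p.1 p.2).prod := by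
  rw [ChevalleyDatum.commWord, ct_9_8]
  simp only [List.map_cons, List.map_nil, List.prod_cons, List.prod_nil]
  apply Units.ext
  simp only [Units.val_mul, xg_val, Units.val_one]
  apply mat_ext_mulVec
  intro v
  simp only [← Matrix.mulVec_mulVec, Matrix.one_mulVec, xm_mulVec_8, xm_mulVec_9]
  funext i; fin_cases i <;> simp <;> ring
theorem ct_9_10 : chevD4.commTerms 9 10 = [(7, 1, 1, 1)] := by decide
theorem rel_9_10 (t u : F) : xg 10 u * xg 9 t = xg 9 t * xg 10 u * ((chevD4.commWord F 9 10 t u).map fun p => xg p.1 p.2).prod := by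
  rw [ChevalleyDatum.commWord, ct_9_10]
  simp only [List.map_cons, List.map_nil, List.prod_cons, List.prod_nil]
  apply Units.ext
  simp only [Units.val_mul, xg_val, Units.val_one]
  apply mat_ext_mulVec
  intro v
  simp only [← Matrix.mulVec_mulVec, Matrix.one_mulVec, xm_mulVec_7, xm_mulVec_9, xm_mulVec_10]
  funext i; fin_cases i <;> simp <;> ring
theorem ct_9_11 : chevD4.commTerms 9 11 = [(8, 1, 1, 1)] := by decide
theorem rel_9_11 (t u : F) : xg 11 u * xg 9 t = xg 9 t * xg 11 u * ((chevD4.commWord F 9 11 t u).map fun p => xg p.1 p.2).prod := by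
  rw [ChevalleyDatum.commWord, ct_9_11]
  simp only [List.map_cons, List.map_nil, List.prod_cons, List.prod_nil]
  apply Units.ext
  simp only [Units.val_mul, xg_val, Units.val_one]
  apply mat_ext_mulVec
  intro v
  simp only [← Matrix.mulVec_mulVec, Matrix.one_mulVec, xm_mulVec_8, xm_mulVec_9, xm_mulVec_11]
  funext i; fin_cases i <;> simp <;> ring
theorem ct_9_12 : chevD4.commTerms 9 12 = [] := by decide
theorem rel_9_12 (t u : F) : xg 12 u * xg 9 t = xg 9 t * xg 12 u * ((chevD4.commWord F 9 12 t u).map fun p => xg p.1 p.2).prod := by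
  rw [ChevalleyDatum.commWord, ct_9_12]
  simp only [List.map_cons, List.map_nil, List.prod_cons, List.prod_nil]
  apply Units.ext
  simp only [Units.val_mul, xg_val, Units.val_one]
  apply mat_ext_mulVec
  intro v
  simp only [← Matrix.mulVec_mulVec, Matrix.one_mulVec, xm_mulVec_9, xm_mulVec_12]
  funext i; fin_cases i <;> simp <;> ring
theorem ct_9_13 : chevD4.commTerms 9 13 = [] := by decide
theorem rel_9_13 (t u : F) : xg 13 u * xg 9 t = xg 9 t * xg 13 u * ((chevD4.commWord F 9 13 t u).map fun p => xg p.1 p.2).prod := by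
  rw [ChevalleyDatum.commWord, ct_9_13]
  simp only [List.map_cons, List.map_nil, List.prod_cons, List.prod_nil]
  apply Units.ext
  simp only [Units.val_mul, xg_val, Units.val_one]
  apply mat_ext_mulVec
  intro v
  simp only [← Matrix.mulVec_mulVec, Matrix.one_mulVec, xm_mulVec_9, xm_mulVec_13]
  funext i; fin_cases i <;> simp <;> ring
theorem ct_9_15 : chevD4.commTerms 9 15 = [(12, -1, 1, 1)] := by decide
theorem rel_9_15 (t u : F) : xg 15 u * xg 9 t = xg 9 t * xg 15 u * ((chevD4.commWord F 9 15 t u).map fun p => xg p.1 p.2).prod := by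
  rw [ChevalleyDatum.commWord, ct_9_15]
  simp only [List.map_cons, List.map_nil, List.prod_cons, List.prod_nil]
  apply Units.ext
  simp only [Units.val_mul, xg_val, Units.val_one]
  apply mat_ext_mulVec
  intro v
  simp only [← Matrix.mulVec_mulVec, Matrix.one_mulVec, xm_mulVec_9, xm_mulVec_12, xm_mulVec_15]
  funext i; fin_cases i <;> simp <;> ring
theorem ct_9_16 : chevD4.commTerms 9 16 = [(13, -1, 1, 1)] := by decide
theorem rel_9_16 (t u : F) : xg 16 u * xg 9 t = xg 9 t * xg 16 u * ((chevD4.commWord F 9 16 t u).map fun p => xg p.1 p.2).prod := by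
  rw [ChevalleyDatum.commWord, ct_9_16]
  simp only [List.map_cons, List.map_nil, List.prod_cons, List.prod_nil]
  apply Units.ext
  simp only [Units.val_mul, xg_val, Units.val_one]
  apply mat_ext_mulVec
  intro v
  simp only [← Matrix.mulVec_mulVec, Matrix.one_mulVec, xm_mulVec_9, xm_mulVec_13, xm_mulVec_16]
  funext i; fin_cases i <;> simp <;> ring
theorem ct_9_17 : chevD4.commTerms 9 17 = [] := by decide
theorem rel_9_17 (t u : F) : xg 17 u * xg 9 t = xg 9 t * xg 17 u * ((chevD4.commWord F 9 17 t u).map fun p => xg p.1 p.2).prod := by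
  rw [ChevalleyDatum.commWord, ct_9_17]
  simp only [List.map_cons, List.map_nil, List.prod_cons, List.prod_nil]
  apply Units.ext
  simp only [Units.val_mul, xg_val, Units.val_one]
  apply mat_ext_mulVec
  intro v
  simp only [← Matrix.mulVec_mulVec, Matrix.one_mulVec, xm_mulVec_9, xm_mulVec_17]
  funext i; fin_cases i <;> simp <;> ring
theorem ct_9_18 : chevD4.commTerms 9 18 = [] := by decide
theorem rel_9_18 (t u : F) : xg 18 u * xg 9 t = xg 9 t * xg 18 u * ((chevD4.commWord F 9 18 t u).map fun p => xg p.1 p.2).prod := by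
  rw [ChevalleyDatum.commWord, ct_9_18]
  simp only [List.map_cons, List.map_nil, List.prod_cons, List.prod_nil]
  apply Units.ext
  simp only [Units.val_mul, xg_val, Units.val_one]
  apply mat_ext_mulVec
  intro v
  simp only [← Matrix.mulVec_mulVec, Matrix.one_mulVec, xm_mulVec_9, xm_mulVec_18]
  funext i; fin_cases i <;> simp <;> ring
theorem ct_9_19 : chevD4.commTerms 9 19 = [(18, 1, 1, 1)] := by decide
theorem rel_9_19 (t u : F) : xg 19 u * xg 9 t = xg 9 t * xg 19 u * ((chevD4.commWord F 9 19 t u).map fun p => xg p.1 p.2).prod := by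
  rw [ChevalleyDatum.commWord, ct_9_19]
  simp only [List.map_cons, List.map_nil, List.prod_cons, List.prod_nil]
  apply Units.ext
  simp only [Units.val_mul, xg_val, Units.val_one]
  apply mat_ext_mulVec
  intro v
  simp only [← Matrix.mulVec_mulVec, Matrix.one_mulVec, xm_mulVec_9, xm_mulVec_18, xm_mulVec_19]
  funext i; fin_cases i <;> simp <;> ring
theorem ct_9_20 : chevD4.commTerms 9 20 = [] := by decide
theorem rel_9_20 (t u : F) : xg 20 u * xg 9 t = xg 9 t * xg 20 u * ((chevD4.commWord F 9 20 t u).map fun p => xg p.1 p.2).prod := by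
  rw [ChevalleyDatum.commWord, ct_9_20]
  simp only [List.map_cons, List.map_nil, List.prod_cons, List.prod_nil]
  apply Units.ext
  simp only [Units.val_mul, xg_val, Units.val_one]
  apply mat_ext_mulVec
  intro v
  simp only [← Matrix.mulVec_mulVec, Matrix.one_mulVec, xm_mulVec_9, xm_mulVec_20]
  funext i; fin_cases i <;> simp <;> ring
theorem ct_9_21 : chevD4.commTerms 9 21 = [] := by decide
theorem rel_9_21 (t u : F) : xg 21 u * xg 9 t = xg 9 t * xg 21 u * ((chevD4.commWord F 9 21 t u).map fun p => xg p.1 p.2).prod := by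
  rw [ChevalleyDatum.commWord, ct_9_21]
  simp only [List.map_cons, List.map_nil, List.prod_cons, List.prod_nil]
  apply Units.ext
  simp only [Units.val_mul, xg_val, Units.val_one]
  apply mat_ext_mulVec
  intro v
  simp only [← Matrix.mulVec_mulVec, Matrix.one_mulVec, xm_mulVec_9, xm_mulVec_21]
  funext i; fin_cases i <;> simp <;> ring
theorem ct_9_22 : chevD4.commTerms 9 22 = [] := by decide
theorem rel_9_22 (t u : F) : xg 22 u * xg 9 t = xg 9 t * xg 22 u * ((chevD4.commWord F 9 22 t u).map fun p => xg p.1 p.2).prod := by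
  rw [ChevalleyDatum.commWord, ct_9_22]
  simp only [List.map_cons, List.map_nil, List.prod_cons, List.prod_nil]
  apply Units.ext
  simp only [Units.val_mul, xg_val, Units.val_one]
  apply mat_ext_mulVec
  intro v
  simp only [← Matrix.mulVec_mulVec, Matrix.one_mulVec, xm_mulVec_9, xm_mulVec_22]
  funext i; fin_cases i <;> simp <;> ring
theorem ct_9_23 : chevD4.commTerms 9 23 = [(22, 1, 1, 1)] := by decide
theorem rel_9_23 (t u : F) : xg 23 u * xg 9 t = xg 9 t * xg 23 u * ((chevD4.commWord F 9 23 t u).map fun p => xg p.1 p.2).prod := by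
  rw [ChevalleyDatum.commWord, ct_9_23]
  simp only [List.map_cons, List.map_nil, List.prod_cons, List.prod_nil]
  apply Units.ext
  simp only [Units.val_mul, xg_val, Units.val_one]
  apply mat_ext_mulVec
  intro v
  simp only [← Matrix.mulVec_mulVec, Matrix.one_mulVec, xm_mulVec_9, xm_mulVec_22, xm_mulVec_23]
  funext i; fin_cases i <;> simp <;> ring
theorem ct_10_0 : chevD4.commTerms 10 0 = [] := by decide
theorem rel_10_0 (t u : F) : xg 0 u * xg 10 t = xg 10 t * xg 0 u * ((chevD4.commWord F 10 0 t u).map fun p => xg p.1 p.2).prod := by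
  rw [ChevalleyDatum.commWord, ct_10_0]
  simp only [List.map_cons, List.map_nil, List.prod_cons, List.prod_nil]
  apply Units.ext
  simp only [Units.val_mul, xg_val, Units.val_one]
  apply mat_ext_mulVec
  intro v
  simp only [← Matrix.mulVec_mulVec, Matrix.one_mulVec, xm_mulVec_0, xm_mulVec_10]
  funext i; fin_cases i <;> simp <;> ring
theorem ct_10_1 : chevD4.commTerms 10 1 = [] := by decide
theorem rel_10_1 (t u : F) : xg 1 u * xg 10 t = xg 10 t * xg 1 u * ((chevD4.commWord F 10 1 t u).map fun p => xg p.1 p.2).prod := by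
  rw [ChevalleyDatum.commWord, ct_10_1]
  simp only [List.map_cons, List.map_nil, List.prod_cons, List.prod_nil]
  apply Units.ext
  simp only [Units.val_mul, xg_val, Units.val_one]
  apply mat_ext_mulVec
  intro v
  simp only [← Matrix.mulVec_mulVec, Matrix.one_mulVec, xm_mulVec_1, xm_mulVec_10]
  funext i; fin_cases i <;> simp <;> ring
theorem ct_10_2 : chevD4.commTerms 10 2 = [] := by decide
theorem rel_10_2 (t u : F) : xg 2 u * xg 10 t = xg 10 t * xg 2 u * ((chevD4.commWord F 10 2 t u).map fun p => xg p.1 p.2).prod := by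
  rw [ChevalleyDatum.commWord, ct_10_2]
  simp only [List.map_cons, List.map_nil, List.prod_cons, List.prod_nil]
  apply Units.ext
  simp only [Units.val_mul, xg_val, Units.val_one]
  apply mat_ext_mulVec
  intro v
  simp only [← Matrix.mulVec_mulVec, Matrix.one_mulVec, xm_mulVec_2, xm_mulVec_10]
  funext i; fin_cases i <;> simp <;> ring
theorem ct_10_3 : chevD4.commTerms 10 3 = [(1, -1, 1, 1)] := by decide
theorem rel_10_3 (t u : F) : xg 3 u * xg 10 t = xg 10 t * xg 3 u * ((chevD4.commWord F 10 3 t u).map fun p => xg p.1 p.2).prod := by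
  rw [ChevalleyDatum.commWord, ct_10_3]
  simp only [List.map_cons, List.map_nil, List.prod_cons, List.prod_nil]
  apply Units.ext
  simp only [Units.val_mul, xg_val, Units.val_one]
  apply mat_ext_mulVec
  intro v
  simp only [← Matrix.mulVec_mulVec, Matrix.one_mulVec, xm_mulVec_1, xm_mulVec_3, xm_mulVec_10]
  funext i; fin_cases i <;> simp <;> ring
theorem ct_10_4 : chevD4.commTerms 10 4 = [(2, -1, 1, 1)] := by decide
theorem rel_10_4 (t u : F) : xg 4 u * xg 10 t = xg 10 t * xg 4 u * ((chevD4.commWord F 10 4 t u).map fun p => xg p.1 p.2).prod := by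
  rw [ChevalleyDatum.commWord, ct_10_4]
  simp only [List.map_cons, List.map_nil, List.prod_cons, List.prod_nil]
  apply Units.ext
  simp only [Units.val_mul, xg_val, Units.val_one]
  apply mat_ext_mulVec
  intro v
  simp only [← Matrix.mulVec_mulVec, Matrix.one_mulVec, xm_mulVec_2, xm_mulVec_4, xm_mulVec_10]
  funext i; fin_cases i <;> simp <;> ring
theorem ct_10_5 : chevD4.commTerms 10 5 = [] := by decide
theorem rel_10_5 (t u : F) : xg 5 u * xg 10 t = xg 10 t * xg 5 u * ((chevD4.commWord F 10 5 t u).map fun p => xg p.1 p.2).prod := by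
  rw [ChevalleyDatum.commWord, ct_10_5]
  simp only [List.map_cons, List.map_nil, List.prod_cons, List.prod_nil]
  apply Units.ext
  simp only [Units.val_mul, xg_val, Units.val_one]
  apply mat_ext_mulVec
  intro v
  simp only [← Matrix.mulVec_mulVec, Matrix.one_mulVec, xm_mulVec_5, xm_mulVec_10]
  funext i; fin_cases i <;> simp <;> ring
theorem ct_10_6 : chevD4.commTerms 10 6 = [] := by decide
theorem rel_10_6 (t u : F) : xg 6 u * xg 10 t = xg 10 t * xg 6 u * ((chevD4.commWord F 10 6 t u).map fun p => xg p.1 p.2).prod := by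
  rw [ChevalleyDatum.commWord, ct_10_6]
  simp only [List.map_cons, List.map_nil, List.prod_cons, List.prod_nil]
  apply Units.ext
  simp only [Units.val_mul, xg_val, Units.val_one]
  apply mat_ext_mulVec
  intro v
  simp only [← Matrix.mulVec_mulVec, Matrix.one_mulVec, xm_mulVec_6, xm_mulVec_10]
  funext i; fin_cases i <;> simp <;> ring
theorem ct_10_7 : chevD4.commTerms 10 7 = [] := by decide
theorem rel_10_7 (t u : F) : xg 7 u * xg 10 t = xg 10 t * xg 7 u * ((chevD4.commWord F 10 7 t u).map fun p => xg p.1 p.2).prod := by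
  rw [ChevalleyDatum.commWord, ct_10_7]
  simp only [List.map_cons, List.map_nil, List.prod_cons, List.prod_nil]
  apply Units.ext
  simp only [Units.val_mul, xg_val, Units.val_one]
  apply mat_ext_mulVec
  intro v
  simp only [← Matrix.mulVec_mulVec, Matrix.one_mulVec, xm_mulVec_7, xm_mulVec_10]
  funext i; fin_cases i <;> simp <;> ring
theorem ct_10_8 : chevD4.commTerms 10 8 = [(6, -1, 1, 1)] := by decide
theorem rel_10_8 (t u : F) : xg 8 u * xg 10 t = xg 10 t * xg 8 u * ((chevD4.commWord F 10 8 t u).map fun p => xg p.1 p.2).prod := by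
  rw [ChevalleyDatum.commWord, ct_10_8]
  simp only [List.map_cons, List.map_nil, List.prod_cons, List.prod_nil]
  apply Units.ext
  simp only [Units.val_mul, xg_val, Units.val_one]
  apply mat_ext_mulVec
  intro v
  simp only [← Matrix.mulVec_mulVec, Matrix.one_mulVec, xm_mulVec_6, xm_mulVec_8, xm_mulVec_10]
  funext i; fin_cases i <;> simp <;> ring
theorem ct_10_9 : chevD4.commTerms 10 9 = [(7, -1, 1, 1)] := by decide
theorem rel_10_9 (t u : F) : xg 9 u * xg 10 t = xg 10 t * xg 9 u * ((chevD4.commWord F 10 9 t u).map fun p => xg p.1 p.2).prod := by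
  rw [ChevalleyDatum.commWord, ct_10_9]
  simp only [List.map_cons, List.map_nil, List.prod_cons, List.prod_nil]
  apply Units.ext
  simp only [Units.val_mul, xg_val, Units.val_one]
  apply mat_ext_mulVec
  intro v
  simp only [← Matrix.mulVec_mulVec, Matrix.one_mulVec, xm_mulVec_7, xm_mulVec_9, xm_mulVec_10]
  funext i; fin_cases i <;> simp <;> ring
theorem ct_10_11 : chevD4.commTerms 10 11 = [] := by decide
theorem rel_10_11 (t u : F) : xg 11 u * xg 10 t = xg 10 t * xg 11 u * ((chevD4.commWord F 10 11 t u).map fun p => xg p.1 p.2).prod := by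
  rw [ChevalleyDatum.commWord, ct_10_11]
  simp only [List.map_cons, List.map_nil, List.prod_cons, List.prod_nil]
  apply Units.ext
  simp only [Units.val_mul, xg_val, Units.val_one]
  apply mat_ext_mulVec
  intro v
  simp only [← Matrix.mulVec_mulVec, Matrix.one_mulVec, xm_mulVec_10, xm_mulVec_11]
  funext i; fin_cases i <;> simp <;> ring
theorem ct_10_12 : chevD4.commTerms 10 12 = [] := by decide
theorem rel_10_12 (t u : F) : xg 12 u * xg 10 t = xg 10 t * xg 12 u * ((chevD4.commWord F 10 12 t u).map fun p => xg p.1 p.2).prod := by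
  rw [ChevalleyDatum.commWord, ct_10_12]
  simp only [List.map_cons, List.map_nil, List.prod_cons, List.prod_nil]
  apply Units.ext
  simp only [Units.val_mul, xg_val, Units.val_one]
  apply mat_ext_mulVec
  intro v
  simp only [← Matrix.mulVec_mulVec, Matrix.one_mulVec, xm_mulVec_10, xm_mulVec_12]
  funext i; fin_cases i <;> simp <;> ring
theorem ct_10_14 : chevD4.commTerms 10 14 = [] := by decide
theorem rel_10_14 (t u : F) : xg 14 u * xg 10 t = xg 10 t * xg 14 u * ((chevD4.commWord F 10 14 t u).map fun p => xg p.1 p.2).prod := by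
  rw [ChevalleyDatum.commWord, ct_10_14]
  simp only [List.map_cons, List.map_nil, List.prod_cons, List.prod_nil]
  apply Units.ext
  simp only [Units.val_mul, xg_val, Units.val_one]
  apply mat_ext_mulVec
  intro v
  simp only [← Matrix.mulVec_mulVec, Matrix.one_mulVec, xm_mulVec_10, xm_mulVec_14]
  funext i; fin_cases i <;> simp <;> ring
theorem ct_10_15 : chevD4.commTerms 10 15 = [] := by decide
theorem rel_10_15 (t u : F) : xg 15 u * xg 10 t = xg 10 t * xg 15 u * ((chevD4.commWord F 10 15 t u).map fun p => xg p.1 p.2).prod := by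
  rw [ChevalleyDatum.commWord, ct_10_15]
  simp only [List.map_cons, List.map_nil, List.prod_cons, List.prod_nil]
  apply Units.ext
  simp only [Units.val_mul, xg_val, Units.val_one]
  apply mat_ext_mulVec
  intro v
  simp only [← Matrix.mulVec_mulVec, Matrix.one_mulVec, xm_mulVec_10, xm_mulVec_15]
  funext i; fin_cases i <;> simp <;> ring
theorem ct_10_16 : chevD4.commTerms 10 16 = [(14, 1, 1, 1)] := by decide
theorem rel_10_16 (t u : F) : xg 16 u * xg 10 t = xg 10 t * xg 16 u * ((chevD4.commWord F 10 16 t u).map fun p => xg p.1 p.2).prod := by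
  rw [ChevalleyDatum.commWord, ct_10_16]
  simp only [List.map_cons, List.map_nil, List.prod_cons, List.prod_nil]
  apply Units.ext
  simp only [Units.val_mul, xg_val, Units.val_one]
  apply mat_ext_mulVec
  intro v
  simp only [← Matrix.mulVec_mulVec, Matrix.one_mulVec, xm_mulVec_10, xm_mulVec_14, xm_mulVec_16]
  funext i; fin_cases i <;> simp <;> ring
theorem ct_10_17 : chevD4.commTerms 10 17 = [(15, 1, 1, 1)] := by decide
theorem rel_10_17 (t u : F) : xg 17 u * xg 10 t = xg 10 t * xg 17 u * ((chevD4.commWord F 10 17 t u).map fun p => xg p.1 p.2).prod := by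
  rw [ChevalleyDatum.commWord, ct_10_17]
  simp only [List.map_cons, List.map_nil, List.prod_cons, List.prod_nil]
  apply Units.ext
  simp only [Units.val_mul, xg_val, Units.val_one]
  apply mat_ext_mulVec
  intro v
  simp only [← Matrix.mulVec_mulVec, Matrix.one_mulVec, xm_mulVec_10, xm_mulVec_15, xm_mulVec_17]
  funext i; fin_cases i <;> simp <;> ring
theorem ct_10_18 : chevD4.commTerms 10 18 = [] := by decide
theorem rel_10_18 (t u : F) : xg 18 u * xg 10 t = xg 10 t * xg 18 u * ((chevD4.commWord F 10 18 t u).map fun p => xg p.1 p.2).prod := by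
  rw [ChevalleyDatum.commWord, ct_10_18]
  simp only [List.map_cons, List.map_nil, List.prod_cons, List.prod_nil]
  apply Units.ext
  simp only [Units.val_mul, xg_val, Units.val_one]
  apply mat_ext_mulVec
  intro v
  simp only [← Matrix.mulVec_mulVec, Matrix.one_mulVec, xm_mulVec_10, xm_mulVec_18]
  funext i; fin_cases i <;> simp <;> ring
theorem ct_10_19 : chevD4.commTerms 10 19 = [] := by decide
theorem rel_10_19 (t u : F) : xg 19 u * xg 10 t = xg 10 t * xg 19 u * ((chevD4.commWord F 10 19 t u).map fun p => xg p.1 p.2).prod := by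
  rw [ChevalleyDatum.commWord, ct_10_19]
  simp only [List.map_cons, List.map_nil, List.prod_cons, List.prod_nil]
  apply Units.ext
  simp only [Units.val_mul, xg_val, Units.val_one]
  apply mat_ext_mulVec
  intro v
  simp only [← Matrix.mulVec_mulVec, Matrix.one_mulVec, xm_mulVec_10, xm_mulVec_19]
  funext i; fin_cases i <;> simp <;> ring
theorem ct_10_20 : chevD4.commTerms 10 20 = [] := by decide
theorem rel_10_20 (t u : F) : xg 20 u * xg 10 t = xg 10 t * xg 20 u * ((chevD4.commWord F 10 20 t u).map fun p => xg p.1 p.2).prod := by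
  rw [ChevalleyDatum.commWord, ct_10_20]
  simp only [List.map_cons, List.map_nil, List.prod_cons, List.prod_nil]
  apply Units.ext
  simp only [Units.val_mul, xg_val, Units.val_one]
  apply mat_ext_mulVec
  intro v
  simp only [← Matrix.mulVec_mulVec, Matrix.one_mulVec, xm_mulVec_10, xm_mulVec_20]
  funext i; fin_cases i <;> simp <;> ring
theorem ct_10_21 : chevD4.commTerms 10 21 = [(19, 1, 1, 1)] := by decide
theorem rel_10_21 (t u : F) : xg 21 u * xg 10 t = xg 10 t * xg 21 u * ((chevD4.commWord F 10 21 t u).map fun p => xg p.1 p.2).prod := by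
  rw [ChevalleyDatum.commWord, ct_10_21]
  simp only [List.map_cons, List.map_nil, List.prod_cons, List.prod_nil]
  apply Units.ext
  simp only [Units.val_mul, xg_val, Units.val_one]
  apply mat_ext_mulVec
  intro v
  simp only [← Matrix.mulVec_mulVec, Matrix.one_mulVec, xm_mulVec_10, xm_mulVec_19, xm_mulVec_21]
  funext i; fin_cases i <;> simp <;> ring
theorem ct_10_22 : chevD4.commTerms 10 22 = [(20, 1, 1, 1)] := by decide
theorem rel_10_22 (t u : F) : xg 22 u * xg 10 t = xg 10 t * xg 22 u * ((chevD4.commWord F 10 22 t u).map fun p => xg p.1 p.2).prod := by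
  rw [ChevalleyDatum.commWord, ct_10_22]
  simp only [List.map_cons, List.map_nil, List.prod_cons, List.prod_nil]
  apply Units.ext
  simp only [Units.val_mul, xg_val, Units.val_one]
  apply mat_ext_mulVec
  intro v
  simp only [← Matrix.mulVec_mulVec, Matrix.one_mulVec, xm_mulVec_10, xm_mulVec_20, xm_mulVec_22]
  funext i; fin_cases i <;> simp <;> ring
theorem ct_10_23 : chevD4.commTerms 10 23 = [] := by decide
theorem rel_10_23 (t u : F) : xg 23 u * xg 10 t = xg 10 t * xg 23 u * ((chevD4.commWord F 10 23 t u).map fun p => xg p.1 p.2).prod := by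
  rw [ChevalleyDatum.commWord, ct_10_23]
  simp only [List.map_cons, List.map_nil, List.prod_cons, List.prod_nil]
  apply Units.ext
  simp only [Units.val_mul, xg_val, Units.val_one]
  apply mat_ext_mulVec
  intro v
  simp only [← Matrix.mulVec_mulVec, Matrix.one_mulVec, xm_mulVec_10, xm_mulVec_23]
  funext i; fin_cases i <;> simp <;> ring
theorem ct_11_0 : chevD4.commTerms 11 0 = [] := by decide
theorem rel_11_0 (t u : F) : xg 0 u * xg 11 t = xg 11 t * xg 0 u * ((chevD4.commWord F 11 0 t u).map fun p => xg p.1 p.2).prod := by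
  rw [ChevalleyDatum.commWord, ct_11_0]
  simp only [List.map_cons, List.map_nil, List.prod_cons, List.prod_nil]
  apply Units.ext
  simp only [Units.val_mul, xg_val, Units.val_one]
  apply mat_ext_mulVec
  intro v
  simp only [← Matrix.mulVec_mulVec, Matrix.one_mulVec, xm_mulVec_0, xm_mulVec_11]
  funext i; fin_cases i <;> simp <;> ring
theorem ct_11_1 : chevD4.commTerms 11 1 = [] := by decide
theorem rel_11_1 (t u : F) : xg 1 u * xg 11 t = xg 11 t * xg 1 u * ((chevD4.commWord F 11 1 t u).map fun p => xg p.1 p.2).prod := by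
  rw [ChevalleyDatum.commWord, ct_11_1]
  simp only [List.map_cons, List.map_nil, List.prod_cons, List.prod_nil]
  apply Units.ext
  simp only [Units.val_mul, xg_val, Units.val_one]
  apply mat_ext_mulVec
  intro v
  simp only [← Matrix.mulVec_mulVec, Matrix.one_mulVec, xm_mulVec_1, xm_mulVec_11]
  funext i; fin_cases i <;> simp <;> ring
theorem ct_11_2 : chevD4.commTerms 11 2 = [(1, -1, 1, 1)] := by decide
theorem rel_11_2 (t u : F) : xg 2 u * xg 11 t = xg 11 t * xg 2 u * ((chevD4.commWord F 11 2 t u).map fun p => xg p.1 p.2).prod := by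
  rw [ChevalleyDatum.commWord, ct_11_2]
  simp only [List.map_cons, List.map_nil, List.prod_cons, List.prod_nil]
  apply Units.ext
  simp only [Units.val_mul, xg_val, Units.val_one]
  apply mat_ext_mulVec
  intro v
  simp only [← Matrix.mulVec_mulVec, Matrix.one_mulVec, xm_mulVec_1, xm_mulVec_2, xm_mulVec_11]
  funext i; fin_cases i <;> simp <;> ring
theorem ct_11_3 : chevD4.commTerms 11 3 = [] := by decide
theorem rel_11_3 (t u : F) : xg 3 u * xg 11 t = xg 11 t * xg 3 u * ((chevD4.commWord F 11 3 t u).map fun p => xg p.1 p.2).prod := by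
  rw [ChevalleyDatum.commWord, ct_11_3]
  simp only [List.map_cons, List.map_nil, List.prod_cons, List.prod_nil]
  apply Units.ext
  simp only [Units.val_mul, xg_val, Units.val_one]
  apply mat_ext_mulVec
  intro v
  simp only [← Matrix.mulVec_mulVec, Matrix.one_mulVec, xm_mulVec_3, xm_mulVec_11]
  funext i; fin_cases i <;> simp <;> ring
theorem ct_11_4 : chevD4.commTerms 11 4 = [(3, -1, 1, 1)] := by decide
theorem rel_11_4 (t u : F) : xg 4 u * xg 11 t = xg 11 t * xg 4 u * ((chevD4.commWord F 11 4 t u).map fun p => xg p.1 p.2).prod := by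
  rw [ChevalleyDatum.commWord, ct_11_4]
  simp only [List.map_cons, List.map_nil, List.prod_cons, List.prod_nil]
  apply Units.ext
  simp only [Units.val_mul, xg_val, Units.val_one]
  apply mat_ext_mulVec
  intro v
  simp only [← Matrix.mulVec_mulVec, Matrix.one_mulVec, xm_mulVec_3, xm_mulVec_4, xm_mulVec_11]
  funext i; fin_cases i <;> simp <;> ring
theorem ct_11_5 : chevD4.commTerms 11 5 = [] := by decide
theorem rel_11_5 (t u : F) : xg 5 u * xg 11 t = xg 11 t * xg 5 u * ((chevD4.commWord F 11 5 t u).map fun p => xg p.1 p.2).prod := by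
  rw [ChevalleyDatum.commWord, ct_11_5]
  simp only [List.map_cons, List.map_nil, List.prod_cons, List.prod_nil]
  apply Units.ext
  simp only [Units.val_mul, xg_val, Units.val_one]
  apply mat_ext_mulVec
  intro v
  simp only [← Matrix.mulVec_mulVec, Matrix.one_mulVec, xm_mulVec_5, xm_mulVec_11]
  funext i; fin_cases i <;> simp <;> ring
theorem ct_11_6 : chevD4.commTerms 11 6 = [] := by decide
theorem rel_11_6 (t u : F) : xg 6 u * xg 11 t = xg 11 t * xg 6 u * ((chevD4.commWord F 11 6 t u).map fun p => xg p.1 p.2).prod := by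
  rw [ChevalleyDatum.commWord, ct_11_6]
  simp only [List.map_cons, List.map_nil, List.prod_cons, List.prod_nil]
  apply Units.ext
  simp only [Units.val_mul, xg_val, Units.val_one]
  apply mat_ext_mulVec
  intro v
  simp only [← Matrix.mulVec_mulVec, Matrix.one_mulVec, xm_mulVec_6, xm_mulVec_11]
  funext i; fin_cases i <;> simp <;> ring
theorem ct_11_7 : chevD4.commTerms 11 7 = [(6, -1, 1, 1)] := by decide
theorem rel_11_7 (t u : F) : xg 7 u * xg 11 t = xg 11 t * xg 7 u * ((chevD4.commWord F 11 7 t u).map fun p => xg p.1 p.2).prod := by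
  rw [ChevalleyDatum.commWord, ct_11_7]
  simp only [List.map_cons, List.map_nil, List.prod_cons, List.prod_nil]
  apply Units.ext
  simp only [Units.val_mul, xg_val, Units.val_one]
  apply mat_ext_mulVec
  intro v
  simp only [← Matrix.mulVec_mulVec, Matrix.one_mulVec, xm_mulVec_6, xm_mulVec_7, xm_mulVec_11]
  funext i; fin_cases i <;> simp <;> ring
theorem ct_11_8 : chevD4.commTerms 11 8 = [] := by decide
theorem rel_11_8 (t u : F) : xg 8 u * xg 11 t = xg 11 t * xg 8 u * ((chevD4.commWord F 11 8 t u).map fun p => xg p.1 p.2).prod := by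
  rw [ChevalleyDatum.commWord, ct_11_8]
  simp only [List.map_cons, List.map_nil, List.prod_cons, List.prod_nil]
  apply Units.ext
  simp only [Units.val_mul, xg_val, Units.val_one]
  apply mat_ext_mulVec
  intro v
  simp only [← Matrix.mulVec_mulVec, Matrix.one_mulVec, xm_mulVec_8, xm_mulVec_11]
  funext i; fin_cases i <;> simp <;> ring
theorem ct_11_9 : chevD4.commTerms 11 9 = [(8, -1, 1, 1)] := by decide
theorem rel_11_9 (t u : F) : xg 9 u * xg 11 t = xg 11 t * xg 9 u * ((chevD4.commWord F 11 9 t u).map fun p => xg p.1 p.2).prod := by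
  rw [ChevalleyDatum.commWord, ct_11_9]
  simp only [List.map_cons, List.map_nil, List.prod_cons, List.prod_nil]
  apply Units.ext
  simp only [Units.val_mul, xg_val, Units.val_one]
  apply mat_ext_mulVec
  intro v
  simp only [← Matrix.mulVec_mulVec, Matrix.one_mulVec, xm_mulVec_8, xm_mulVec_9, xm_mulVec_11]
  funext i; fin_cases i <;> simp <;> ring
theorem ct_11_10 : chevD4.commTerms 11 10 = [] := by decide
theorem rel_11_10 (t u : F) : xg 10 u * xg 11 t = xg 11 t * xg 10 u * ((chevD4.commWord F 11 10 t u).map fun p => xg p.1 p.2).prod := by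
  rw [ChevalleyDatum.commWord, ct_11_10]
  simp only [List.map_cons, List.map_nil, List.prod_cons, List.prod_nil]
  apply Units.ext
  simp only [Units.val_mul, xg_val, Units.val_one]
  apply mat_ext_mulVec
  intro v
  simp only [← Matrix.mulVec_mulVec, Matrix.one_mulVec, xm_mulVec_10, xm_mulVec_11]
  funext i; fin_cases i <;> simp <;> ring
theorem ct_11_13 : chevD4.commTerms 11 13 = [] := by decide
theorem rel_11_13 (t u : F) : xg 13 u * xg 11 t = xg 11 t * xg 13 u * ((chevD4.commWord F 11 13 t u).map fun p => xg p.1 p.2).prod := by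
  rw [ChevalleyDatum.commWord, ct_11_13]
  simp only [List.map_cons, List.map_nil, List.prod_cons, List.prod_nil]
  apply Units.ext
  simp only [Units.val_mul, xg_val, Units.val_one]
  apply mat_ext_mulVec
  intro v
  simp only [← Matrix.mulVec_mulVec, Matrix.one_mulVec, xm_mulVec_11, xm_mulVec_13]
  funext i; fin_cases i <;> simp <;> ring
theorem ct_11_14 : chevD4.commTerms 11 14 = [] := by decide
theorem rel_11_14 (t u : F) : xg 14 u * xg 11 t = xg 11 t * xg 14 u * ((chevD4.commWord F 11 14 t u).map fun p => xg p.1 p.2).prod := by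
  rw [ChevalleyDatum.commWord, ct_11_14]
  simp only [List.map_cons, List.map_nil, List.prod_cons, List.prod_nil]
  apply Units.ext
  simp only [Units.val_mul, xg_val, Units.val_one]
  apply mat_ext_mulVec
  intro v
  simp only [← Matrix.mulVec_mulVec, Matrix.one_mulVec, xm_mulVec_11, xm_mulVec_14]
  funext i; fin_cases i <;> simp <;> ring
theorem ct_11_15 : chevD4.commTerms 11 15 = [(14, 1, 1, 1)] := by decide
theorem rel_11_15 (t u : F) : xg 15 u * xg 11 t = xg 11 t * xg 15 u * ((chevD4.commWord F 11 15 t u).map fun p => xg p.1 p.2).prod := by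
  rw [ChevalleyDatum.commWord, ct_11_15]
  simp only [List.map_cons, List.map_nil, List.prod_cons, List.prod_nil]
  apply Units.ext
  simp only [Units.val_mul, xg_val, Units.val_one]
  apply mat_ext_mulVec
  intro v
  simp only [← Matrix.mulVec_mulVec, Matrix.one_mulVec, xm_mulVec_11, xm_mulVec_14, xm_mulVec_15]
  funext i; fin_cases i <;> simp <;> ring
theorem ct_11_16 : chevD4.commTerms 11 16 = [] := by decide
theorem rel_11_16 (t u : F) : xg 16 u * xg 11 t = xg 11 t * xg 16 u * ((chevD4.commWord F 11 16 t u).map fun p => xg p.1 p.2).prod := by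
  rw [ChevalleyDatum.commWord, ct_11_16]
  simp only [List.map_cons, List.map_nil, List.prod_cons, List.prod_nil]
  apply Units.ext
  simp only [Units.val_mul, xg_val, Units.val_one]
  apply mat_ext_mulVec
  intro v
  simp only [← Matrix.mulVec_mulVec, Matrix.one_mulVec, xm_mulVec_11, xm_mulVec_16]
  funext i; fin_cases i <;> simp <;> ring
theorem ct_11_17 : chevD4.commTerms 11 17 = [(16, 1, 1, 1)] := by decide
theorem rel_11_17 (t u : F) : xg 17 u * xg 11 t = xg 11 t * xg 17 u * ((chevD4.commWord F 11 17 t u).map fun p => xg p.1 p.2).prod := by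
  rw [ChevalleyDatum.commWord, ct_11_17]
  simp only [List.map_cons, List.map_nil, List.prod_cons, List.prod_nil]
  apply Units.ext
  simp only [Units.val_mul, xg_val, Units.val_one]
  apply mat_ext_mulVec
  intro v
  simp only [← Matrix.mulVec_mulVec, Matrix.one_mulVec, xm_mulVec_11, xm_mulVec_16, xm_mulVec_17]
  funext i; fin_cases i <;> simp <;> ring
theorem ct_11_18 : chevD4.commTerms 11 18 = [] := by decide
theorem rel_11_18 (t u : F) : xg 18 u * xg 11 t = xg 11 t * xg 18 u * ((chevD4.commWord F 11 18 t u).map fun p => xg p.1 p.2).prod := by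
  rw [ChevalleyDatum.commWord, ct_11_18]
  simp only [List.map_cons, List.map_nil, List.prod_cons, List.prod_nil]
  apply Units.ext
  simp only [Units.val_mul, xg_val, Units.val_one]
  apply mat_ext_mulVec
  intro v
  simp only [← Matrix.mulVec_mulVec, Matrix.one_mulVec, xm_mulVec_11, xm_mulVec_18]
  funext i; fin_cases i <;> simp <;> ring
theorem ct_11_19 : chevD4.commTerms 11 19 = [] := by decide
theorem rel_11_19 (t u : F) : xg 19 u * xg 11 t = xg 11 t * xg 19 u * ((chevD4.commWord F 11 19 t u).map fun p => xg p.1 p.2).prod := by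
  rw [ChevalleyDatum.commWord, ct_11_19]
  simp only [List.map_cons, List.map_nil, List.prod_cons, List.prod_nil]
  apply Units.ext
  simp only [Units.val_mul, xg_val, Units.val_one]
  apply mat_ext_mulVec
  intro v
  simp only [← Matrix.mulVec_mulVec, Matrix.one_mulVec, xm_mulVec_11, xm_mulVec_19]
  funext i; fin_cases i <;> simp <;> ring
theorem ct_11_20 : chevD4.commTerms 11 20 = [(19, 1, 1, 1)] := by decide
theorem rel_11_20 (t u : F) : xg 20 u * xg 11 t = xg 11 t * xg 20 u * ((chevD4.commWord F 11 20 t u).map fun p => xg p.1 p.2).prod := by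
  rw [ChevalleyDatum.commWord, ct_11_20]
  simp only [List.map_cons, List.map_nil, List.prod_cons, List.prod_nil]
  apply Units.ext
  simp only [Units.val_mul, xg_val, Units.val_one]
  apply mat_ext_mulVec
  intro v
  simp only [← Matrix.mulVec_mulVec, Matrix.one_mulVec, xm_mulVec_11, xm_mulVec_19, xm_mulVec_20]
  funext i; fin_cases i <;> simp <;> ring
theorem ct_11_21 : chevD4.commTerms 11 21 = [] := by decide
theorem rel_11_21 (t u : F) : xg 21 u * xg 11 t = xg 11 t * xg 21 u * ((chevD4.commWord F 11 21 t u).map fun p => xg p.1 p.2).prod := by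
  rw [ChevalleyDatum.commWord, ct_11_21]
  simp only [List.map_cons, List.map_nil, List.prod_cons, List.prod_nil]
  apply Units.ext
  simp only [Units.val_mul, xg_val, Units.val_one]
  apply mat_ext_mulVec
  intro v
  simp only [← Matrix.mulVec_mulVec, Matrix.one_mulVec, xm_mulVec_11, xm_mulVec_21]
  funext i; fin_cases i <;> simp <;> ring
theorem ct_11_22 : chevD4.commTerms 11 22 = [(21, 1, 1, 1)] := by decide
theorem rel_11_22 (t u : F) : xg 22 u * xg 11 t = xg 11 t * xg 22 u * ((chevD4.commWord F 11 22 t u).map fun p => xg p.1 p.2).prod := by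
  rw [ChevalleyDatum.commWord, ct_11_22]
  simp only [List.map_cons, List.map_nil, List.prod_cons, List.prod_nil]
  apply Units.ext
  simp only [Units.val_mul, xg_val, Units.val_one]
  apply mat_ext_mulVec
  intro v
  simp only [← Matrix.mulVec_mulVec, Matrix.one_mulVec, xm_mulVec_11, xm_mulVec_21, xm_mulVec_22]
  funext i; fin_cases i <;> simp <;> ring
theorem ct_11_23 : chevD4.commTerms 11 23 = [] := by decide
theorem rel_11_23 (t u : F) : xg 23 u * xg 11 t = xg 11 t * xg 23 u * ((chevD4.commWord F 11 23 t u).map fun p => xg p.1 p.2).prod := by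
  rw [ChevalleyDatum.commWord, ct_11_23]
  simp only [List.map_cons, List.map_nil, List.prod_cons, List.prod_nil]
  apply Units.ext
  simp only [Units.val_mul, xg_val, Units.val_one]
  apply mat_ext_mulVec
  intro v
  simp only [← Matrix.mulVec_mulVec, Matrix.one_mulVec, xm_mulVec_11, xm_mulVec_23]
  funext i; fin_cases i <;> simp <;> ring

end Cfsg.Agent.Helper17.D4
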