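-- helper17: Steinberg's commutator relations for the explicit root elements of O_8^+ (S1082); machine generated.
import Cfsg.Agent.Helper17.D4Defs

set_option autoImplicit false
set_option linter.unusedSimpArgs false
set_option linter.unnecessarySeqFocus false
open Matrix Cfsg Cfsg.Lie

namespace Cfsg.Agent.Helper17.D4

variable {F : Type*} [Field F]

theorem ct_12_0 : chevD4.commTerms 12 0 = [] := by decide
theorem rel_12_0 (t u : F) : xg 0 u * xg 12 t = xg 12 t * xg 0 u * ((chevD4.commWord F 12 0 t u).map fun p => xg p.1 p.2).prod := by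
  rw [ChevalleyDatum.commWord, ct_12_0]
  simp only [List.map_cons, List.map_nil, List.prod_cons, List.prod_nil]
  apply Units.ext
  simp only [Units.val_mul, xg_val, Units.val_one]
  apply mat_ext_mulVec
  intro v
  simp only [← Matrix.mulVec_mulVec, Matrix.one_mulVec, xm_mulVec_0, xm_mulVec_12]
  funext i; fin_cases i <;> simp <;> ring
theorem ct_12_1 : chevD4.commTerms 12 1 = [(2, -1, 1, 1)] := by decide
theorem rel_12_1 (t u : F) : xg 1 u * xg 12 t = xg 12 t * xg 1 u * ((chevD4.commWord F 12 1 t u).map fun p => xg p.1 p.2).prod := by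
  rw [ChevalleyDatum.commWord, ct_12_1]
  simp only [List.map_cons, List.map_nil, List.prod_cons, List.prod_nil]
  apply Units.ext
  simp only [Units.val_mul, xg_val, Units.val_one]
  apply mat_ext_mulVec
  intro v
  simp only [← Matrix.mulVec_mulVec, Matrix.one_mulVec, xm_mulVec_1, xm_mulVec_2, xm_mulVec_12]
  funext i; fin_cases i <;> simp <;> ring
theorem ct_12_2 : chevD4.commTerms 12 2 = [] := by decide
theorem rel_12_2 (t u : F) : xg 2 u * xg 12 t = xg 12 t * xg 2 u * ((chevD4.commWord F 12 2 t u).map fun p => xg p.1 p.2).prod := by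
  rw [ChevalleyDatum.commWord, ct_12_2]
  simp only [List.map_cons, List.map_nil, List.prod_cons, List.prod_nil]
  apply Units.ext
  simp only [Units.val_mul, xg_val, Units.val_one]
  apply mat_ext_mulVec
  intro v
  simp only [← Matrix.mulVec_mulVec, Matrix.one_mulVec, xm_mulVec_2, xm_mulVec_12]
  funext i; fin_cases i <;> simp <;> ring
theorem ct_12_3 : chevD4.commTerms 12 3 = [(4, -1, 1, 1)] := by decide
theorem rel_12_3 (t u : F) : xg 3 u * xg 12 t = xg 12 t * xg 3 u * ((chevD4.commWord F 12 3 t u).map fun p => xg p.1 p.2).prod := by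
  rw [ChevalleyDatum.commWord, ct_12_3]
  simp only [List.map_cons, List.map_nil, List.prod_cons, List.prod_nil]
  apply Units.ext
  simp only [Units.val_mul, xg_val, Units.val_one]
  apply mat_ext_mulVec
  intro v
  simp only [← Matrix.mulVec_mulVec, Matrix.one_mulVec, xm_mulVec_3, xm_mulVec_4, xm_mulVec_12]
  funext i; fin_cases i <;> simp <;> ring
theorem ct_12_4 : chevD4.commTerms 12 4 = [] := by decide
theorem rel_12_4 (t u : F) : xg 4 u * xg 12 t = xg 12 t * xg 4 u * ((chevD4.commWord F 12 4 t u).map fun p => xg p.1 p.2).prod := by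
  rw [ChevalleyDatum.commWord, ct_12_4]
  simp only [List.map_cons, List.map_nil, List.prod_cons, List.prod_nil]
  apply Units.ext
  simp only [Units.val_mul, xg_val, Units.val_one]
  apply mat_ext_mulVec
  intro v
  simp only [← Matrix.mulVec_mulVec, Matrix.one_mulVec, xm_mulVec_4, xm_mulVec_12]
  funext i; fin_cases i <;> simp <;> ring
theorem ct_12_5 : chevD4.commTerms 12 5 = [] := by decide
theorem rel_12_5 (t u : F) : xg 5 u * xg 12 t = xg 12 t * xg 5 u * ((chevD4.commWord F 12 5 t u).map fun p => xg p.1 p.2).prod := by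
  rw [ChevalleyDatum.commWord, ct_12_5]
  simp only [List.map_cons, List.map_nil, List.prod_cons, List.prod_nil]
  apply Units.ext
  simp only [Units.val_mul, xg_val, Units.val_one]
  apply mat_ext_mulVec
  intro v
  simp only [← Matrix.mulVec_mulVec, Matrix.one_mulVec, xm_mulVec_5, xm_mulVec_12]
  funext i; fin_cases i <;> simp <;> ring
theorem ct_12_6 : chevD4.commTerms 12 6 = [(7, -1, 1, 1)] := by decide
theorem rel_12_6 (t u : F) : xg 6 u * xg 12 t = xg 12 t * xg 6 u * ((chevD4.commWord F 12 6 t u).map fun p => xg p.1 p.2).prod := by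
  rw [ChevalleyDatum.commWord, ct_12_6]
  simp only [List.map_cons, List.map_nil, List.prod_cons, List.prod_nil]
  apply Units.ext
  simp only [Units.val_mul, xg_val, Units.val_one]
  apply mat_ext_mulVec
  intro v
  simp only [← Matrix.mulVec_mulVec, Matrix.one_mulVec, xm_mulVec_6, xm_mulVec_7, xm_mulVec_12]
  funext i; fin_cases i <;> simp <;> ring
theorem ct_12_7 : chevD4.commTerms 12 7 = [] := by decide
theorem rel_12_7 (t u : F) : xg 7 u * xg 12 t = xg 12 t * xg 7 u * ((chevD4.commWord F 12 7 t u).map fun p => xg p.1 p.2).prod := by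
  rw [ChevalleyDatum.commWord, ct_12_7]
  simp only [List.map_cons, List.map_nil, List.prod_cons, List.prod_nil]
  apply Units.ext
  simp only [Units.val_mul, xg_val, Units.val_one]
  apply mat_ext_mulVec
  intro v
  simp only [← Matrix.mulVec_mulVec, Matrix.one_mulVec, xm_mulVec_7, xm_mulVec_12]
  funext i; fin_cases i <;> simp <;> ring
theorem ct_12_8 : chevD4.commTerms 12 8 = [(9, -1, 1, 1)] := by decide
theorem rel_12_8 (t u : F) : xg 8 u * xg 12 t = xg 12 t * xg 8 u * ((chevD4.commWord F 12 8 t u).map fun p => xg p.1 p.2).prod := by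
  rw [ChevalleyDatum.commWord, ct_12_8]
  simp only [List.map_cons, List.map_nil, List.prod_cons, List.prod_nil]
  apply Units.ext
  simp only [Units.val_mul, xg_val, Units.val_one]
  apply mat_ext_mulVec
  intro v
  simp only [← Matrix.mulVec_mulVec, Matrix.one_mulVec, xm_mulVec_8, xm_mulVec_9, xm_mulVec_12]
  funext i; fin_cases i <;> simp <;> ring
theorem ct_12_9 : chevD4.commTerms 12 9 = [] := by decide
theorem rel_12_9 (t u : F) : xg 9 u * xg 12 t = xg 12 t * xg 9 u * ((chevD4.commWord F 12 9 t u).map fun p => xg p.1 p.2).prod := by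
  rw [ChevalleyDatum.commWord, ct_12_9]
  simp only [List.map_cons, List.map_nil, List.prod_cons, List.prod_nil]
  apply Units.ext
  simp only [Units.val_mul, xg_val, Units.val_one]
  apply mat_ext_mulVec
  intro v
  simp only [← Matrix.mulVec_mulVec, Matrix.one_mulVec, xm_mulVec_9, xm_mulVec_12]
  funext i; fin_cases i <;> simp <;> ring
theorem ct_12_10 : chevD4.commTerms 12 10 = [] := by decide
theorem rel_12_10 (t u : F) : xg 10 u * xg 12 t = xg 12 t * xg 10 u * ((chevD4.commWord F 12 10 t u).map fun p => xg p.1 p.2).prod := by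
  rw [ChevalleyDatum.commWord, ct_12_10]
  simp only [List.map_cons, List.map_nil, List.prod_cons, List.prod_nil]
  apply Units.ext
  simp only [Units.val_mul, xg_val, Units.val_one]
  apply mat_ext_mulVec
  intro v
  simp only [← Matrix.mulVec_mulVec, Matrix.one_mulVec, xm_mulVec_10, xm_mulVec_12]
  funext i; fin_cases i <;> simp <;> ring
theorem ct_12_13 : chevD4.commTerms 12 13 = [] := by decide
theorem rel_12_13 (t u : F) : xg 13 u * xg 12 t = xg 12 t * xg 13 u * ((chevD4.commWord F 12 13 t u).map fun p => xg p.1 p.2).prod := by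
  rw [ChevalleyDatum.commWord, ct_12_13]
  simp only [List.map_cons, List.map_nil, List.prod_cons, List.prod_nil]
  apply Units.ext
  simp only [Units.val_mul, xg_val, Units.val_one]
  apply mat_ext_mulVec
  intro v
  simp only [← Matrix.mulVec_mulVec, Matrix.one_mulVec, xm_mulVec_12, xm_mulVec_13]
  funext i; fin_cases i <;> simp <;> ring
theorem ct_12_14 : chevD4.commTerms 12 14 = [(15, 1, 1, 1)] := by decide
theorem rel_12_14 (t u : F) : xg 14 u * xg 12 t = xg 12 t * xg 14 u * ((chevD4.commWord F 12 14 t u).map fun p => xg p.1 p.2).prod := by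
  rw [ChevalleyDatum.commWord, ct_12_14]
  simp only [List.map_cons, List.map_nil, List.prod_cons, List.prod_nil]
  apply Units.ext
  simp only [Units.val_mul, xg_val, Units.val_one]
  apply mat_ext_mulVec
  intro v
  simp only [← Matrix.mulVec_mulVec, Matrix.one_mulVec, xm_mulVec_12, xm_mulVec_14, xm_mulVec_15]
  funext i; fin_cases i <;> simp <;> ring
theorem ct_12_15 : chevD4.commTerms 12 15 = [] := by decide
theorem rel_12_15 (t u : F) : xg 15 u * xg 12 t = xg 12 t * xg 15 u * ((chevD4.commWord F 12 15 t u).map fun p => xg p.1 p.2).prod := by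
  rw [ChevalleyDatum.commWord, ct_12_15]
  simp only [List.map_cons, List.map_nil, List.prod_cons, List.prod_nil]
  apply Units.ext
  simp only [Units.val_mul, xg_val, Units.val_one]
  apply mat_ext_mulVec
  intro v
  simp only [← Matrix.mulVec_mulVec, Matrix.one_mulVec, xm_mulVec_12, xm_mulVec_15]
  funext i; fin_cases i <;> simp <;> ring
theorem ct_12_16 : chevD4.commTerms 12 16 = [(17, 1, 1, 1)] := by decide
theorem rel_12_16 (t u : F) : xg 16 u * xg 12 t = xg 12 t * xg 16 u * ((chevD4.commWord F 12 16 t u).map fun p => xg p.1 p.2).prod := by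
  rw [ChevalleyDatum.commWord, ct_12_16]
  simp only [List.map_cons, List.map_nil, List.prod_cons, List.prod_nil]
  apply Units.ext
  simp only [Units.val_mul, xg_val, Units.val_one]
  apply mat_ext_mulVec
  intro v
  simp only [← Matrix.mulVec_mulVec, Matrix.one_mulVec, xm_mulVec_12, xm_mulVec_16, xm_mulVec_17]
  funext i; fin_cases i <;> simp <;> ring
theorem ct_12_17 : chevD4.commTerms 12 17 = [] := by decide
theorem rel_12_17 (t u : F) : xg 17 u * xg 12 t = xg 12 t * xg 17 u * ((chevD4.commWord F 12 17 t u).map fun p => xg p.1 p.2).prod := by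
  rw [ChevalleyDatum.commWord, ct_12_17]
  simp only [List.map_cons, List.map_nil, List.prod_cons, List.prod_nil]
  apply Units.ext
  simp only [Units.val_mul, xg_val, Units.val_one]
  apply mat_ext_mulVec
  intro v
  simp only [← Matrix.mulVec_mulVec, Matrix.one_mulVec, xm_mulVec_12, xm_mulVec_17]
  funext i; fin_cases i <;> simp <;> ring
theorem ct_12_18 : chevD4.commTerms 12 18 = [] := by decide
theorem rel_12_18 (t u : F) : xg 18 u * xg 12 t = xg 12 t * xg 18 u * ((chevD4.commWord F 12 18 t u).map fun p => xg p.1 p.2).prod := by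
  rw [ChevalleyDatum.commWord, ct_12_18]
  simp only [List.map_cons, List.map_nil, List.prod_cons, List.prod_nil]
  apply Units.ext
  simp only [Units.val_mul, xg_val, Units.val_one]
  apply mat_ext_mulVec
  intro v
  simp only [← Matrix.mulVec_mulVec, Matrix.one_mulVec, xm_mulVec_12, xm_mulVec_18]
  funext i; fin_cases i <;> simp <;> ring
theorem ct_12_19 : chevD4.commTerms 12 19 = [(20, 1, 1, 1)] := by decide
theorem rel_12_19 (t u : F) : xg 19 u * xg 12 t = xg 12 t * xg 19 u * ((chevD4.commWord F 12 19 t u).map fun p => xg p.1 p.2).prod := by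
  rw [ChevalleyDatum.commWord, ct_12_19]
  simp only [List.map_cons, List.map_nil, List.prod_cons, List.prod_nil]
  apply Units.ext
  simp only [Units.val_mul, xg_val, Units.val_one]
  apply mat_ext_mulVec
  intro v
  simp only [← Matrix.mulVec_mulVec, Matrix.one_mulVec, xm_mulVec_12, xm_mulVec_19, xm_mulVec_20]
  funext i; fin_cases i <;> simp <;> ring
theorem ct_12_20 : chevD4.commTerms 12 20 = [] := by decide
theorem rel_12_20 (t u : F) : xg 20 u * xg 12 t = xg 12 t * xg 20 u * ((chevD4.commWord F 12 20 t u).map fun p => xg p.1 p.2).prod := by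
  rw [ChevalleyDatum.commWord, ct_12_20]
  simp only [List.map_cons, List.map_nil, List.prod_cons, List.prod_nil]
  apply Units.ext
  simp only [Units.val_mul, xg_val, Units.val_one]
  apply mat_ext_mulVec
  intro v
  simp only [← Matrix.mulVec_mulVec, Matrix.one_mulVec, xm_mulVec_12, xm_mulVec_20]
  funext i; fin_cases i <;> simp <;> ring
theorem ct_12_21 : chevD4.commTerms 12 21 = [(22, 1, 1, 1)] := by decide
theorem rel_12_21 (t u : F) : xg 21 u * xg 12 t = xg 12 t * xg 21 u * ((chevD4.commWord F 12 21 t u).map fun p => xg p.1 p.2).prod := by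
  rw [ChevalleyDatum.commWord, ct_12_21]
  simp only [List.map_cons, List.map_nil, List.prod_cons, List.prod_nil]
  apply Units.ext
  simp only [Units.val_mul, xg_val, Units.val_one]
  apply mat_ext_mulVec
  intro v
  simp only [← Matrix.mulVec_mulVec, Matrix.one_mulVec, xm_mulVec_12, xm_mulVec_21, xm_mulVec_22]
  funext i; fin_cases i <;> simp <;> ring
theorem ct_12_22 : chevD4.commTerms 12 22 = [] := by decide
theorem rel_12_22 (t u : F) : xg 22 u * xg 12 t = xg 12 t * xg 22 u * ((chevD4.commWord F 12 22 t u).map fun p => xg p.1 p.2).prod := by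
  rw [ChevalleyDatum.commWord, ct_12_22]
  simp only [List.map_cons, List.map_nil, List.prod_cons, List.prod_nil]
  apply Units.ext
  simp only [Units.val_mul, xg_val, Units.val_one]
  apply mat_ext_mulVec
  intro v
  simp only [← Matrix.mulVec_mulVec, Matrix.one_mulVec, xm_mulVec_12, xm_mulVec_22]
  funext i; fin_cases i <;> simp <;> ring
theorem ct_12_23 : chevD4.commTerms 12 23 = [] := by decide
theorem rel_12_23 (t u : F) : xg 23 u * xg 12 t = xg 12 t * xg 23 u * ((chevD4.commWord F 12 23 t u).map fun p => xg p.1 p.2).prod := by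
  rw [ChevalleyDatum.commWord, ct_12_23]
  simp only [List.map_cons, List.map_nil, List.prod_cons, List.prod_nil]
  apply Units.ext
  simp only [Units.val_mul, xg_val, Units.val_one]
  apply mat_ext_mulVec
  intro v
  simp only [← Matrix.mulVec_mulVec, Matrix.one_mulVec, xm_mulVec_12, xm_mulVec_23]
  funext i; fin_cases i <;> simp <;> ring
theorem ct_13_0 : chevD4.commTerms 13 0 = [] := by decide
theorem rel_13_0 (t u : F) : xg 0 u * xg 13 t = xg 13 t * xg 0 u * ((chevD4.commWord F 13 0 t u).map fun p => xg p.1 p.2).prod := by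
  rw [ChevalleyDatum.commWord, ct_13_0]
  simp only [List.map_cons, List.map_nil, List.prod_cons, List.prod_nil]
  apply Units.ext
  simp only [Units.val_mul, xg_val, Units.val_one]
  apply mat_ext_mulVec
  intro v
  simp only [← Matrix.mulVec_mulVec, Matrix.one_mulVec, xm_mulVec_0, xm_mulVec_13]
  funext i; fin_cases i <;> simp <;> ring
theorem ct_13_1 : chevD4.commTerms 13 1 = [(3, -1, 1, 1)] := by decide
theorem rel_13_1 (t u : F) : xg 1 u * xg 13 t = xg 13 t * xg 1 u * ((chevD4.commWord F 13 1 t u).map fun p => xg p.1 p.2).prod := by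
  rw [ChevalleyDatum.commWord, ct_13_1]
  simp only [List.map_cons, List.map_nil, List.prod_cons, List.prod_nil]
  apply Units.ext
  simp only [Units.val_mul, xg_val, Units.val_one]
  apply mat_ext_mulVec
  intro v
  simp only [← Matrix.mulVec_mulVec, Matrix.one_mulVec, xm_mulVec_1, xm_mulVec_3, xm_mulVec_13]
  funext i; fin_cases i <;> simp <;> ring
theorem ct_13_2 : chevD4.commTerms 13 2 = [(4, -1, 1, 1)] := by decide
theorem rel_13_2 (t u : F) : xg 2 u * xg 13 t = xg 13 t * xg 2 u * ((chevD4.commWord F 13 2 t u).map fun p => xg p.1 p.2).prod := by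
  rw [ChevalleyDatum.commWord, ct_13_2]
  simp only [List.map_cons, List.map_nil, List.prod_cons, List.prod_nil]
  apply Units.ext
  simp only [Units.val_mul, xg_val, Units.val_one]
  apply mat_ext_mulVec
  intro v
  simp only [← Matrix.mulVec_mulVec, Matrix.one_mulVec, xm_mulVec_2, xm_mulVec_4, xm_mulVec_13]
  funext i; fin_cases i <;> simp <;> ring
theorem ct_13_3 : chevD4.commTerms 13 3 = [] := by decide
theorem rel_13_3 (t u : F) : xg 3 u * xg 13 t = xg 13 t * xg 3 u * ((chevD4.commWord F 13 3 t u).map fun p => xg p.1 p.2).prod := by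
  rw [ChevalleyDatum.commWord, ct_13_3]
  simp only [List.map_cons, List.map_nil, List.prod_cons, List.prod_nil]
  apply Units.ext
  simp only [Units.val_mul, xg_val, Units.val_one]
  apply mat_ext_mulVec
  intro v
  simp only [← Matrix.mulVec_mulVec, Matrix.one_mulVec, xm_mulVec_3, xm_mulVec_13]
  funext i; fin_cases i <;> simp <;> ring
theorem ct_13_4 : chevD4.commTerms 13 4 = [] := by decide
theorem rel_13_4 (t u : F) : xg 4 u * xg 13 t = xg 13 t * xg 4 u * ((chevD4.commWord F 13 4 t u).map fun p => xg p.1 p.2).prod := by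
  rw [ChevalleyDatum.commWord, ct_13_4]
  simp only [List.map_cons, List.map_nil, List.prod_cons, List.prod_nil]
  apply Units.ext
  simp only [Units.val_mul, xg_val, Units.val_one]
  apply mat_ext_mulVec
  intro v
  simp only [← Matrix.mulVec_mulVec, Matrix.one_mulVec, xm_mulVec_4, xm_mulVec_13]
  funext i; fin_cases i <;> simp <;> ring
theorem ct_13_5 : chevD4.commTerms 13 5 = [] := by decide
theorem rel_13_5 (t u : F) : xg 5 u * xg 13 t = xg 13 t * xg 5 u * ((chevD4.commWord F 13 5 t u).map fun p => xg p.1 p.2).prod := by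
  rw [ChevalleyDatum.commWord, ct_13_5]
  simp only [List.map_cons, List.map_nil, List.prod_cons, List.prod_nil]
  apply Units.ext
  simp only [Units.val_mul, xg_val, Units.val_one]
  apply mat_ext_mulVec
  intro v
  simp only [← Matrix.mulVec_mulVec, Matrix.one_mulVec, xm_mulVec_5, xm_mulVec_13]
  funext i; fin_cases i <;> simp <;> ring
theorem ct_13_6 : chevD4.commTerms 13 6 = [(8, -1, 1, 1)] := by decide
theorem rel_13_6 (t u : F) : xg 6 u * xg 13 t = xg 13 t * xg 6 u * ((chevD4.commWord F 13 6 t u).map fun p => xg p.1 p.2).prod := by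
  rw [ChevalleyDatum.commWord, ct_13_6]
  simp only [List.map_cons, List.map_nil, List.prod_cons, List.prod_nil]
  apply Units.ext
  simp only [Units.val_mul, xg_val, Units.val_one]
  apply mat_ext_mulVec
  intro v
  simp only [← Matrix.mulVec_mulVec, Matrix.one_mulVec, xm_mulVec_6, xm_mulVec_8, xm_mulVec_13]
  funext i; fin_cases i <;> simp <;> ring
theorem ct_13_7 : chevD4.commTerms 13 7 = [(9, -1, 1, 1)] := by decide
theorem rel_13_7 (t u : F) : xg 7 u * xg 13 t = xg 13 t * xg 7 u * ((chevD4.commWord F 13 7 t u).map fun p => xg p.1 p.2).prod := by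
  rw [ChevalleyDatum.commWord, ct_13_7]
  simp only [List.map_cons, List.map_nil, List.prod_cons, List.prod_nil]
  apply Units.ext
  simp only [Units.val_mul, xg_val, Units.val_one]
  apply mat_ext_mulVec
  intro v
  simp only [← Matrix.mulVec_mulVec, Matrix.one_mulVec, xm_mulVec_7, xm_mulVec_9, xm_mulVec_13]
  funext i; fin_cases i <;> simp <;> ring
theorem ct_13_8 : chevD4.commTerms 13 8 = [] := by decide
theorem rel_13_8 (t u : F) : xg 8 u * xg 13 t = xg 13 t * xg 8 u * ((chevD4.commWord F 13 8 t u).map fun p => xg p.1 p.2).prod := by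
  rw [ChevalleyDatum.commWord, ct_13_8]
  simp only [List.map_cons, List.map_nil, List.prod_cons, List.prod_nil]
  apply Units.ext
  simp only [Units.val_mul, xg_val, Units.val_one]
  apply mat_ext_mulVec
  intro v
  simp only [← Matrix.mulVec_mulVec, Matrix.one_mulVec, xm_mulVec_8, xm_mulVec_13]
  funext i; fin_cases i <;> simp <;> ring
theorem ct_13_9 : chevD4.commTerms 13 9 = [] := by decide
theorem rel_13_9 (t u : F) : xg 9 u * xg 13 t = xg 13 t * xg 9 u * ((chevD4.commWord F 13 9 t u).map fun p => xg p.1 p.2).prod := by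
  rw [ChevalleyDatum.commWord, ct_13_9]
  simp only [List.map_cons, List.map_nil, List.prod_cons, List.prod_nil]
  apply Units.ext
  simp only [Units.val_mul, xg_val, Units.val_one]
  apply mat_ext_mulVec
  intro v
  simp only [← Matrix.mulVec_mulVec, Matrix.one_mulVec, xm_mulVec_9, xm_mulVec_13]
  funext i; fin_cases i <;> simp <;> ring
theorem ct_13_11 : chevD4.commTerms 13 11 = [] := by decide
theorem rel_13_11 (t u : F) : xg 11 u * xg 13 t = xg 13 t * xg 11 u * ((chevD4.commWord F 13 11 t u).map fun p => xg p.1 p.2).prod := by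
  rw [ChevalleyDatum.commWord, ct_13_11]
  simp only [List.map_cons, List.map_nil, List.prod_cons, List.prod_nil]
  apply Units.ext
  simp only [Units.val_mul, xg_val, Units.val_one]
  apply mat_ext_mulVec
  intro v
  simp only [← Matrix.mulVec_mulVec, Matrix.one_mulVec, xm_mulVec_11, xm_mulVec_13]
  funext i; fin_cases i <;> simp <;> ring
theorem ct_13_12 : chevD4.commTerms 13 12 = [] := by decide
theorem rel_13_12 (t u : F) : xg 12 u * xg 13 t = xg 13 t * xg 12 u * ((chevD4.commWord F 13 12 t u).map fun p => xg p.1 p.2).prod := by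
  rw [ChevalleyDatum.commWord, ct_13_12]
  simp only [List.map_cons, List.map_nil, List.prod_cons, List.prod_nil]
  apply Units.ext
  simp only [Units.val_mul, xg_val, Units.val_one]
  apply mat_ext_mulVec
  intro v
  simp only [← Matrix.mulVec_mulVec, Matrix.one_mulVec, xm_mulVec_12, xm_mulVec_13]
  funext i; fin_cases i <;> simp <;> ring
theorem ct_13_14 : chevD4.commTerms 13 14 = [(16, 1, 1, 1)] := by decide
theorem rel_13_14 (t u : F) : xg 14 u * xg 13 t = xg 13 t * xg 14 u * ((chevD4.commWord F 13 14 t u).map fun p => xg p.1 p.2).prod := by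
  rw [ChevalleyDatum.commWord, ct_13_14]
  simp only [List.map_cons, List.map_nil, List.prod_cons, List.prod_nil]
  apply Units.ext
  simp only [Units.val_mul, xg_val, Units.val_one]
  apply mat_ext_mulVec
  intro v
  simp only [← Matrix.mulVec_mulVec, Matrix.one_mulVec, xm_mulVec_13, xm_mulVec_14, xm_mulVec_16]
  funext i; fin_cases i <;> simp <;> ring
theorem ct_13_15 : chevD4.commTerms 13 15 = [(17, 1, 1, 1)] := by decide
theorem rel_13_15 (t u : F) : xg 15 u * xg 13 t = xg 13 t * xg 15 u * ((chevD4.commWord F 13 15 t u).map fun p => xg p.1 p.2).prod := by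
  rw [ChevalleyDatum.commWord, ct_13_15]
  simp only [List.map_cons, List.map_nil, List.prod_cons, List.prod_nil]
  apply Units.ext
  simp only [Units.val_mul, xg_val, Units.val_one]
  apply mat_ext_mulVec
  intro v
  simp only [← Matrix.mulVec_mulVec, Matrix.one_mulVec, xm_mulVec_13, xm_mulVec_15, xm_mulVec_17]
  funext i; fin_cases i <;> simp <;> ring
theorem ct_13_16 : chevD4.commTerms 13 16 = [] := by decide
theorem rel_13_16 (t u : F) : xg 16 u * xg 13 t = xg 13 t * xg 16 u * ((chevD4.commWord F 13 16 t u).map fun p => xg p.1 p.2).prod := by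
  rw [ChevalleyDatum.commWord, ct_13_16]
  simp only [List.map_cons, List.map_nil, List.prod_cons, List.prod_nil]
  apply Units.ext
  simp only [Units.val_mul, xg_val, Units.val_one]
  apply mat_ext_mulVec
  intro v
  simp only [← Matrix.mulVec_mulVec, Matrix.one_mulVec, xm_mulVec_13, xm_mulVec_16]
  funext i; fin_cases i <;> simp <;> ring
theorem ct_13_17 : chevD4.commTerms 13 17 = [] := by decide
theorem rel_13_17 (t u : F) : xg 17 u * xg 13 t = xg 13 t * xg 17 u * ((chevD4.commWord F 13 17 t u).map fun p => xg p.1 p.2).prod := by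
  rw [ChevalleyDatum.commWord, ct_13_17]
  simp only [List.map_cons, List.map_nil, List.prod_cons, List.prod_nil]
  apply Units.ext
  simp only [Units.val_mul, xg_val, Units.val_one]
  apply mat_ext_mulVec
  intro v
  simp only [← Matrix.mulVec_mulVec, Matrix.one_mulVec, xm_mulVec_13, xm_mulVec_17]
  funext i; fin_cases i <;> simp <;> ring
theorem ct_13_18 : chevD4.commTerms 13 18 = [] := by decide
theorem rel_13_18 (t u : F) : xg 18 u * xg 13 t = xg 13 t * xg 18 u * ((chevD4.commWord F 13 18 t u).map fun p => xg p.1 p.2).prod := by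
  rw [ChevalleyDatum.commWord, ct_13_18]
  simp only [List.map_cons, List.map_nil, List.prod_cons, List.prod_nil]
  apply Units.ext
  simp only [Units.val_mul, xg_val, Units.val_one]
  apply mat_ext_mulVec
  intro v
  simp only [← Matrix.mulVec_mulVec, Matrix.one_mulVec, xm_mulVec_13, xm_mulVec_18]
  funext i; fin_cases i <;> simp <;> ring
theorem ct_13_19 : chevD4.commTerms 13 19 = [(21, 1, 1, 1)] := by decide
theorem rel_13_19 (t u : F) : xg 19 u * xg 13 t = xg 13 t * xg 19 u * ((chevD4.commWord F 13 19 t u).map fun p => xg p.1 p.2).prod := by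
  rw [ChevalleyDatum.commWord, ct_13_19]
  simp only [List.map_cons, List.map_nil, List.prod_cons, List.prod_nil]
  apply Units.ext
  simp only [Units.val_mul, xg_val, Units.val_one]
  apply mat_ext_mulVec
  intro v
  simp only [← Matrix.mulVec_mulVec, Matrix.one_mulVec, xm_mulVec_13, xm_mulVec_19, xm_mulVec_21]
  funext i; fin_cases i <;> simp <;> ring
theorem ct_13_20 : chevD4.commTerms 13 20 = [(22, 1, 1, 1)] := by decide
theorem rel_13_20 (t u : F) : xg 20 u * xg 13 t = xg 13 t * xg 20 u * ((chevD4.commWord F 13 20 t u).map fun p => xg p.1 p.2).prod := by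
  rw [ChevalleyDatum.commWord, ct_13_20]
  simp only [List.map_cons, List.map_nil, List.prod_cons, List.prod_nil]
  apply Units.ext
  simp only [Units.val_mul, xg_val, Units.val_one]
  apply mat_ext_mulVec
  intro v
  simp only [← Matrix.mulVec_mulVec, Matrix.one_mulVec, xm_mulVec_13, xm_mulVec_20, xm_mulVec_22]
  funext i; fin_cases i <;> simp <;> ring
theorem ct_13_21 : chevD4.commTerms 13 21 = [] := by decide
theorem rel_13_21 (t u : F) : xg 21 u * xg 13 t = xg 13 t * xg 21 u * ((chevD4.commWord F 13 21 t u).map fun p => xg p.1 p.2).prod := by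
  rw [ChevalleyDatum.commWord, ct_13_21]
  simp only [List.map_cons, List.map_nil, List.prod_cons, List.prod_nil]
  apply Units.ext
  simp only [Units.val_mul, xg_val, Units.val_one]
  apply mat_ext_mulVec
  intro v
  simp only [← Matrix.mulVec_mulVec, Matrix.one_mulVec, xm_mulVec_13, xm_mulVec_21]
  funext i; fin_cases i <;> simp <;> ring
theorem ct_13_22 : chevD4.commTerms 13 22 = [] := by decide
theorem rel_13_22 (t u : F) : xg 22 u * xg 13 t = xg 13 t * xg 22 u * ((chevD4.commWord F 13 22 t u).map fun p => xg p.1 p.2).prod := by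
  rw [ChevalleyDatum.commWord, ct_13_22]
  simp only [List.map_cons, List.map_nil, List.prod_cons, List.prod_nil]
  apply Units.ext
  simp only [Units.val_mul, xg_val, Units.val_one]
  apply mat_ext_mulVec
  intro v
  simp only [← Matrix.mulVec_mulVec, Matrix.one_mulVec, xm_mulVec_13, xm_mulVec_22]
  funext i; fin_cases i <;> simp <;> ring
theorem ct_13_23 : chevD4.commTerms 13 23 = [] := by decide
theorem rel_13_23 (t u : F) : xg 23 u * xg 13 t = xg 13 t * xg 23 u * ((chevD4.commWord F 13 23 t u).map fun p => xg p.1 p.2).prod := by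
  rw [ChevalleyDatum.commWord, ct_13_23]
  simp only [List.map_cons, List.map_nil, List.prod_cons, List.prod_nil]
  apply Units.ext
  simp only [Units.val_mul, xg_val, Units.val_one]
  apply mat_ext_mulVec
  intro v
  simp only [← Matrix.mulVec_mulVec, Matrix.one_mulVec, xm_mulVec_13, xm_mulVec_23]
  funext i; fin_cases i <;> simp <;> ring
theorem ct_14_0 : chevD4.commTerms 14 0 = [(1, -1, 1, 1)] := by decide
theorem rel_14_0 (t u : F) : xg 0 u * xg 14 t = xg 14 t * xg 0 u * ((chevD4.commWord F 14 0 t u).map fun p => xg p.1 p.2).prod := by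
  rw [ChevalleyDatum.commWord, ct_14_0]
  simp only [List.map_cons, List.map_nil, List.prod_cons, List.prod_nil]
  apply Units.ext
  simp only [Units.val_mul, xg_val, Units.val_one]
  apply mat_ext_mulVec
  intro v
  simp only [← Matrix.mulVec_mulVec, Matrix.one_mulVec, xm_mulVec_0, xm_mulVec_1, xm_mulVec_14]
  funext i; fin_cases i <;> simp <;> ring
theorem ct_14_1 : chevD4.commTerms 14 1 = [] := by decide
theorem rel_14_1 (t u : F) : xg 1 u * xg 14 t = xg 14 t * xg 1 u * ((chevD4.commWord F 14 1 t u).map fun p => xg p.1 p.2).prod := by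
  rw [ChevalleyDatum.commWord, ct_14_1]
  simp only [List.map_cons, List.map_nil, List.prod_cons, List.prod_nil]
  apply Units.ext
  simp only [Units.val_mul, xg_val, Units.val_one]
  apply mat_ext_mulVec
  intro v
  simp only [← Matrix.mulVec_mulVec, Matrix.one_mulVec, xm_mulVec_1, xm_mulVec_14]
  funext i; fin_cases i <;> simp <;> ring
theorem ct_14_2 : chevD4.commTerms 14 2 = [] := by decide
theorem rel_14_2 (t u : F) : xg 2 u * xg 14 t = xg 14 t * xg 2 u * ((chevD4.commWord F 14 2 t u).map fun p => xg p.1 p.2).prod := by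
  rw [ChevalleyDatum.commWord, ct_14_2]
  simp only [List.map_cons, List.map_nil, List.prod_cons, List.prod_nil]
  apply Units.ext
  simp only [Units.val_mul, xg_val, Units.val_one]
  apply mat_ext_mulVec
  intro v
  simp only [← Matrix.mulVec_mulVec, Matrix.one_mulVec, xm_mulVec_2, xm_mulVec_14]
  funext i; fin_cases i <;> simp <;> ring
theorem ct_14_3 : chevD4.commTerms 14 3 = [] := by decide
theorem rel_14_3 (t u : F) : xg 3 u * xg 14 t = xg 14 t * xg 3 u * ((chevD4.commWord F 14 3 t u).map fun p => xg p.1 p.2).prod := by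
  rw [ChevalleyDatum.commWord, ct_14_3]
  simp only [List.map_cons, List.map_nil, List.prod_cons, List.prod_nil]
  apply Units.ext
  simp only [Units.val_mul, xg_val, Units.val_one]
  apply mat_ext_mulVec
  intro v
  simp only [← Matrix.mulVec_mulVec, Matrix.one_mulVec, xm_mulVec_3, xm_mulVec_14]
  funext i; fin_cases i <;> simp <;> ring
theorem ct_14_4 : chevD4.commTerms 14 4 = [(5, -1, 1, 1)] := by decide
theorem rel_14_4 (t u : F) : xg 4 u * xg 14 t = xg 14 t * xg 4 u * ((chevD4.commWord F 14 4 t u).map fun p => xg p.1 p.2).prod := by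
  rw [ChevalleyDatum.commWord, ct_14_4]
  simp only [List.map_cons, List.map_nil, List.prod_cons, List.prod_nil]
  apply Units.ext
  simp only [Units.val_mul, xg_val, Units.val_one]
  apply mat_ext_mulVec
  intro v
  simp only [← Matrix.mulVec_mulVec, Matrix.one_mulVec, xm_mulVec_4, xm_mulVec_5, xm_mulVec_14]
  funext i; fin_cases i <;> simp <;> ring
theorem ct_14_5 : chevD4.commTerms 14 5 = [] := by decide
theorem rel_14_5 (t u : F) : xg 5 u * xg 14 t = xg 14 t * xg 5 u * ((chevD4.commWord F 14 5 t u).map fun p => xg p.1 p.2).prod := by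
  rw [ChevalleyDatum.commWord, ct_14_5]
  simp only [List.map_cons, List.map_nil, List.prod_cons, List.prod_nil]
  apply Units.ext
  simp only [Units.val_mul, xg_val, Units.val_one]
  apply mat_ext_mulVec
  intro v
  simp only [← Matrix.mulVec_mulVec, Matrix.one_mulVec, xm_mulVec_5, xm_mulVec_14]
  funext i; fin_cases i <;> simp <;> ring
theorem ct_14_6 : chevD4.commTerms 14 6 = [] := by decide
theorem rel_14_6 (t u : F) : xg 6 u * xg 14 t = xg 14 t * xg 6 u * ((chevD4.commWord F 14 6 t u).map fun p => xg p.1 p.2).prod := by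
  rw [ChevalleyDatum.commWord, ct_14_6]
  simp only [List.map_cons, List.map_nil, List.prod_cons, List.prod_nil]
  apply Units.ext
  simp only [Units.val_mul, xg_val, Units.val_one]
  apply mat_ext_mulVec
  intro v
  simp only [← Matrix.mulVec_mulVec, Matrix.one_mulVec, xm_mulVec_6, xm_mulVec_14]
  funext i; fin_cases i <;> simp <;> ring
theorem ct_14_7 : chevD4.commTerms 14 7 = [(10, 1, 1, 1)] := by decide
theorem rel_14_7 (t u : F) : xg 7 u * xg 14 t = xg 14 t * xg 7 u * ((chevD4.commWord F 14 7 t u).map fun p => xg p.1 p.2).prod := by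
  rw [ChevalleyDatum.commWord, ct_14_7]
  simp only [List.map_cons, List.map_nil, List.prod_cons, List.prod_nil]
  apply Units.ext
  simp only [Units.val_mul, xg_val, Units.val_one]
  apply mat_ext_mulVec
  intro v
  simp only [← Matrix.mulVec_mulVec, Matrix.one_mulVec, xm_mulVec_7, xm_mulVec_10, xm_mulVec_14]
  funext i; fin_cases i <;> simp <;> ring
theorem ct_14_8 : chevD4.commTerms 14 8 = [(11, 1, 1, 1)] := by decide
theorem rel_14_8 (t u : F) : xg 8 u * xg 14 t = xg 14 t * xg 8 u * ((chevD4.commWord F 14 8 t u).map fun p => xg p.1 p.2).prod := by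
  rw [ChevalleyDatum.commWord, ct_14_8]
  simp only [List.map_cons, List.map_nil, List.prod_cons, List.prod_nil]
  apply Units.ext
  simp only [Units.val_mul, xg_val, Units.val_one]
  apply mat_ext_mulVec
  intro v
  simp only [← Matrix.mulVec_mulVec, Matrix.one_mulVec, xm_mulVec_8, xm_mulVec_11, xm_mulVec_14]
  funext i; fin_cases i <;> simp <;> ring
theorem ct_14_10 : chevD4.commTerms 14 10 = [] := by decide
theorem rel_14_10 (t u : F) : xg 10 u * xg 14 t = xg 14 t * xg 10 u * ((chevD4.commWord F 14 10 t u).map fun p => xg p.1 p.2).prod := by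
  rw [ChevalleyDatum.commWord, ct_14_10]
  simp only [List.map_cons, List.map_nil, List.prod_cons, List.prod_nil]
  apply Units.ext
  simp only [Units.val_mul, xg_val, Units.val_one]
  apply mat_ext_mulVec
  intro v
  simp only [← Matrix.mulVec_mulVec, Matrix.one_mulVec, xm_mulVec_10, xm_mulVec_14]
  funext i; fin_cases i <;> simp <;> ring
theorem ct_14_11 : chevD4.commTerms 14 11 = [] := by decide
theorem rel_14_11 (t u : F) : xg 11 u * xg 14 t = xg 14 t * xg 11 u * ((chevD4.commWord F 14 11 t u).map fun p => xg p.1 p.2).prod := by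
  rw [ChevalleyDatum.commWord, ct_14_11]
  simp only [List.map_cons, List.map_nil, List.prod_cons, List.prod_nil]
  apply Units.ext
  simp only [Units.val_mul, xg_val, Units.val_one]
  apply mat_ext_mulVec
  intro v
  simp only [← Matrix.mulVec_mulVec, Matrix.one_mulVec, xm_mulVec_11, xm_mulVec_14]
  funext i; fin_cases i <;> simp <;> ring
theorem ct_14_12 : chevD4.commTerms 14 12 = [(15, -1, 1, 1)] := by decide
theorem rel_14_12 (t u : F) : xg 12 u * xg 14 t = xg 14 t * xg 12 u * ((chevD4.commWord F 14 12 t u).map fun p => xg p.1 p.2).prod := by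
  rw [ChevalleyDatum.commWord, ct_14_12]
  simp only [List.map_cons, List.map_nil, List.prod_cons, List.prod_nil]
  apply Units.ext
  simp only [Units.val_mul, xg_val, Units.val_one]
  apply mat_ext_mulVec
  intro v
  simp only [← Matrix.mulVec_mulVec, Matrix.one_mulVec, xm_mulVec_12, xm_mulVec_14, xm_mulVec_15]
  funext i; fin_cases i <;> simp <;> ring
theorem ct_14_13 : chevD4.commTerms 14 13 = [(16, -1, 1, 1)] := by decide
theorem rel_14_13 (t u : F) : xg 13 u * xg 14 t = xg 14 t * xg 13 u * ((chevD4.commWord F 14 13 t u).map fun p => xg p.1 p.2).prod := by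
  rw [ChevalleyDatum.commWord, ct_14_13]
  simp only [List.map_cons, List.map_nil, List.prod_cons, List.prod_nil]
  apply Units.ext
  simp only [Units.val_mul, xg_val, Units.val_one]
  apply mat_ext_mulVec
  intro v
  simp only [← Matrix.mulVec_mulVec, Matrix.one_mulVec, xm_mulVec_13, xm_mulVec_14, xm_mulVec_16]
  funext i; fin_cases i <;> simp <;> ring
theorem ct_14_15 : chevD4.commTerms 14 15 = [] := by decide
theorem rel_14_15 (t u : F) : xg 15 u * xg 14 t = xg 14 t * xg 15 u * ((chevD4.commWord F 14 15 t u).map fun p => xg p.1 p.2).prod := by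
  rw [ChevalleyDatum.commWord, ct_14_15]
  simp only [List.map_cons, List.map_nil, List.prod_cons, List.prod_nil]
  apply Units.ext
  simp only [Units.val_mul, xg_val, Units.val_one]
  apply mat_ext_mulVec
  intro v
  simp only [← Matrix.mulVec_mulVec, Matrix.one_mulVec, xm_mulVec_14, xm_mulVec_15]
  funext i; fin_cases i <;> simp <;> ring
theorem ct_14_16 : chevD4.commTerms 14 16 = [] := by decide
theorem rel_14_16 (t u : F) : xg 16 u * xg 14 t = xg 14 t * xg 16 u * ((chevD4.commWord F 14 16 t u).map fun p => xg p.1 p.2).prod := by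
  rw [ChevalleyDatum.commWord, ct_14_16]
  simp only [List.map_cons, List.map_nil, List.prod_cons, List.prod_nil]
  apply Units.ext
  simp only [Units.val_mul, xg_val, Units.val_one]
  apply mat_ext_mulVec
  intro v
  simp only [← Matrix.mulVec_mulVec, Matrix.one_mulVec, xm_mulVec_14, xm_mulVec_16]
  funext i; fin_cases i <;> simp <;> ring
theorem ct_14_17 : chevD4.commTerms 14 17 = [] := by decide
theorem rel_14_17 (t u : F) : xg 17 u * xg 14 t = xg 14 t * xg 17 u * ((chevD4.commWord F 14 17 t u).map fun p => xg p.1 p.2).prod := by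
  rw [ChevalleyDatum.commWord, ct_14_17]
  simp only [List.map_cons, List.map_nil, List.prod_cons, List.prod_nil]
  apply Units.ext
  simp only [Units.val_mul, xg_val, Units.val_one]
  apply mat_ext_mulVec
  intro v
  simp only [← Matrix.mulVec_mulVec, Matrix.one_mulVec, xm_mulVec_14, xm_mulVec_17]
  funext i; fin_cases i <;> simp <;> ring
theorem ct_14_18 : chevD4.commTerms 14 18 = [(19, 1, 1, 1)] := by decide
theorem rel_14_18 (t u : F) : xg 18 u * xg 14 t = xg 14 t * xg 18 u * ((chevD4.commWord F 14 18 t u).map fun p => xg p.1 p.2).prod := by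
  rw [ChevalleyDatum.commWord, ct_14_18]
  simp only [List.map_cons, List.map_nil, List.prod_cons, List.prod_nil]
  apply Units.ext
  simp only [Units.val_mul, xg_val, Units.val_one]
  apply mat_ext_mulVec
  intro v
  simp only [← Matrix.mulVec_mulVec, Matrix.one_mulVec, xm_mulVec_14, xm_mulVec_18, xm_mulVec_19]
  funext i; fin_cases i <;> simp <;> ring
theorem ct_14_19 : chevD4.commTerms 14 19 = [] := by decide
theorem rel_14_19 (t u : F) : xg 19 u * xg 14 t = xg 14 t * xg 19 u * ((chevD4.commWord F 14 19 t u).map fun p => xg p.1 p.2).prod := by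
  rw [ChevalleyDatum.commWord, ct_14_19]
  simp only [List.map_cons, List.map_nil, List.prod_cons, List.prod_nil]
  apply Units.ext
  simp only [Units.val_mul, xg_val, Units.val_one]
  apply mat_ext_mulVec
  intro v
  simp only [← Matrix.mulVec_mulVec, Matrix.one_mulVec, xm_mulVec_14, xm_mulVec_19]
  funext i; fin_cases i <;> simp <;> ring
theorem ct_14_20 : chevD4.commTerms 14 20 = [] := by decide
theorem rel_14_20 (t u : F) : xg 20 u * xg 14 t = xg 14 t * xg 20 u * ((chevD4.commWord F 14 20 t u).map fun p => xg p.1 p.2).prod := by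
  rw [ChevalleyDatum.commWord, ct_14_20]
  simp only [List.map_cons, List.map_nil, List.prod_cons, List.prod_nil]
  apply Units.ext
  simp only [Units.val_mul, xg_val, Units.val_one]
  apply mat_ext_mulVec
  intro v
  simp only [← Matrix.mulVec_mulVec, Matrix.one_mulVec, xm_mulVec_14, xm_mulVec_20]
  funext i; fin_cases i <;> simp <;> ring
theorem ct_14_21 : chevD4.commTerms 14 21 = [] := by decide
theorem rel_14_21 (t u : F) : xg 21 u * xg 14 t = xg 14 t * xg 21 u * ((chevD4.commWord F 14 21 t u).map fun p => xg p.1 p.2).prod := by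
  rw [ChevalleyDatum.commWord, ct_14_21]
  simp only [List.map_cons, List.map_nil, List.prod_cons, List.prod_nil]
  apply Units.ext
  simp only [Units.val_mul, xg_val, Units.val_one]
  apply mat_ext_mulVec
  intro v
  simp only [← Matrix.mulVec_mulVec, Matrix.one_mulVec, xm_mulVec_14, xm_mulVec_21]
  funext i; fin_cases i <;> simp <;> ring
theorem ct_14_22 : chevD4.commTerms 14 22 = [(23, 1, 1, 1)] := by decide
theorem rel_14_22 (t u : F) : xg 22 u * xg 14 t = xg 14 t * xg 22 u * ((chevD4.commWord F 14 22 t u).map fun p => xg p.1 p.2).prod := by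
  rw [ChevalleyDatum.commWord, ct_14_22]
  simp only [List.map_cons, List.map_nil, List.prod_cons, List.prod_nil]
  apply Units.ext
  simp only [Units.val_mul, xg_val, Units.val_one]
  apply mat_ext_mulVec
  intro v
  simp only [← Matrix.mulVec_mulVec, Matrix.one_mulVec, xm_mulVec_14, xm_mulVec_22, xm_mulVec_23]
  funext i; fin_cases i <;> simp <;> ring
theorem ct_14_23 : chevD4.commTerms 14 23 = [] := by decide
theorem rel_14_23 (t u : F) : xg 23 u * xg 14 t = xg 14 t * xg 23 u * ((chevD4.commWord F 14 23 t u).map fun p => xg p.1 p.2).prod := by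
  rw [ChevalleyDatum.commWord, ct_14_23]
  simp only [List.map_cons, List.map_nil, List.prod_cons, List.prod_nil]
  apply Units.ext
  simp only [Units.val_mul, xg_val, Units.val_one]
  apply mat_ext_mulVec
  intro v
  simp only [← Matrix.mulVec_mulVec, Matrix.one_mulVec, xm_mulVec_14, xm_mulVec_23]
  funext i; fin_cases i <;> simp <;> ring

end Cfsg.Agent.Helper17.D4
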