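-- helper17: Steinberg's commutator relations for the explicit root elements of O_8^+ (S1082); machine generated.
import Cfsg.Agent.Helper17.D4Defs

set_option autoImplicit false
set_option linter.unusedSimpArgs false
set_option linter.unnecessarySeqFocus false
open Matrix Cfsg Cfsg.Lie

namespace Cfsg.Agent.Helper17.D4

variable {F : Type*} [Field F]

theorem ct_15_0 : chevD4.commTerms 15 0 = [(2, 1, 1, 1)] := by decide
theorem rel_15_0 (t u : F) : xg 0 u * xg 15 t = xg 15 t * xg 0 u * ((chevD4.commWord F 15 0 t u).map fun p => xg p.1 p.2).prod := by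
  rw [ChevalleyDatum.commWord, ct_15_0]
  simp only [List.map_cons, List.map_nil, List.prod_cons, List.prod_nil]
  apply Units.ext
  simp only [Units.val_mul, xg_val, Units.val_one]
  apply mat_ext_mulVec
  intro v
  simp only [← Matrix.mulVec_mulVec, Matrix.one_mulVec, xm_mulVec_0, xm_mulVec_2, xm_mulVec_15]
  funext i; fin_cases i <;> simp <;> ring
theorem ct_15_1 : chevD4.commTerms 15 1 = [] := by decide
theorem rel_15_1 (t u : F) : xg 1 u * xg 15 t = xg 15 t * xg 1 u * ((chevD4.commWord F 15 1 t u).map fun p => xg p.1 p.2).prod := by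
  rw [ChevalleyDatum.commWord, ct_15_1]
  simp only [List.map_cons, List.map_nil, List.prod_cons, List.prod_nil]
  apply Units.ext
  simp only [Units.val_mul, xg_val, Units.val_one]
  apply mat_ext_mulVec
  intro v
  simp only [← Matrix.mulVec_mulVec, Matrix.one_mulVec, xm_mulVec_1, xm_mulVec_15]
  funext i; fin_cases i <;> simp <;> ring
theorem ct_15_2 : chevD4.commTerms 15 2 = [] := by decide
theorem rel_15_2 (t u : F) : xg 2 u * xg 15 t = xg 15 t * xg 2 u * ((chevD4.commWord F 15 2 t u).map fun p => xg p.1 p.2).prod := by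
  rw [ChevalleyDatum.commWord, ct_15_2]
  simp only [List.map_cons, List.map_nil, List.prod_cons, List.prod_nil]
  apply Units.ext
  simp only [Units.val_mul, xg_val, Units.val_one]
  apply mat_ext_mulVec
  intro v
  simp only [← Matrix.mulVec_mulVec, Matrix.one_mulVec, xm_mulVec_2, xm_mulVec_15]
  funext i; fin_cases i <;> simp <;> ring
theorem ct_15_3 : chevD4.commTerms 15 3 = [(5, -1, 1, 1)] := by decide
theorem rel_15_3 (t u : F) : xg 3 u * xg 15 t = xg 15 t * xg 3 u * ((chevD4.commWord F 15 3 t u).map fun p => xg p.1 p.2).prod := by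
  rw [ChevalleyDatum.commWord, ct_15_3]
  simp only [List.map_cons, List.map_nil, List.prod_cons, List.prod_nil]
  apply Units.ext
  simp only [Units.val_mul, xg_val, Units.val_one]
  apply mat_ext_mulVec
  intro v
  simp only [← Matrix.mulVec_mulVec, Matrix.one_mulVec, xm_mulVec_3, xm_mulVec_5, xm_mulVec_15]
  funext i; fin_cases i <;> simp <;> ring
theorem ct_15_4 : chevD4.commTerms 15 4 = [] := by decide
theorem rel_15_4 (t u : F) : xg 4 u * xg 15 t = xg 15 t * xg 4 u * ((chevD4.commWord F 15 4 t u).map fun p => xg p.1 p.2).prod := by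
  rw [ChevalleyDatum.commWord, ct_15_4]
  simp only [List.map_cons, List.map_nil, List.prod_cons, List.prod_nil]
  apply Units.ext
  simp only [Units.val_mul, xg_val, Units.val_one]
  apply mat_ext_mulVec
  intro v
  simp only [← Matrix.mulVec_mulVec, Matrix.one_mulVec, xm_mulVec_4, xm_mulVec_15]
  funext i; fin_cases i <;> simp <;> ring
theorem ct_15_5 : chevD4.commTerms 15 5 = [] := by decide
theorem rel_15_5 (t u : F) : xg 5 u * xg 15 t = xg 15 t * xg 5 u * ((chevD4.commWord F 15 5 t u).map fun p => xg p.1 p.2).prod := by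
  rw [ChevalleyDatum.commWord, ct_15_5]
  simp only [List.map_cons, List.map_nil, List.prod_cons, List.prod_nil]
  apply Units.ext
  simp only [Units.val_mul, xg_val, Units.val_one]
  apply mat_ext_mulVec
  intro v
  simp only [← Matrix.mulVec_mulVec, Matrix.one_mulVec, xm_mulVec_5, xm_mulVec_15]
  funext i; fin_cases i <;> simp <;> ring
theorem ct_15_6 : chevD4.commTerms 15 6 = [(10, 1, 1, 1)] := by decide
theorem rel_15_6 (t u : F) : xg 6 u * xg 15 t = xg 15 t * xg 6 u * ((chevD4.commWord F 15 6 t u).map fun p => xg p.1 p.2).prod := by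
  rw [ChevalleyDatum.commWord, ct_15_6]
  simp only [List.map_cons, List.map_nil, List.prod_cons, List.prod_nil]
  apply Units.ext
  simp only [Units.val_mul, xg_val, Units.val_one]
  apply mat_ext_mulVec
  intro v
  simp only [← Matrix.mulVec_mulVec, Matrix.one_mulVec, xm_mulVec_6, xm_mulVec_10, xm_mulVec_15]
  funext i; fin_cases i <;> simp <;> ring
theorem ct_15_7 : chevD4.commTerms 15 7 = [] := by decide
theorem rel_15_7 (t u : F) : xg 7 u * xg 15 t = xg 15 t * xg 7 u * ((chevD4.commWord F 15 7 t u).map fun p => xg p.1 p.2).prod := by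
  rw [ChevalleyDatum.commWord, ct_15_7]
  simp only [List.map_cons, List.map_nil, List.prod_cons, List.prod_nil]
  apply Units.ext
  simp only [Units.val_mul, xg_val, Units.val_one]
  apply mat_ext_mulVec
  intro v
  simp only [← Matrix.mulVec_mulVec, Matrix.one_mulVec, xm_mulVec_7, xm_mulVec_15]
  funext i; fin_cases i <;> simp <;> ring
theorem ct_15_9 : chevD4.commTerms 15 9 = [(12, 1, 1, 1)] := by decide
theorem rel_15_9 (t u : F) : xg 9 u * xg 15 t = xg 15 t * xg 9 u * ((chevD4.commWord F 15 9 t u).map fun p => xg p.1 p.2).prod := by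
  rw [ChevalleyDatum.commWord, ct_15_9]
  simp only [List.map_cons, List.map_nil, List.prod_cons, List.prod_nil]
  apply Units.ext
  simp only [Units.val_mul, xg_val, Units.val_one]
  apply mat_ext_mulVec
  intro v
  simp only [← Matrix.mulVec_mulVec, Matrix.one_mulVec, xm_mulVec_9, xm_mulVec_12, xm_mulVec_15]
  funext i; fin_cases i <;> simp <;> ring
theorem ct_15_10 : chevD4.commTerms 15 10 = [] := by decide
theorem rel_15_10 (t u : F) : xg 10 u * xg 15 t = xg 15 t * xg 10 u * ((chevD4.commWord F 15 10 t u).map fun p => xg p.1 p.2).prod := by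
  rw [ChevalleyDatum.commWord, ct_15_10]
  simp only [List.map_cons, List.map_nil, List.prod_cons, List.prod_nil]
  apply Units.ext
  simp only [Units.val_mul, xg_val, Units.val_one]
  apply mat_ext_mulVec
  intro v
  simp only [← Matrix.mulVec_mulVec, Matrix.one_mulVec, xm_mulVec_10, xm_mulVec_15]
  funext i; fin_cases i <;> simp <;> ring
theorem ct_15_11 : chevD4.commTerms 15 11 = [(14, -1, 1, 1)] := by decide
theorem rel_15_11 (t u : F) : xg 11 u * xg 15 t = xg 15 t * xg 11 u * ((chevD4.commWord F 15 11 t u).map fun p => xg p.1 p.2).prod := by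
  rw [ChevalleyDatum.commWord, ct_15_11]
  simp only [List.map_cons, List.map_nil, List.prod_cons, List.prod_nil]
  apply Units.ext
  simp only [Units.val_mul, xg_val, Units.val_one]
  apply mat_ext_mulVec
  intro v
  simp only [← Matrix.mulVec_mulVec, Matrix.one_mulVec, xm_mulVec_11, xm_mulVec_14, xm_mulVec_15]
  funext i; fin_cases i <;> simp <;> ring
theorem ct_15_12 : chevD4.commTerms 15 12 = [] := by decide
theorem rel_15_12 (t u : F) : xg 12 u * xg 15 t = xg 15 t * xg 12 u * ((chevD4.commWord F 15 12 t u).map fun p => xg p.1 p.2).prod := by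
  rw [ChevalleyDatum.commWord, ct_15_12]
  simp only [List.map_cons, List.map_nil, List.prod_cons, List.prod_nil]
  apply Units.ext
  simp only [Units.val_mul, xg_val, Units.val_one]
  apply mat_ext_mulVec
  intro v
  simp only [← Matrix.mulVec_mulVec, Matrix.one_mulVec, xm_mulVec_12, xm_mulVec_15]
  funext i; fin_cases i <;> simp <;> ring
theorem ct_15_13 : chevD4.commTerms 15 13 = [(17, -1, 1, 1)] := by decide
theorem rel_15_13 (t u : F) : xg 13 u * xg 15 t = xg 15 t * xg 13 u * ((chevD4.commWord F 15 13 t u).map fun p => xg p.1 p.2).prod := by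
  rw [ChevalleyDatum.commWord, ct_15_13]
  simp only [List.map_cons, List.map_nil, List.prod_cons, List.prod_nil]
  apply Units.ext
  simp only [Units.val_mul, xg_val, Units.val_one]
  apply mat_ext_mulVec
  intro v
  simp only [← Matrix.mulVec_mulVec, Matrix.one_mulVec, xm_mulVec_13, xm_mulVec_15, xm_mulVec_17]
  funext i; fin_cases i <;> simp <;> ring
theorem ct_15_14 : chevD4.commTerms 15 14 = [] := by decide
theorem rel_15_14 (t u : F) : xg 14 u * xg 15 t = xg 15 t * xg 14 u * ((chevD4.commWord F 15 14 t u).map fun p => xg p.1 p.2).prod := by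
  rw [ChevalleyDatum.commWord, ct_15_14]
  simp only [List.map_cons, List.map_nil, List.prod_cons, List.prod_nil]
  apply Units.ext
  simp only [Units.val_mul, xg_val, Units.val_one]
  apply mat_ext_mulVec
  intro v
  simp only [← Matrix.mulVec_mulVec, Matrix.one_mulVec, xm_mulVec_14, xm_mulVec_15]
  funext i; fin_cases i <;> simp <;> ring
theorem ct_15_16 : chevD4.commTerms 15 16 = [] := by decide
theorem rel_15_16 (t u : F) : xg 16 u * xg 15 t = xg 15 t * xg 16 u * ((chevD4.commWord F 15 16 t u).map fun p => xg p.1 p.2).prod := by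
  rw [ChevalleyDatum.commWord, ct_15_16]
  simp only [List.map_cons, List.map_nil, List.prod_cons, List.prod_nil]
  apply Units.ext
  simp only [Units.val_mul, xg_val, Units.val_one]
  apply mat_ext_mulVec
  intro v
  simp only [← Matrix.mulVec_mulVec, Matrix.one_mulVec, xm_mulVec_15, xm_mulVec_16]
  funext i; fin_cases i <;> simp <;> ring
theorem ct_15_17 : chevD4.commTerms 15 17 = [] := by decide
theorem rel_15_17 (t u : F) : xg 17 u * xg 15 t = xg 15 t * xg 17 u * ((chevD4.commWord F 15 17 t u).map fun p => xg p.1 p.2).prod := by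
  rw [ChevalleyDatum.commWord, ct_15_17]
  simp only [List.map_cons, List.map_nil, List.prod_cons, List.prod_nil]
  apply Units.ext
  simp only [Units.val_mul, xg_val, Units.val_one]
  apply mat_ext_mulVec
  intro v
  simp only [← Matrix.mulVec_mulVec, Matrix.one_mulVec, xm_mulVec_15, xm_mulVec_17]
  funext i; fin_cases i <;> simp <;> ring
theorem ct_15_18 : chevD4.commTerms 15 18 = [(20, 1, 1, 1)] := by decide
theorem rel_15_18 (t u : F) : xg 18 u * xg 15 t = xg 15 t * xg 18 u * ((chevD4.commWord F 15 18 t u).map fun p => xg p.1 p.2).prod := by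
  rw [ChevalleyDatum.commWord, ct_15_18]
  simp only [List.map_cons, List.map_nil, List.prod_cons, List.prod_nil]
  apply Units.ext
  simp only [Units.val_mul, xg_val, Units.val_one]
  apply mat_ext_mulVec
  intro v
  simp only [← Matrix.mulVec_mulVec, Matrix.one_mulVec, xm_mulVec_15, xm_mulVec_18, xm_mulVec_20]
  funext i; fin_cases i <;> simp <;> ring
theorem ct_15_19 : chevD4.commTerms 15 19 = [] := by decide
theorem rel_15_19 (t u : F) : xg 19 u * xg 15 t = xg 15 t * xg 19 u * ((chevD4.commWord F 15 19 t u).map fun p => xg p.1 p.2).prod := by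
  rw [ChevalleyDatum.commWord, ct_15_19]
  simp only [List.map_cons, List.map_nil, List.prod_cons, List.prod_nil]
  apply Units.ext
  simp only [Units.val_mul, xg_val, Units.val_one]
  apply mat_ext_mulVec
  intro v
  simp only [← Matrix.mulVec_mulVec, Matrix.one_mulVec, xm_mulVec_15, xm_mulVec_19]
  funext i; fin_cases i <;> simp <;> ring
theorem ct_15_20 : chevD4.commTerms 15 20 = [] := by decide
theorem rel_15_20 (t u : F) : xg 20 u * xg 15 t = xg 15 t * xg 20 u * ((chevD4.commWord F 15 20 t u).map fun p => xg p.1 p.2).prod := by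
  rw [ChevalleyDatum.commWord, ct_15_20]
  simp only [List.map_cons, List.map_nil, List.prod_cons, List.prod_nil]
  apply Units.ext
  simp only [Units.val_mul, xg_val, Units.val_one]
  apply mat_ext_mulVec
  intro v
  simp only [← Matrix.mulVec_mulVec, Matrix.one_mulVec, xm_mulVec_15, xm_mulVec_20]
  funext i; fin_cases i <;> simp <;> ring
theorem ct_15_21 : chevD4.commTerms 15 21 = [(23, -1, 1, 1)] := by decide
theorem rel_15_21 (t u : F) : xg 21 u * xg 15 t = xg 15 t * xg 21 u * ((chevD4.commWord F 15 21 t u).map fun p => xg p.1 p.2).prod := by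
  rw [ChevalleyDatum.commWord, ct_15_21]
  simp only [List.map_cons, List.map_nil, List.prod_cons, List.prod_nil]
  apply Units.ext
  simp only [Units.val_mul, xg_val, Units.val_one]
  apply mat_ext_mulVec
  intro v
  simp only [← Matrix.mulVec_mulVec, Matrix.one_mulVec, xm_mulVec_15, xm_mulVec_21, xm_mulVec_23]
  funext i; fin_cases i <;> simp <;> ring
theorem ct_15_22 : chevD4.commTerms 15 22 = [] := by decide
theorem rel_15_22 (t u : F) : xg 22 u * xg 15 t = xg 15 t * xg 22 u * ((chevD4.commWord F 15 22 t u).map fun p => xg p.1 p.2).prod := by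
  rw [ChevalleyDatum.commWord, ct_15_22]
  simp only [List.map_cons, List.map_nil, List.prod_cons, List.prod_nil]
  apply Units.ext
  simp only [Units.val_mul, xg_val, Units.val_one]
  apply mat_ext_mulVec
  intro v
  simp only [← Matrix.mulVec_mulVec, Matrix.one_mulVec, xm_mulVec_15, xm_mulVec_22]
  funext i; fin_cases i <;> simp <;> ring
theorem ct_15_23 : chevD4.commTerms 15 23 = [] := by decide
theorem rel_15_23 (t u : F) : xg 23 u * xg 15 t = xg 15 t * xg 23 u * ((chevD4.commWord F 15 23 t u).map fun p => xg p.1 p.2).prod := by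
  rw [ChevalleyDatum.commWord, ct_15_23]
  simp only [List.map_cons, List.map_nil, List.prod_cons, List.prod_nil]
  apply Units.ext
  simp only [Units.val_mul, xg_val, Units.val_one]
  apply mat_ext_mulVec
  intro v
  simp only [← Matrix.mulVec_mulVec, Matrix.one_mulVec, xm_mulVec_15, xm_mulVec_23]
  funext i; fin_cases i <;> simp <;> ring
theorem ct_16_0 : chevD4.commTerms 16 0 = [(3, 1, 1, 1)] := by decide
theorem rel_16_0 (t u : F) : xg 0 u * xg 16 t = xg 16 t * xg 0 u * ((chevD4.commWord F 16 0 t u).map fun p => xg p.1 p.2).prod := by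
  rw [ChevalleyDatum.commWord, ct_16_0]
  simp only [List.map_cons, List.map_nil, List.prod_cons, List.prod_nil]
  apply Units.ext
  simp only [Units.val_mul, xg_val, Units.val_one]
  apply mat_ext_mulVec
  intro v
  simp only [← Matrix.mulVec_mulVec, Matrix.one_mulVec, xm_mulVec_0, xm_mulVec_3, xm_mulVec_16]
  funext i; fin_cases i <;> simp <;> ring
theorem ct_16_1 : chevD4.commTerms 16 1 = [] := by decide
theorem rel_16_1 (t u : F) : xg 1 u * xg 16 t = xg 16 t * xg 1 u * ((chevD4.commWord F 16 1 t u).map fun p => xg p.1 p.2).prod := by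
  rw [ChevalleyDatum.commWord, ct_16_1]
  simp only [List.map_cons, List.map_nil, List.prod_cons, List.prod_nil]
  apply Units.ext
  simp only [Units.val_mul, xg_val, Units.val_one]
  apply mat_ext_mulVec
  intro v
  simp only [← Matrix.mulVec_mulVec, Matrix.one_mulVec, xm_mulVec_1, xm_mulVec_16]
  funext i; fin_cases i <;> simp <;> ring
theorem ct_16_2 : chevD4.commTerms 16 2 = [(5, -1, 1, 1)] := by decide
theorem rel_16_2 (t u : F) : xg 2 u * xg 16 t = xg 16 t * xg 2 u * ((chevD4.commWord F 16 2 t u).map fun p => xg p.1 p.2).prod := by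
  rw [ChevalleyDatum.commWord, ct_16_2]
  simp only [List.map_cons, List.map_nil, List.prod_cons, List.prod_nil]
  apply Units.ext
  simp only [Units.val_mul, xg_val, Units.val_one]
  apply mat_ext_mulVec
  intro v
  simp only [← Matrix.mulVec_mulVec, Matrix.one_mulVec, xm_mulVec_2, xm_mulVec_5, xm_mulVec_16]
  funext i; fin_cases i <;> simp <;> ring
theorem ct_16_3 : chevD4.commTerms 16 3 = [] := by decide
theorem rel_16_3 (t u : F) : xg 3 u * xg 16 t = xg 16 t * xg 3 u * ((chevD4.commWord F 16 3 t u).map fun p => xg p.1 p.2).prod := by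
  rw [ChevalleyDatum.commWord, ct_16_3]
  simp only [List.map_cons, List.map_nil, List.prod_cons, List.prod_nil]
  apply Units.ext
  simp only [Units.val_mul, xg_val, Units.val_one]
  apply mat_ext_mulVec
  intro v
  simp only [← Matrix.mulVec_mulVec, Matrix.one_mulVec, xm_mulVec_3, xm_mulVec_16]
  funext i; fin_cases i <;> simp <;> ring
theorem ct_16_4 : chevD4.commTerms 16 4 = [] := by decide
theorem rel_16_4 (t u : F) : xg 4 u * xg 16 t = xg 16 t * xg 4 u * ((chevD4.commWord F 16 4 t u).map fun p => xg p.1 p.2).prod := by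
  rw [ChevalleyDatum.commWord, ct_16_4]
  simp only [List.map_cons, List.map_nil, List.prod_cons, List.prod_nil]
  apply Units.ext
  simp only [Units.val_mul, xg_val, Units.val_one]
  apply mat_ext_mulVec
  intro v
  simp only [← Matrix.mulVec_mulVec, Matrix.one_mulVec, xm_mulVec_4, xm_mulVec_16]
  funext i; fin_cases i <;> simp <;> ring
theorem ct_16_5 : chevD4.commTerms 16 5 = [] := by decide
theorem rel_16_5 (t u : F) : xg 5 u * xg 16 t = xg 16 t * xg 5 u * ((chevD4.commWord F 16 5 t u).map fun p => xg p.1 p.2).prod := by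
  rw [ChevalleyDatum.commWord, ct_16_5]
  simp only [List.map_cons, List.map_nil, List.prod_cons, List.prod_nil]
  apply Units.ext
  simp only [Units.val_mul, xg_val, Units.val_one]
  apply mat_ext_mulVec
  intro v
  simp only [← Matrix.mulVec_mulVec, Matrix.one_mulVec, xm_mulVec_5, xm_mulVec_16]
  funext i; fin_cases i <;> simp <;> ring
theorem ct_16_6 : chevD4.commTerms 16 6 = [(11, 1, 1, 1)] := by decide
theorem rel_16_6 (t u : F) : xg 6 u * xg 16 t = xg 16 t * xg 6 u * ((chevD4.commWord F 16 6 t u).map fun p => xg p.1 p.2).prod := by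
  rw [ChevalleyDatum.commWord, ct_16_6]
  simp only [List.map_cons, List.map_nil, List.prod_cons, List.prod_nil]
  apply Units.ext
  simp only [Units.val_mul, xg_val, Units.val_one]
  apply mat_ext_mulVec
  intro v
  simp only [← Matrix.mulVec_mulVec, Matrix.one_mulVec, xm_mulVec_6, xm_mulVec_11, xm_mulVec_16]
  funext i; fin_cases i <;> simp <;> ring
theorem ct_16_8 : chevD4.commTerms 16 8 = [] := by decide
theorem rel_16_8 (t u : F) : xg 8 u * xg 16 t = xg 16 t * xg 8 u * ((chevD4.commWord F 16 8 t u).map fun p => xg p.1 p.2).prod := by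
  rw [ChevalleyDatum.commWord, ct_16_8]
  simp only [List.map_cons, List.map_nil, List.prod_cons, List.prod_nil]
  apply Units.ext
  simp only [Units.val_mul, xg_val, Units.val_one]
  apply mat_ext_mulVec
  intro v
  simp only [← Matrix.mulVec_mulVec, Matrix.one_mulVec, xm_mulVec_8, xm_mulVec_16]
  funext i; fin_cases i <;> simp <;> ring
theorem ct_16_9 : chevD4.commTerms 16 9 = [(13, 1, 1, 1)] := by decide
theorem rel_16_9 (t u : F) : xg 9 u * xg 16 t = xg 16 t * xg 9 u * ((chevD4.commWord F 16 9 t u).map fun p => xg p.1 p.2).prod := by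
  rw [ChevalleyDatum.commWord, ct_16_9]
  simp only [List.map_cons, List.map_nil, List.prod_cons, List.prod_nil]
  apply Units.ext
  simp only [Units.val_mul, xg_val, Units.val_one]
  apply mat_ext_mulVec
  intro v
  simp only [← Matrix.mulVec_mulVec, Matrix.one_mulVec, xm_mulVec_9, xm_mulVec_13, xm_mulVec_16]
  funext i; fin_cases i <;> simp <;> ring
theorem ct_16_10 : chevD4.commTerms 16 10 = [(14, -1, 1, 1)] := by decide
theorem rel_16_10 (t u : F) : xg 10 u * xg 16 t = xg 16 t * xg 10 u * ((chevD4.commWord F 16 10 t u).map fun p => xg p.1 p.2).prod := by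
  rw [ChevalleyDatum.commWord, ct_16_10]
  simp only [List.map_cons, List.map_nil, List.prod_cons, List.prod_nil]
  apply Units.ext
  simp only [Units.val_mul, xg_val, Units.val_one]
  apply mat_ext_mulVec
  intro v
  simp only [← Matrix.mulVec_mulVec, Matrix.one_mulVec, xm_mulVec_10, xm_mulVec_14, xm_mulVec_16]
  funext i; fin_cases i <;> simp <;> ring
theorem ct_16_11 : chevD4.commTerms 16 11 = [] := by decide
theorem rel_16_11 (t u : F) : xg 11 u * xg 16 t = xg 16 t * xg 11 u * ((chevD4.commWord F 16 11 t u).map fun p => xg p.1 p.2).prod := by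
  rw [ChevalleyDatum.commWord, ct_16_11]
  simp only [List.map_cons, List.map_nil, List.prod_cons, List.prod_nil]
  apply Units.ext
  simp only [Units.val_mul, xg_val, Units.val_one]
  apply mat_ext_mulVec
  intro v
  simp only [← Matrix.mulVec_mulVec, Matrix.one_mulVec, xm_mulVec_11, xm_mulVec_16]
  funext i; fin_cases i <;> simp <;> ring
theorem ct_16_12 : chevD4.commTerms 16 12 = [(17, -1, 1, 1)] := by decide
theorem rel_16_12 (t u : F) : xg 12 u * xg 16 t = xg 16 t * xg 12 u * ((chevD4.commWord F 16 12 t u).map fun p => xg p.1 p.2).prod := by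
  rw [ChevalleyDatum.commWord, ct_16_12]
  simp only [List.map_cons, List.map_nil, List.prod_cons, List.prod_nil]
  apply Units.ext
  simp only [Units.val_mul, xg_val, Units.val_one]
  apply mat_ext_mulVec
  intro v
  simp only [← Matrix.mulVec_mulVec, Matrix.one_mulVec, xm_mulVec_12, xm_mulVec_16, xm_mulVec_17]
  funext i; fin_cases i <;> simp <;> ring
theorem ct_16_13 : chevD4.commTerms 16 13 = [] := by decide
theorem rel_16_13 (t u : F) : xg 13 u * xg 16 t = xg 16 t * xg 13 u * ((chevD4.commWord F 16 13 t u).map fun p => xg p.1 p.2).prod := by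
  rw [ChevalleyDatum.commWord, ct_16_13]
  simp only [List.map_cons, List.map_nil, List.prod_cons, List.prod_nil]
  apply Units.ext
  simp only [Units.val_mul, xg_val, Units.val_one]
  apply mat_ext_mulVec
  intro v
  simp only [← Matrix.mulVec_mulVec, Matrix.one_mulVec, xm_mulVec_13, xm_mulVec_16]
  funext i; fin_cases i <;> simp <;> ring
theorem ct_16_14 : chevD4.commTerms 16 14 = [] := by decide
theorem rel_16_14 (t u : F) : xg 14 u * xg 16 t = xg 16 t * xg 14 u * ((chevD4.commWord F 16 14 t u).map fun p => xg p.1 p.2).prod := by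
  rw [ChevalleyDatum.commWord, ct_16_14]
  simp only [List.map_cons, List.map_nil, List.prod_cons, List.prod_nil]
  apply Units.ext
  simp only [Units.val_mul, xg_val, Units.val_one]
  apply mat_ext_mulVec
  intro v
  simp only [← Matrix.mulVec_mulVec, Matrix.one_mulVec, xm_mulVec_14, xm_mulVec_16]
  funext i; fin_cases i <;> simp <;> ring
theorem ct_16_15 : chevD4.commTerms 16 15 = [] := by decide
theorem rel_16_15 (t u : F) : xg 15 u * xg 16 t = xg 16 t * xg 15 u * ((chevD4.commWord F 16 15 t u).map fun p => xg p.1 p.2).prod := by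
  rw [ChevalleyDatum.commWord, ct_16_15]
  simp only [List.map_cons, List.map_nil, List.prod_cons, List.prod_nil]
  apply Units.ext
  simp only [Units.val_mul, xg_val, Units.val_one]
  apply mat_ext_mulVec
  intro v
  simp only [← Matrix.mulVec_mulVec, Matrix.one_mulVec, xm_mulVec_15, xm_mulVec_16]
  funext i; fin_cases i <;> simp <;> ring
theorem ct_16_17 : chevD4.commTerms 16 17 = [] := by decide
theorem rel_16_17 (t u : F) : xg 17 u * xg 16 t = xg 16 t * xg 17 u * ((chevD4.commWord F 16 17 t u).map fun p => xg p.1 p.2).prod := by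
  rw [ChevalleyDatum.commWord, ct_16_17]
  simp only [List.map_cons, List.map_nil, List.prod_cons, List.prod_nil]
  apply Units.ext
  simp only [Units.val_mul, xg_val, Units.val_one]
  apply mat_ext_mulVec
  intro v
  simp only [← Matrix.mulVec_mulVec, Matrix.one_mulVec, xm_mulVec_16, xm_mulVec_17]
  funext i; fin_cases i <;> simp <;> ring
theorem ct_16_18 : chevD4.commTerms 16 18 = [(21, 1, 1, 1)] := by decide
theorem rel_16_18 (t u : F) : xg 18 u * xg 16 t = xg 16 t * xg 18 u * ((chevD4.commWord F 16 18 t u).map fun p => xg p.1 p.2).prod := by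
  rw [ChevalleyDatum.commWord, ct_16_18]
  simp only [List.map_cons, List.map_nil, List.prod_cons, List.prod_nil]
  apply Units.ext
  simp only [Units.val_mul, xg_val, Units.val_one]
  apply mat_ext_mulVec
  intro v
  simp only [← Matrix.mulVec_mulVec, Matrix.one_mulVec, xm_mulVec_16, xm_mulVec_18, xm_mulVec_21]
  funext i; fin_cases i <;> simp <;> ring
theorem ct_16_19 : chevD4.commTerms 16 19 = [] := by decide
theorem rel_16_19 (t u : F) : xg 19 u * xg 16 t = xg 16 t * xg 19 u * ((chevD4.commWord F 16 19 t u).map fun p => xg p.1 p.2).prod := by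
  rw [ChevalleyDatum.commWord, ct_16_19]
  simp only [List.map_cons, List.map_nil, List.prod_cons, List.prod_nil]
  apply Units.ext
  simp only [Units.val_mul, xg_val, Units.val_one]
  apply mat_ext_mulVec
  intro v
  simp only [← Matrix.mulVec_mulVec, Matrix.one_mulVec, xm_mulVec_16, xm_mulVec_19]
  funext i; fin_cases i <;> simp <;> ring
theorem ct_16_20 : chevD4.commTerms 16 20 = [(23, -1, 1, 1)] := by decide
theorem rel_16_20 (t u : F) : xg 20 u * xg 16 t = xg 16 t * xg 20 u * ((chevD4.commWord F 16 20 t u).map fun p => xg p.1 p.2).prod := by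
  rw [ChevalleyDatum.commWord, ct_16_20]
  simp only [List.map_cons, List.map_nil, List.prod_cons, List.prod_nil]
  apply Units.ext
  simp only [Units.val_mul, xg_val, Units.val_one]
  apply mat_ext_mulVec
  intro v
  simp only [← Matrix.mulVec_mulVec, Matrix.one_mulVec, xm_mulVec_16, xm_mulVec_20, xm_mulVec_23]
  funext i; fin_cases i <;> simp <;> ring
theorem ct_16_21 : chevD4.commTerms 16 21 = [] := by decide
theorem rel_16_21 (t u : F) : xg 21 u * xg 16 t = xg 16 t * xg 21 u * ((chevD4.commWord F 16 21 t u).map fun p => xg p.1 p.2).prod := by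
  rw [ChevalleyDatum.commWord, ct_16_21]
  simp only [List.map_cons, List.map_nil, List.prod_cons, List.prod_nil]
  apply Units.ext
  simp only [Units.val_mul, xg_val, Units.val_one]
  apply mat_ext_mulVec
  intro v
  simp only [← Matrix.mulVec_mulVec, Matrix.one_mulVec, xm_mulVec_16, xm_mulVec_21]
  funext i; fin_cases i <;> simp <;> ring
theorem ct_16_22 : chevD4.commTerms 16 22 = [] := by decide
theorem rel_16_22 (t u : F) : xg 22 u * xg 16 t = xg 16 t * xg 22 u * ((chevD4.commWord F 16 22 t u).map fun p => xg p.1 p.2).prod := by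
  rw [ChevalleyDatum.commWord, ct_16_22]
  simp only [List.map_cons, List.map_nil, List.prod_cons, List.prod_nil]
  apply Units.ext
  simp only [Units.val_mul, xg_val, Units.val_one]
  apply mat_ext_mulVec
  intro v
  simp only [← Matrix.mulVec_mulVec, Matrix.one_mulVec, xm_mulVec_16, xm_mulVec_22]
  funext i; fin_cases i <;> simp <;> ring
theorem ct_16_23 : chevD4.commTerms 16 23 = [] := by decide
theorem rel_16_23 (t u : F) : xg 23 u * xg 16 t = xg 16 t * xg 23 u * ((chevD4.commWord F 16 23 t u).map fun p => xg p.1 p.2).prod := by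
  rw [ChevalleyDatum.commWord, ct_16_23]
  simp only [List.map_cons, List.map_nil, List.prod_cons, List.prod_nil]
  apply Units.ext
  simp only [Units.val_mul, xg_val, Units.val_one]
  apply mat_ext_mulVec
  intro v
  simp only [← Matrix.mulVec_mulVec, Matrix.one_mulVec, xm_mulVec_16, xm_mulVec_23]
  funext i; fin_cases i <;> simp <;> ring
theorem ct_17_0 : chevD4.commTerms 17 0 = [(4, -1, 1, 1)] := by decide
theorem rel_17_0 (t u : F) : xg 0 u * xg 17 t = xg 17 t * xg 0 u * ((chevD4.commWord F 17 0 t u).map fun p => xg p.1 p.2).prod := by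
  rw [ChevalleyDatum.commWord, ct_17_0]
  simp only [List.map_cons, List.map_nil, List.prod_cons, List.prod_nil]
  apply Units.ext
  simp only [Units.val_mul, xg_val, Units.val_one]
  apply mat_ext_mulVec
  intro v
  simp only [← Matrix.mulVec_mulVec, Matrix.one_mulVec, xm_mulVec_0, xm_mulVec_4, xm_mulVec_17]
  funext i; fin_cases i <;> simp <;> ring
theorem ct_17_1 : chevD4.commTerms 17 1 = [(5, -1, 1, 1)] := by decide
theorem rel_17_1 (t u : F) : xg 1 u * xg 17 t = xg 17 t * xg 1 u * ((chevD4.commWord F 17 1 t u).map fun p => xg p.1 p.2).prod := by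
  rw [ChevalleyDatum.commWord, ct_17_1]
  simp only [List.map_cons, List.map_nil, List.prod_cons, List.prod_nil]
  apply Units.ext
  simp only [Units.val_mul, xg_val, Units.val_one]
  apply mat_ext_mulVec
  intro v
  simp only [← Matrix.mulVec_mulVec, Matrix.one_mulVec, xm_mulVec_1, xm_mulVec_5, xm_mulVec_17]
  funext i; fin_cases i <;> simp <;> ring
theorem ct_17_2 : chevD4.commTerms 17 2 = [] := by decide
theorem rel_17_2 (t u : F) : xg 2 u * xg 17 t = xg 17 t * xg 2 u * ((chevD4.commWord F 17 2 t u).map fun p => xg p.1 p.2).prod := by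
  rw [ChevalleyDatum.commWord, ct_17_2]
  simp only [List.map_cons, List.map_nil, List.prod_cons, List.prod_nil]
  apply Units.ext
  simp only [Units.val_mul, xg_val, Units.val_one]
  apply mat_ext_mulVec
  intro v
  simp only [← Matrix.mulVec_mulVec, Matrix.one_mulVec, xm_mulVec_2, xm_mulVec_17]
  funext i; fin_cases i <;> simp <;> ring
theorem ct_17_3 : chevD4.commTerms 17 3 = [] := by decide
theorem rel_17_3 (t u : F) : xg 3 u * xg 17 t = xg 17 t * xg 3 u * ((chevD4.commWord F 17 3 t u).map fun p => xg p.1 p.2).prod := by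
  rw [ChevalleyDatum.commWord, ct_17_3]
  simp only [List.map_cons, List.map_nil, List.prod_cons, List.prod_nil]
  apply Units.ext
  simp only [Units.val_mul, xg_val, Units.val_one]
  apply mat_ext_mulVec
  intro v
  simp only [← Matrix.mulVec_mulVec, Matrix.one_mulVec, xm_mulVec_3, xm_mulVec_17]
  funext i; fin_cases i <;> simp <;> ring
theorem ct_17_4 : chevD4.commTerms 17 4 = [] := by decide
theorem rel_17_4 (t u : F) : xg 4 u * xg 17 t = xg 17 t * xg 4 u * ((chevD4.commWord F 17 4 t u).map fun p => xg p.1 p.2).prod := by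
  rw [ChevalleyDatum.commWord, ct_17_4]
  simp only [List.map_cons, List.map_nil, List.prod_cons, List.prod_nil]
  apply Units.ext
  simp only [Units.val_mul, xg_val, Units.val_one]
  apply mat_ext_mulVec
  intro v
  simp only [← Matrix.mulVec_mulVec, Matrix.one_mulVec, xm_mulVec_4, xm_mulVec_17]
  funext i; fin_cases i <;> simp <;> ring
theorem ct_17_5 : chevD4.commTerms 17 5 = [] := by decide
theorem rel_17_5 (t u : F) : xg 5 u * xg 17 t = xg 17 t * xg 5 u * ((chevD4.commWord F 17 5 t u).map fun p => xg p.1 p.2).prod := by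
  rw [ChevalleyDatum.commWord, ct_17_5]
  simp only [List.map_cons, List.map_nil, List.prod_cons, List.prod_nil]
  apply Units.ext
  simp only [Units.val_mul, xg_val, Units.val_one]
  apply mat_ext_mulVec
  intro v
  simp only [← Matrix.mulVec_mulVec, Matrix.one_mulVec, xm_mulVec_5, xm_mulVec_17]
  funext i; fin_cases i <;> simp <;> ring
theorem ct_17_7 : chevD4.commTerms 17 7 = [(12, 1, 1, 1)] := by decide
theorem rel_17_7 (t u : F) : xg 7 u * xg 17 t = xg 17 t * xg 7 u * ((chevD4.commWord F 17 7 t u).map fun p => xg p.1 p.2).prod := by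
  rw [ChevalleyDatum.commWord, ct_17_7]
  simp only [List.map_cons, List.map_nil, List.prod_cons, List.prod_nil]
  apply Units.ext
  simp only [Units.val_mul, xg_val, Units.val_one]
  apply mat_ext_mulVec
  intro v
  simp only [← Matrix.mulVec_mulVec, Matrix.one_mulVec, xm_mulVec_7, xm_mulVec_12, xm_mulVec_17]
  funext i; fin_cases i <;> simp <;> ring
theorem ct_17_8 : chevD4.commTerms 17 8 = [(13, 1, 1, 1)] := by decide
theorem rel_17_8 (t u : F) : xg 8 u * xg 17 t = xg 17 t * xg 8 u * ((chevD4.commWord F 17 8 t u).map fun p => xg p.1 p.2).prod := by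
  rw [ChevalleyDatum.commWord, ct_17_8]
  simp only [List.map_cons, List.map_nil, List.prod_cons, List.prod_nil]
  apply Units.ext
  simp only [Units.val_mul, xg_val, Units.val_one]
  apply mat_ext_mulVec
  intro v
  simp only [← Matrix.mulVec_mulVec, Matrix.one_mulVec, xm_mulVec_8, xm_mulVec_13, xm_mulVec_17]
  funext i; fin_cases i <;> simp <;> ring
theorem ct_17_9 : chevD4.commTerms 17 9 = [] := by decide
theorem rel_17_9 (t u : F) : xg 9 u * xg 17 t = xg 17 t * xg 9 u * ((chevD4.commWord F 17 9 t u).map fun p => xg p.1 p.2).prod := by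
  rw [ChevalleyDatum.commWord, ct_17_9]
  simp only [List.map_cons, List.map_nil, List.prod_cons, List.prod_nil]
  apply Units.ext
  simp only [Units.val_mul, xg_val, Units.val_one]
  apply mat_ext_mulVec
  intro v
  simp only [← Matrix.mulVec_mulVec, Matrix.one_mulVec, xm_mulVec_9, xm_mulVec_17]
  funext i; fin_cases i <;> simp <;> ring
theorem ct_17_10 : chevD4.commTerms 17 10 = [(15, -1, 1, 1)] := by decide
theorem rel_17_10 (t u : F) : xg 10 u * xg 17 t = xg 17 t * xg 10 u * ((chevD4.commWord F 17 10 t u).map fun p => xg p.1 p.2).prod := by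
  rw [ChevalleyDatum.commWord, ct_17_10]
  simp only [List.map_cons, List.map_nil, List.prod_cons, List.prod_nil]
  apply Units.ext
  simp only [Units.val_mul, xg_val, Units.val_one]
  apply mat_ext_mulVec
  intro v
  simp only [← Matrix.mulVec_mulVec, Matrix.one_mulVec, xm_mulVec_10, xm_mulVec_15, xm_mulVec_17]
  funext i; fin_cases i <;> simp <;> ring
theorem ct_17_11 : chevD4.commTerms 17 11 = [(16, -1, 1, 1)] := by decide
theorem rel_17_11 (t u : F) : xg 11 u * xg 17 t = xg 17 t * xg 11 u * ((chevD4.commWord F 17 11 t u).map fun p => xg p.1 p.2).prod := by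
  rw [ChevalleyDatum.commWord, ct_17_11]
  simp only [List.map_cons, List.map_nil, List.prod_cons, List.prod_nil]
  apply Units.ext
  simp only [Units.val_mul, xg_val, Units.val_one]
  apply mat_ext_mulVec
  intro v
  simp only [← Matrix.mulVec_mulVec, Matrix.one_mulVec, xm_mulVec_11, xm_mulVec_16, xm_mulVec_17]
  funext i; fin_cases i <;> simp <;> ring
theorem ct_17_12 : chevD4.commTerms 17 12 = [] := by decide
theorem rel_17_12 (t u : F) : xg 12 u * xg 17 t = xg 17 t * xg 12 u * ((chevD4.commWord F 17 12 t u).map fun p => xg p.1 p.2).prod := by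
  rw [ChevalleyDatum.commWord, ct_17_12]
  simp only [List.map_cons, List.map_nil, List.prod_cons, List.prod_nil]
  apply Units.ext
  simp only [Units.val_mul, xg_val, Units.val_one]
  apply mat_ext_mulVec
  intro v
  simp only [← Matrix.mulVec_mulVec, Matrix.one_mulVec, xm_mulVec_12, xm_mulVec_17]
  funext i; fin_cases i <;> simp <;> ring
theorem ct_17_13 : chevD4.commTerms 17 13 = [] := by decide
theorem rel_17_13 (t u : F) : xg 13 u * xg 17 t = xg 17 t * xg 13 u * ((chevD4.commWord F 17 13 t u).map fun p => xg p.1 p.2).prod := by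
  rw [ChevalleyDatum.commWord, ct_17_13]
  simp only [List.map_cons, List.map_nil, List.prod_cons, List.prod_nil]
  apply Units.ext
  simp only [Units.val_mul, xg_val, Units.val_one]
  apply mat_ext_mulVec
  intro v
  simp only [← Matrix.mulVec_mulVec, Matrix.one_mulVec, xm_mulVec_13, xm_mulVec_17]
  funext i; fin_cases i <;> simp <;> ring
theorem ct_17_14 : chevD4.commTerms 17 14 = [] := by decide
theorem rel_17_14 (t u : F) : xg 14 u * xg 17 t = xg 17 t * xg 14 u * ((chevD4.commWord F 17 14 t u).map fun p => xg p.1 p.2).prod := by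
  rw [ChevalleyDatum.commWord, ct_17_14]
  simp only [List.map_cons, List.map_nil, List.prod_cons, List.prod_nil]
  apply Units.ext
  simp only [Units.val_mul, xg_val, Units.val_one]
  apply mat_ext_mulVec
  intro v
  simp only [← Matrix.mulVec_mulVec, Matrix.one_mulVec, xm_mulVec_14, xm_mulVec_17]
  funext i; fin_cases i <;> simp <;> ring
theorem ct_17_15 : chevD4.commTerms 17 15 = [] := by decide
theorem rel_17_15 (t u : F) : xg 15 u * xg 17 t = xg 17 t * xg 15 u * ((chevD4.commWord F 17 15 t u).map fun p => xg p.1 p.2).prod := by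
  rw [ChevalleyDatum.commWord, ct_17_15]
  simp only [List.map_cons, List.map_nil, List.prod_cons, List.prod_nil]
  apply Units.ext
  simp only [Units.val_mul, xg_val, Units.val_one]
  apply mat_ext_mulVec
  intro v
  simp only [← Matrix.mulVec_mulVec, Matrix.one_mulVec, xm_mulVec_15, xm_mulVec_17]
  funext i; fin_cases i <;> simp <;> ring
theorem ct_17_16 : chevD4.commTerms 17 16 = [] := by decide
theorem rel_17_16 (t u : F) : xg 16 u * xg 17 t = xg 17 t * xg 16 u * ((chevD4.commWord F 17 16 t u).map fun p => xg p.1 p.2).prod := by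
  rw [ChevalleyDatum.commWord, ct_17_16]
  simp only [List.map_cons, List.map_nil, List.prod_cons, List.prod_nil]
  apply Units.ext
  simp only [Units.val_mul, xg_val, Units.val_one]
  apply mat_ext_mulVec
  intro v
  simp only [← Matrix.mulVec_mulVec, Matrix.one_mulVec, xm_mulVec_16, xm_mulVec_17]
  funext i; fin_cases i <;> simp <;> ring
theorem ct_17_18 : chevD4.commTerms 17 18 = [(22, 1, 1, 1)] := by decide
theorem rel_17_18 (t u : F) : xg 18 u * xg 17 t = xg 17 t * xg 18 u * ((chevD4.commWord F 17 18 t u).map fun p => xg p.1 p.2).prod := by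
  rw [ChevalleyDatum.commWord, ct_17_18]
  simp only [List.map_cons, List.map_nil, List.prod_cons, List.prod_nil]
  apply Units.ext
  simp only [Units.val_mul, xg_val, Units.val_one]
  apply mat_ext_mulVec
  intro v
  simp only [← Matrix.mulVec_mulVec, Matrix.one_mulVec, xm_mulVec_17, xm_mulVec_18, xm_mulVec_22]
  funext i; fin_cases i <;> simp <;> ring
theorem ct_17_19 : chevD4.commTerms 17 19 = [(23, 1, 1, 1)] := by decide
theorem rel_17_19 (t u : F) : xg 19 u * xg 17 t = xg 17 t * xg 19 u * ((chevD4.commWord F 17 19 t u).map fun p => xg p.1 p.2).prod := by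
  rw [ChevalleyDatum.commWord, ct_17_19]
  simp only [List.map_cons, List.map_nil, List.prod_cons, List.prod_nil]
  apply Units.ext
  simp only [Units.val_mul, xg_val, Units.val_one]
  apply mat_ext_mulVec
  intro v
  simp only [← Matrix.mulVec_mulVec, Matrix.one_mulVec, xm_mulVec_17, xm_mulVec_19, xm_mulVec_23]
  funext i; fin_cases i <;> simp <;> ring
theorem ct_17_20 : chevD4.commTerms 17 20 = [] := by decide
theorem rel_17_20 (t u : F) : xg 20 u * xg 17 t = xg 17 t * xg 20 u * ((chevD4.commWord F 17 20 t u).map fun p => xg p.1 p.2).prod := by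
  rw [ChevalleyDatum.commWord, ct_17_20]
  simp only [List.map_cons, List.map_nil, List.prod_cons, List.prod_nil]
  apply Units.ext
  simp only [Units.val_mul, xg_val, Units.val_one]
  apply mat_ext_mulVec
  intro v
  simp only [← Matrix.mulVec_mulVec, Matrix.one_mulVec, xm_mulVec_17, xm_mulVec_20]
  funext i; fin_cases i <;> simp <;> ring
theorem ct_17_21 : chevD4.commTerms 17 21 = [] := by decide
theorem rel_17_21 (t u : F) : xg 21 u * xg 17 t = xg 17 t * xg 21 u * ((chevD4.commWord F 17 21 t u).map fun p => xg p.1 p.2).prod := by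
  rw [ChevalleyDatum.commWord, ct_17_21]
  simp only [List.map_cons, List.map_nil, List.prod_cons, List.prod_nil]
  apply Units.ext
  simp only [Units.val_mul, xg_val, Units.val_one]
  apply mat_ext_mulVec
  intro v
  simp only [← Matrix.mulVec_mulVec, Matrix.one_mulVec, xm_mulVec_17, xm_mulVec_21]
  funext i; fin_cases i <;> simp <;> ring
theorem ct_17_22 : chevD4.commTerms 17 22 = [] := by decide
theorem rel_17_22 (t u : F) : xg 22 u * xg 17 t = xg 17 t * xg 22 u * ((chevD4.commWord F 17 22 t u).map fun p => xg p.1 p.2).prod := by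
  rw [ChevalleyDatum.commWord, ct_17_22]
  simp only [List.map_cons, List.map_nil, List.prod_cons, List.prod_nil]
  apply Units.ext
  simp only [Units.val_mul, xg_val, Units.val_one]
  apply mat_ext_mulVec
  intro v
  simp only [← Matrix.mulVec_mulVec, Matrix.one_mulVec, xm_mulVec_17, xm_mulVec_22]
  funext i; fin_cases i <;> simp <;> ring
theorem ct_17_23 : chevD4.commTerms 17 23 = [] := by decide
theorem rel_17_23 (t u : F) : xg 23 u * xg 17 t = xg 17 t * xg 23 u * ((chevD4.commWord F 17 23 t u).map fun p => xg p.1 p.2).prod := by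
  rw [ChevalleyDatum.commWord, ct_17_23]
  simp only [List.map_cons, List.map_nil, List.prod_cons, List.prod_nil]
  apply Units.ext
  simp only [Units.val_mul, xg_val, Units.val_one]
  apply mat_ext_mulVec
  intro v
  simp only [← Matrix.mulVec_mulVec, Matrix.one_mulVec, xm_mulVec_17, xm_mulVec_23]
  funext i; fin_cases i <;> simp <;> ring

end Cfsg.Agent.Helper17.D4
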