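-- helper17: Steinberg's commutator relations for the explicit root elements of O_8^+ (S1082); machine generated.
import Cfsg.Agent.Helper17.D4Defs

set_option autoImplicit false
set_option linter.unusedSimpArgs false
set_option linter.unnecessarySeqFocus false
open Matrix Cfsg Cfsg.Lie

namespace Cfsg.Agent.Helper17.D4

variable {F : Type*} [Field F]

theorem ct_18_0 : chevD4.commTerms 18 0 = [] := by decide
theorem rel_18_0 (t u : F) : xg 0 u * xg 18 t = xg 18 t * xg 0 u * ((chevD4.commWord F 18 0 t u).map fun p => xg p.1 p.2).prod := by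
  rw [ChevalleyDatum.commWord, ct_18_0]
  simp only [List.map_cons, List.map_nil, List.prod_cons, List.prod_nil]
  apply Units.ext
  simp only [Units.val_mul, xg_val, Units.val_one]
  apply mat_ext_mulVec
  intro v
  simp only [← Matrix.mulVec_mulVec, Matrix.one_mulVec, xm_mulVec_0, xm_mulVec_18]
  funext i; fin_cases i <;> simp <;> ring
theorem ct_18_1 : chevD4.commTerms 18 1 = [(6, 1, 1, 1)] := by decide
theorem rel_18_1 (t u : F) : xg 1 u * xg 18 t = xg 18 t * xg 1 u * ((chevD4.commWord F 18 1 t u).map fun p => xg p.1 p.2).prod := by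
  rw [ChevalleyDatum.commWord, ct_18_1]
  simp only [List.map_cons, List.map_nil, List.prod_cons, List.prod_nil]
  apply Units.ext
  simp only [Units.val_mul, xg_val, Units.val_one]
  apply mat_ext_mulVec
  intro v
  simp only [← Matrix.mulVec_mulVec, Matrix.one_mulVec, xm_mulVec_1, xm_mulVec_6, xm_mulVec_18]
  funext i; fin_cases i <;> simp <;> ring
theorem ct_18_2 : chevD4.commTerms 18 2 = [(7, 1, 1, 1)] := by decide
theorem rel_18_2 (t u : F) : xg 2 u * xg 18 t = xg 18 t * xg 2 u * ((chevD4.commWord F 18 2 t u).map fun p => xg p.1 p.2).prod := by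
  rw [ChevalleyDatum.commWord, ct_18_2]
  simp only [List.map_cons, List.map_nil, List.prod_cons, List.prod_nil]
  apply Units.ext
  simp only [Units.val_mul, xg_val, Units.val_one]
  apply mat_ext_mulVec
  intro v
  simp only [← Matrix.mulVec_mulVec, Matrix.one_mulVec, xm_mulVec_2, xm_mulVec_7, xm_mulVec_18]
  funext i; fin_cases i <;> simp <;> ring
theorem ct_18_3 : chevD4.commTerms 18 3 = [(8, 1, 1, 1)] := by decide
theorem rel_18_3 (t u : F) : xg 3 u * xg 18 t = xg 18 t * xg 3 u * ((chevD4.commWord F 18 3 t u).map fun p => xg p.1 p.2).prod := by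
  rw [ChevalleyDatum.commWord, ct_18_3]
  simp only [List.map_cons, List.map_nil, List.prod_cons, List.prod_nil]
  apply Units.ext
  simp only [Units.val_mul, xg_val, Units.val_one]
  apply mat_ext_mulVec
  intro v
  simp only [← Matrix.mulVec_mulVec, Matrix.one_mulVec, xm_mulVec_3, xm_mulVec_8, xm_mulVec_18]
  funext i; fin_cases i <;> simp <;> ring
theorem ct_18_4 : chevD4.commTerms 18 4 = [(9, 1, 1, 1)] := by decide
theorem rel_18_4 (t u : F) : xg 4 u * xg 18 t = xg 18 t * xg 4 u * ((chevD4.commWord F 18 4 t u).map fun p => xg p.1 p.2).prod := by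
  rw [ChevalleyDatum.commWord, ct_18_4]
  simp only [List.map_cons, List.map_nil, List.prod_cons, List.prod_nil]
  apply Units.ext
  simp only [Units.val_mul, xg_val, Units.val_one]
  apply mat_ext_mulVec
  intro v
  simp only [← Matrix.mulVec_mulVec, Matrix.one_mulVec, xm_mulVec_4, xm_mulVec_9, xm_mulVec_18]
  funext i; fin_cases i <;> simp <;> ring
theorem ct_18_6 : chevD4.commTerms 18 6 = [] := by decide
theorem rel_18_6 (t u : F) : xg 6 u * xg 18 t = xg 18 t * xg 6 u * ((chevD4.commWord F 18 6 t u).map fun p => xg p.1 p.2).prod := by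
  rw [ChevalleyDatum.commWord, ct_18_6]
  simp only [List.map_cons, List.map_nil, List.prod_cons, List.prod_nil]
  apply Units.ext
  simp only [Units.val_mul, xg_val, Units.val_one]
  apply mat_ext_mulVec
  intro v
  simp only [← Matrix.mulVec_mulVec, Matrix.one_mulVec, xm_mulVec_6, xm_mulVec_18]
  funext i; fin_cases i <;> simp <;> ring
theorem ct_18_7 : chevD4.commTerms 18 7 = [] := by decide
theorem rel_18_7 (t u : F) : xg 7 u * xg 18 t = xg 18 t * xg 7 u * ((chevD4.commWord F 18 7 t u).map fun p => xg p.1 p.2).prod := by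
  rw [ChevalleyDatum.commWord, ct_18_7]
  simp only [List.map_cons, List.map_nil, List.prod_cons, List.prod_nil]
  apply Units.ext
  simp only [Units.val_mul, xg_val, Units.val_one]
  apply mat_ext_mulVec
  intro v
  simp only [← Matrix.mulVec_mulVec, Matrix.one_mulVec, xm_mulVec_7, xm_mulVec_18]
  funext i; fin_cases i <;> simp <;> ring
theorem ct_18_8 : chevD4.commTerms 18 8 = [] := by decide
theorem rel_18_8 (t u : F) : xg 8 u * xg 18 t = xg 18 t * xg 8 u * ((chevD4.commWord F 18 8 t u).map fun p => xg p.1 p.2).prod := by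
  rw [ChevalleyDatum.commWord, ct_18_8]
  simp only [List.map_cons, List.map_nil, List.prod_cons, List.prod_nil]
  apply Units.ext
  simp only [Units.val_mul, xg_val, Units.val_one]
  apply mat_ext_mulVec
  intro v
  simp only [← Matrix.mulVec_mulVec, Matrix.one_mulVec, xm_mulVec_8, xm_mulVec_18]
  funext i; fin_cases i <;> simp <;> ring
theorem ct_18_9 : chevD4.commTerms 18 9 = [] := by decide
theorem rel_18_9 (t u : F) : xg 9 u * xg 18 t = xg 18 t * xg 9 u * ((chevD4.commWord F 18 9 t u).map fun p => xg p.1 p.2).prod := by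
  rw [ChevalleyDatum.commWord, ct_18_9]
  simp only [List.map_cons, List.map_nil, List.prod_cons, List.prod_nil]
  apply Units.ext
  simp only [Units.val_mul, xg_val, Units.val_one]
  apply mat_ext_mulVec
  intro v
  simp only [← Matrix.mulVec_mulVec, Matrix.one_mulVec, xm_mulVec_9, xm_mulVec_18]
  funext i; fin_cases i <;> simp <;> ring
theorem ct_18_10 : chevD4.commTerms 18 10 = [] := by decide
theorem rel_18_10 (t u : F) : xg 10 u * xg 18 t = xg 18 t * xg 10 u * ((chevD4.commWord F 18 10 t u).map fun p => xg p.1 p.2).prod := by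
  rw [ChevalleyDatum.commWord, ct_18_10]
  simp only [List.map_cons, List.map_nil, List.prod_cons, List.prod_nil]
  apply Units.ext
  simp only [Units.val_mul, xg_val, Units.val_one]
  apply mat_ext_mulVec
  intro v
  simp only [← Matrix.mulVec_mulVec, Matrix.one_mulVec, xm_mulVec_10, xm_mulVec_18]
  funext i; fin_cases i <;> simp <;> ring
theorem ct_18_11 : chevD4.commTerms 18 11 = [] := by decide
theorem rel_18_11 (t u : F) : xg 11 u * xg 18 t = xg 18 t * xg 11 u * ((chevD4.commWord F 18 11 t u).map fun p => xg p.1 p.2).prod := by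
  rw [ChevalleyDatum.commWord, ct_18_11]
  simp only [List.map_cons, List.map_nil, List.prod_cons, List.prod_nil]
  apply Units.ext
  simp only [Units.val_mul, xg_val, Units.val_one]
  apply mat_ext_mulVec
  intro v
  simp only [← Matrix.mulVec_mulVec, Matrix.one_mulVec, xm_mulVec_11, xm_mulVec_18]
  funext i; fin_cases i <;> simp <;> ring
theorem ct_18_12 : chevD4.commTerms 18 12 = [] := by decide
theorem rel_18_12 (t u : F) : xg 12 u * xg 18 t = xg 18 t * xg 12 u * ((chevD4.commWord F 18 12 t u).map fun p => xg p.1 p.2).prod := by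
  rw [ChevalleyDatum.commWord, ct_18_12]
  simp only [List.map_cons, List.map_nil, List.prod_cons, List.prod_nil]
  apply Units.ext
  simp only [Units.val_mul, xg_val, Units.val_one]
  apply mat_ext_mulVec
  intro v
  simp only [← Matrix.mulVec_mulVec, Matrix.one_mulVec, xm_mulVec_12, xm_mulVec_18]
  funext i; fin_cases i <;> simp <;> ring
theorem ct_18_13 : chevD4.commTerms 18 13 = [] := by decide
theorem rel_18_13 (t u : F) : xg 13 u * xg 18 t = xg 18 t * xg 13 u * ((chevD4.commWord F 18 13 t u).map fun p => xg p.1 p.2).prod := by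
  rw [ChevalleyDatum.commWord, ct_18_13]
  simp only [List.map_cons, List.map_nil, List.prod_cons, List.prod_nil]
  apply Units.ext
  simp only [Units.val_mul, xg_val, Units.val_one]
  apply mat_ext_mulVec
  intro v
  simp only [← Matrix.mulVec_mulVec, Matrix.one_mulVec, xm_mulVec_13, xm_mulVec_18]
  funext i; fin_cases i <;> simp <;> ring
theorem ct_18_14 : chevD4.commTerms 18 14 = [(19, -1, 1, 1)] := by decide
theorem rel_18_14 (t u : F) : xg 14 u * xg 18 t = xg 18 t * xg 14 u * ((chevD4.commWord F 18 14 t u).map fun p => xg p.1 p.2).prod := by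
  rw [ChevalleyDatum.commWord, ct_18_14]
  simp only [List.map_cons, List.map_nil, List.prod_cons, List.prod_nil]
  apply Units.ext
  simp only [Units.val_mul, xg_val, Units.val_one]
  apply mat_ext_mulVec
  intro v
  simp only [← Matrix.mulVec_mulVec, Matrix.one_mulVec, xm_mulVec_14, xm_mulVec_18, xm_mulVec_19]
  funext i; fin_cases i <;> simp <;> ring
theorem ct_18_15 : chevD4.commTerms 18 15 = [(20, -1, 1, 1)] := by decide
theorem rel_18_15 (t u : F) : xg 15 u * xg 18 t = xg 18 t * xg 15 u * ((chevD4.commWord F 18 15 t u).map fun p => xg p.1 p.2).prod := by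
  rw [ChevalleyDatum.commWord, ct_18_15]
  simp only [List.map_cons, List.map_nil, List.prod_cons, List.prod_nil]
  apply Units.ext
  simp only [Units.val_mul, xg_val, Units.val_one]
  apply mat_ext_mulVec
  intro v
  simp only [← Matrix.mulVec_mulVec, Matrix.one_mulVec, xm_mulVec_15, xm_mulVec_18, xm_mulVec_20]
  funext i; fin_cases i <;> simp <;> ring
theorem ct_18_16 : chevD4.commTerms 18 16 = [(21, -1, 1, 1)] := by decide
theorem rel_18_16 (t u : F) : xg 16 u * xg 18 t = xg 18 t * xg 16 u * ((chevD4.commWord F 18 16 t u).map fun p => xg p.1 p.2).prod := by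
  rw [ChevalleyDatum.commWord, ct_18_16]
  simp only [List.map_cons, List.map_nil, List.prod_cons, List.prod_nil]
  apply Units.ext
  simp only [Units.val_mul, xg_val, Units.val_one]
  apply mat_ext_mulVec
  intro v
  simp only [← Matrix.mulVec_mulVec, Matrix.one_mulVec, xm_mulVec_16, xm_mulVec_18, xm_mulVec_21]
  funext i; fin_cases i <;> simp <;> ring
theorem ct_18_17 : chevD4.commTerms 18 17 = [(22, -1, 1, 1)] := by decide
theorem rel_18_17 (t u : F) : xg 17 u * xg 18 t = xg 18 t * xg 17 u * ((chevD4.commWord F 18 17 t u).map fun p => xg p.1 p.2).prod := by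
  rw [ChevalleyDatum.commWord, ct_18_17]
  simp only [List.map_cons, List.map_nil, List.prod_cons, List.prod_nil]
  apply Units.ext
  simp only [Units.val_mul, xg_val, Units.val_one]
  apply mat_ext_mulVec
  intro v
  simp only [← Matrix.mulVec_mulVec, Matrix.one_mulVec, xm_mulVec_17, xm_mulVec_18, xm_mulVec_22]
  funext i; fin_cases i <;> simp <;> ring
theorem ct_18_19 : chevD4.commTerms 18 19 = [] := by decide
theorem rel_18_19 (t u : F) : xg 19 u * xg 18 t = xg 18 t * xg 19 u * ((chevD4.commWord F 18 19 t u).map fun p => xg p.1 p.2).prod := by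
  rw [ChevalleyDatum.commWord, ct_18_19]
  simp only [List.map_cons, List.map_nil, List.prod_cons, List.prod_nil]
  apply Units.ext
  simp only [Units.val_mul, xg_val, Units.val_one]
  apply mat_ext_mulVec
  intro v
  simp only [← Matrix.mulVec_mulVec, Matrix.one_mulVec, xm_mulVec_18, xm_mulVec_19]
  funext i; fin_cases i <;> simp <;> ring
theorem ct_18_20 : chevD4.commTerms 18 20 = [] := by decide
theorem rel_18_20 (t u : F) : xg 20 u * xg 18 t = xg 18 t * xg 20 u * ((chevD4.commWord F 18 20 t u).map fun p => xg p.1 p.2).prod := by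
  rw [ChevalleyDatum.commWord, ct_18_20]
  simp only [List.map_cons, List.map_nil, List.prod_cons, List.prod_nil]
  apply Units.ext
  simp only [Units.val_mul, xg_val, Units.val_one]
  apply mat_ext_mulVec
  intro v
  simp only [← Matrix.mulVec_mulVec, Matrix.one_mulVec, xm_mulVec_18, xm_mulVec_20]
  funext i; fin_cases i <;> simp <;> ring
theorem ct_18_21 : chevD4.commTerms 18 21 = [] := by decide
theorem rel_18_21 (t u : F) : xg 21 u * xg 18 t = xg 18 t * xg 21 u * ((chevD4.commWord F 18 21 t u).map fun p => xg p.1 p.2).prod := by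
  rw [ChevalleyDatum.commWord, ct_18_21]
  simp only [List.map_cons, List.map_nil, List.prod_cons, List.prod_nil]
  apply Units.ext
  simp only [Units.val_mul, xg_val, Units.val_one]
  apply mat_ext_mulVec
  intro v
  simp only [← Matrix.mulVec_mulVec, Matrix.one_mulVec, xm_mulVec_18, xm_mulVec_21]
  funext i; fin_cases i <;> simp <;> ring
theorem ct_18_22 : chevD4.commTerms 18 22 = [] := by decide
theorem rel_18_22 (t u : F) : xg 22 u * xg 18 t = xg 18 t * xg 22 u * ((chevD4.commWord F 18 22 t u).map fun p => xg p.1 p.2).prod := by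
  rw [ChevalleyDatum.commWord, ct_18_22]
  simp only [List.map_cons, List.map_nil, List.prod_cons, List.prod_nil]
  apply Units.ext
  simp only [Units.val_mul, xg_val, Units.val_one]
  apply mat_ext_mulVec
  intro v
  simp only [← Matrix.mulVec_mulVec, Matrix.one_mulVec, xm_mulVec_18, xm_mulVec_22]
  funext i; fin_cases i <;> simp <;> ring
theorem ct_18_23 : chevD4.commTerms 18 23 = [] := by decide
theorem rel_18_23 (t u : F) : xg 23 u * xg 18 t = xg 18 t * xg 23 u * ((chevD4.commWord F 18 23 t u).map fun p => xg p.1 p.2).prod := by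
  rw [ChevalleyDatum.commWord, ct_18_23]
  simp only [List.map_cons, List.map_nil, List.prod_cons, List.prod_nil]
  apply Units.ext
  simp only [Units.val_mul, xg_val, Units.val_one]
  apply mat_ext_mulVec
  intro v
  simp only [← Matrix.mulVec_mulVec, Matrix.one_mulVec, xm_mulVec_18, xm_mulVec_23]
  funext i; fin_cases i <;> simp <;> ring
theorem ct_19_0 : chevD4.commTerms 19 0 = [(6, 1, 1, 1)] := by decide
theorem rel_19_0 (t u : F) : xg 0 u * xg 19 t = xg 19 t * xg 0 u * ((chevD4.commWord F 19 0 t u).map fun p => xg p.1 p.2).prod := by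
  rw [ChevalleyDatum.commWord, ct_19_0]
  simp only [List.map_cons, List.map_nil, List.prod_cons, List.prod_nil]
  apply Units.ext
  simp only [Units.val_mul, xg_val, Units.val_one]
  apply mat_ext_mulVec
  intro v
  simp only [← Matrix.mulVec_mulVec, Matrix.one_mulVec, xm_mulVec_0, xm_mulVec_6, xm_mulVec_19]
  funext i; fin_cases i <;> simp <;> ring
theorem ct_19_1 : chevD4.commTerms 19 1 = [] := by decide
theorem rel_19_1 (t u : F) : xg 1 u * xg 19 t = xg 19 t * xg 1 u * ((chevD4.commWord F 19 1 t u).map fun p => xg p.1 p.2).prod := by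
  rw [ChevalleyDatum.commWord, ct_19_1]
  simp only [List.map_cons, List.map_nil, List.prod_cons, List.prod_nil]
  apply Units.ext
  simp only [Units.val_mul, xg_val, Units.val_one]
  apply mat_ext_mulVec
  intro v
  simp only [← Matrix.mulVec_mulVec, Matrix.one_mulVec, xm_mulVec_1, xm_mulVec_19]
  funext i; fin_cases i <;> simp <;> ring
theorem ct_19_2 : chevD4.commTerms 19 2 = [(10, 1, 1, 1)] := by decide
theorem rel_19_2 (t u : F) : xg 2 u * xg 19 t = xg 19 t * xg 2 u * ((chevD4.commWord F 19 2 t u).map fun p => xg p.1 p.2).prod := by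
  rw [ChevalleyDatum.commWord, ct_19_2]
  simp only [List.map_cons, List.map_nil, List.prod_cons, List.prod_nil]
  apply Units.ext
  simp only [Units.val_mul, xg_val, Units.val_one]
  apply mat_ext_mulVec
  intro v
  simp only [← Matrix.mulVec_mulVec, Matrix.one_mulVec, xm_mulVec_2, xm_mulVec_10, xm_mulVec_19]
  funext i; fin_cases i <;> simp <;> ring
theorem ct_19_3 : chevD4.commTerms 19 3 = [(11, 1, 1, 1)] := by decide
theorem rel_19_3 (t u : F) : xg 3 u * xg 19 t = xg 19 t * xg 3 u * ((chevD4.commWord F 19 3 t u).map fun p => xg p.1 p.2).prod := by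
  rw [ChevalleyDatum.commWord, ct_19_3]
  simp only [List.map_cons, List.map_nil, List.prod_cons, List.prod_nil]
  apply Units.ext
  simp only [Units.val_mul, xg_val, Units.val_one]
  apply mat_ext_mulVec
  intro v
  simp only [← Matrix.mulVec_mulVec, Matrix.one_mulVec, xm_mulVec_3, xm_mulVec_11, xm_mulVec_19]
  funext i; fin_cases i <;> simp <;> ring
theorem ct_19_5 : chevD4.commTerms 19 5 = [(14, 1, 1, 1)] := by decide
theorem rel_19_5 (t u : F) : xg 5 u * xg 19 t = xg 19 t * xg 5 u * ((chevD4.commWord F 19 5 t u).map fun p => xg p.1 p.2).prod := by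
  rw [ChevalleyDatum.commWord, ct_19_5]
  simp only [List.map_cons, List.map_nil, List.prod_cons, List.prod_nil]
  apply Units.ext
  simp only [Units.val_mul, xg_val, Units.val_one]
  apply mat_ext_mulVec
  intro v
  simp only [← Matrix.mulVec_mulVec, Matrix.one_mulVec, xm_mulVec_5, xm_mulVec_14, xm_mulVec_19]
  funext i; fin_cases i <;> simp <;> ring
theorem ct_19_6 : chevD4.commTerms 19 6 = [] := by decide
theorem rel_19_6 (t u : F) : xg 6 u * xg 19 t = xg 19 t * xg 6 u * ((chevD4.commWord F 19 6 t u).map fun p => xg p.1 p.2).prod := by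
  rw [ChevalleyDatum.commWord, ct_19_6]
  simp only [List.map_cons, List.map_nil, List.prod_cons, List.prod_nil]
  apply Units.ext
  simp only [Units.val_mul, xg_val, Units.val_one]
  apply mat_ext_mulVec
  intro v
  simp only [← Matrix.mulVec_mulVec, Matrix.one_mulVec, xm_mulVec_6, xm_mulVec_19]
  funext i; fin_cases i <;> simp <;> ring
theorem ct_19_7 : chevD4.commTerms 19 7 = [] := by decide
theorem rel_19_7 (t u : F) : xg 7 u * xg 19 t = xg 19 t * xg 7 u * ((chevD4.commWord F 19 7 t u).map fun p => xg p.1 p.2).prod := by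
  rw [ChevalleyDatum.commWord, ct_19_7]
  simp only [List.map_cons, List.map_nil, List.prod_cons, List.prod_nil]
  apply Units.ext
  simp only [Units.val_mul, xg_val, Units.val_one]
  apply mat_ext_mulVec
  intro v
  simp only [← Matrix.mulVec_mulVec, Matrix.one_mulVec, xm_mulVec_7, xm_mulVec_19]
  funext i; fin_cases i <;> simp <;> ring
theorem ct_19_8 : chevD4.commTerms 19 8 = [] := by decide
theorem rel_19_8 (t u : F) : xg 8 u * xg 19 t = xg 19 t * xg 8 u * ((chevD4.commWord F 19 8 t u).map fun p => xg p.1 p.2).prod := by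
  rw [ChevalleyDatum.commWord, ct_19_8]
  simp only [List.map_cons, List.map_nil, List.prod_cons, List.prod_nil]
  apply Units.ext
  simp only [Units.val_mul, xg_val, Units.val_one]
  apply mat_ext_mulVec
  intro v
  simp only [← Matrix.mulVec_mulVec, Matrix.one_mulVec, xm_mulVec_8, xm_mulVec_19]
  funext i; fin_cases i <;> simp <;> ring
theorem ct_19_9 : chevD4.commTerms 19 9 = [(18, -1, 1, 1)] := by decide
theorem rel_19_9 (t u : F) : xg 9 u * xg 19 t = xg 19 t * xg 9 u * ((chevD4.commWord F 19 9 t u).map fun p => xg p.1 p.2).prod := by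
  rw [ChevalleyDatum.commWord, ct_19_9]
  simp only [List.map_cons, List.map_nil, List.prod_cons, List.prod_nil]
  apply Units.ext
  simp only [Units.val_mul, xg_val, Units.val_one]
  apply mat_ext_mulVec
  intro v
  simp only [← Matrix.mulVec_mulVec, Matrix.one_mulVec, xm_mulVec_9, xm_mulVec_18, xm_mulVec_19]
  funext i; fin_cases i <;> simp <;> ring
theorem ct_19_10 : chevD4.commTerms 19 10 = [] := by decide
theorem rel_19_10 (t u : F) : xg 10 u * xg 19 t = xg 19 t * xg 10 u * ((chevD4.commWord F 19 10 t u).map fun p => xg p.1 p.2).prod := by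
  rw [ChevalleyDatum.commWord, ct_19_10]
  simp only [List.map_cons, List.map_nil, List.prod_cons, List.prod_nil]
  apply Units.ext
  simp only [Units.val_mul, xg_val, Units.val_one]
  apply mat_ext_mulVec
  intro v
  simp only [← Matrix.mulVec_mulVec, Matrix.one_mulVec, xm_mulVec_10, xm_mulVec_19]
  funext i; fin_cases i <;> simp <;> ring
theorem ct_19_11 : chevD4.commTerms 19 11 = [] := by decide
theorem rel_19_11 (t u : F) : xg 11 u * xg 19 t = xg 19 t * xg 11 u * ((chevD4.commWord F 19 11 t u).map fun p => xg p.1 p.2).prod := by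
  rw [ChevalleyDatum.commWord, ct_19_11]
  simp only [List.map_cons, List.map_nil, List.prod_cons, List.prod_nil]
  apply Units.ext
  simp only [Units.val_mul, xg_val, Units.val_one]
  apply mat_ext_mulVec
  intro v
  simp only [← Matrix.mulVec_mulVec, Matrix.one_mulVec, xm_mulVec_11, xm_mulVec_19]
  funext i; fin_cases i <;> simp <;> ring
theorem ct_19_12 : chevD4.commTerms 19 12 = [(20, -1, 1, 1)] := by decide
theorem rel_19_12 (t u : F) : xg 12 u * xg 19 t = xg 19 t * xg 12 u * ((chevD4.commWord F 19 12 t u).map fun p => xg p.1 p.2).prod := by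
  rw [ChevalleyDatum.commWord, ct_19_12]
  simp only [List.map_cons, List.map_nil, List.prod_cons, List.prod_nil]
  apply Units.ext
  simp only [Units.val_mul, xg_val, Units.val_one]
  apply mat_ext_mulVec
  intro v
  simp only [← Matrix.mulVec_mulVec, Matrix.one_mulVec, xm_mulVec_12, xm_mulVec_19, xm_mulVec_20]
  funext i; fin_cases i <;> simp <;> ring
theorem ct_19_13 : chevD4.commTerms 19 13 = [(21, -1, 1, 1)] := by decide
theorem rel_19_13 (t u : F) : xg 13 u * xg 19 t = xg 19 t * xg 13 u * ((chevD4.commWord F 19 13 t u).map fun p => xg p.1 p.2).prod := by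
  rw [ChevalleyDatum.commWord, ct_19_13]
  simp only [List.map_cons, List.map_nil, List.prod_cons, List.prod_nil]
  apply Units.ext
  simp only [Units.val_mul, xg_val, Units.val_one]
  apply mat_ext_mulVec
  intro v
  simp only [← Matrix.mulVec_mulVec, Matrix.one_mulVec, xm_mulVec_13, xm_mulVec_19, xm_mulVec_21]
  funext i; fin_cases i <;> simp <;> ring
theorem ct_19_14 : chevD4.commTerms 19 14 = [] := by decide
theorem rel_19_14 (t u : F) : xg 14 u * xg 19 t = xg 19 t * xg 14 u * ((chevD4.commWord F 19 14 t u).map fun p => xg p.1 p.2).prod := by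
  rw [ChevalleyDatum.commWord, ct_19_14]
  simp only [List.map_cons, List.map_nil, List.prod_cons, List.prod_nil]
  apply Units.ext
  simp only [Units.val_mul, xg_val, Units.val_one]
  apply mat_ext_mulVec
  intro v
  simp only [← Matrix.mulVec_mulVec, Matrix.one_mulVec, xm_mulVec_14, xm_mulVec_19]
  funext i; fin_cases i <;> simp <;> ring
theorem ct_19_15 : chevD4.commTerms 19 15 = [] := by decide
theorem rel_19_15 (t u : F) : xg 15 u * xg 19 t = xg 19 t * xg 15 u * ((chevD4.commWord F 19 15 t u).map fun p => xg p.1 p.2).prod := by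
  rw [ChevalleyDatum.commWord, ct_19_15]
  simp only [List.map_cons, List.map_nil, List.prod_cons, List.prod_nil]
  apply Units.ext
  simp only [Units.val_mul, xg_val, Units.val_one]
  apply mat_ext_mulVec
  intro v
  simp only [← Matrix.mulVec_mulVec, Matrix.one_mulVec, xm_mulVec_15, xm_mulVec_19]
  funext i; fin_cases i <;> simp <;> ring
theorem ct_19_16 : chevD4.commTerms 19 16 = [] := by decide
theorem rel_19_16 (t u : F) : xg 16 u * xg 19 t = xg 19 t * xg 16 u * ((chevD4.commWord F 19 16 t u).map fun p => xg p.1 p.2).prod := by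
  rw [ChevalleyDatum.commWord, ct_19_16]
  simp only [List.map_cons, List.map_nil, List.prod_cons, List.prod_nil]
  apply Units.ext
  simp only [Units.val_mul, xg_val, Units.val_one]
  apply mat_ext_mulVec
  intro v
  simp only [← Matrix.mulVec_mulVec, Matrix.one_mulVec, xm_mulVec_16, xm_mulVec_19]
  funext i; fin_cases i <;> simp <;> ring
theorem ct_19_17 : chevD4.commTerms 19 17 = [(23, -1, 1, 1)] := by decide
theorem rel_19_17 (t u : F) : xg 17 u * xg 19 t = xg 19 t * xg 17 u * ((chevD4.commWord F 19 17 t u).map fun p => xg p.1 p.2).prod := by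
  rw [ChevalleyDatum.commWord, ct_19_17]
  simp only [List.map_cons, List.map_nil, List.prod_cons, List.prod_nil]
  apply Units.ext
  simp only [Units.val_mul, xg_val, Units.val_one]
  apply mat_ext_mulVec
  intro v
  simp only [← Matrix.mulVec_mulVec, Matrix.one_mulVec, xm_mulVec_17, xm_mulVec_19, xm_mulVec_23]
  funext i; fin_cases i <;> simp <;> ring
theorem ct_19_18 : chevD4.commTerms 19 18 = [] := by decide
theorem rel_19_18 (t u : F) : xg 18 u * xg 19 t = xg 19 t * xg 18 u * ((chevD4.commWord F 19 18 t u).map fun p => xg p.1 p.2).prod := by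
  rw [ChevalleyDatum.commWord, ct_19_18]
  simp only [List.map_cons, List.map_nil, List.prod_cons, List.prod_nil]
  apply Units.ext
  simp only [Units.val_mul, xg_val, Units.val_one]
  apply mat_ext_mulVec
  intro v
  simp only [← Matrix.mulVec_mulVec, Matrix.one_mulVec, xm_mulVec_18, xm_mulVec_19]
  funext i; fin_cases i <;> simp <;> ring
theorem ct_19_20 : chevD4.commTerms 19 20 = [] := by decide
theorem rel_19_20 (t u : F) : xg 20 u * xg 19 t = xg 19 t * xg 20 u * ((chevD4.commWord F 19 20 t u).map fun p => xg p.1 p.2).prod := by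
  rw [ChevalleyDatum.commWord, ct_19_20]
  simp only [List.map_cons, List.map_nil, List.prod_cons, List.prod_nil]
  apply Units.ext
  simp only [Units.val_mul, xg_val, Units.val_one]
  apply mat_ext_mulVec
  intro v
  simp only [← Matrix.mulVec_mulVec, Matrix.one_mulVec, xm_mulVec_19, xm_mulVec_20]
  funext i; fin_cases i <;> simp <;> ring
theorem ct_19_21 : chevD4.commTerms 19 21 = [] := by decide
theorem rel_19_21 (t u : F) : xg 21 u * xg 19 t = xg 19 t * xg 21 u * ((chevD4.commWord F 19 21 t u).map fun p => xg p.1 p.2).prod := by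
  rw [ChevalleyDatum.commWord, ct_19_21]
  simp only [List.map_cons, List.map_nil, List.prod_cons, List.prod_nil]
  apply Units.ext
  simp only [Units.val_mul, xg_val, Units.val_one]
  apply mat_ext_mulVec
  intro v
  simp only [← Matrix.mulVec_mulVec, Matrix.one_mulVec, xm_mulVec_19, xm_mulVec_21]
  funext i; fin_cases i <;> simp <;> ring
theorem ct_19_22 : chevD4.commTerms 19 22 = [] := by decide
theorem rel_19_22 (t u : F) : xg 22 u * xg 19 t = xg 19 t * xg 22 u * ((chevD4.commWord F 19 22 t u).map fun p => xg p.1 p.2).prod := by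
  rw [ChevalleyDatum.commWord, ct_19_22]
  simp only [List.map_cons, List.map_nil, List.prod_cons, List.prod_nil]
  apply Units.ext
  simp only [Units.val_mul, xg_val, Units.val_one]
  apply mat_ext_mulVec
  intro v
  simp only [← Matrix.mulVec_mulVec, Matrix.one_mulVec, xm_mulVec_19, xm_mulVec_22]
  funext i; fin_cases i <;> simp <;> ring
theorem ct_19_23 : chevD4.commTerms 19 23 = [] := by decide
theorem rel_19_23 (t u : F) : xg 23 u * xg 19 t = xg 19 t * xg 23 u * ((chevD4.commWord F 19 23 t u).map fun p => xg p.1 p.2).prod := by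
  rw [ChevalleyDatum.commWord, ct_19_23]
  simp only [List.map_cons, List.map_nil, List.prod_cons, List.prod_nil]
  apply Units.ext
  simp only [Units.val_mul, xg_val, Units.val_one]
  apply mat_ext_mulVec
  intro v
  simp only [← Matrix.mulVec_mulVec, Matrix.one_mulVec, xm_mulVec_19, xm_mulVec_23]
  funext i; fin_cases i <;> simp <;> ring
theorem ct_20_0 : chevD4.commTerms 20 0 = [(7, -1, 1, 1)] := by decide
theorem rel_20_0 (t u : F) : xg 0 u * xg 20 t = xg 20 t * xg 0 u * ((chevD4.commWord F 20 0 t u).map fun p => xg p.1 p.2).prod := by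
  rw [ChevalleyDatum.commWord, ct_20_0]
  simp only [List.map_cons, List.map_nil, List.prod_cons, List.prod_nil]
  apply Units.ext
  simp only [Units.val_mul, xg_val, Units.val_one]
  apply mat_ext_mulVec
  intro v
  simp only [← Matrix.mulVec_mulVec, Matrix.one_mulVec, xm_mulVec_0, xm_mulVec_7, xm_mulVec_20]
  funext i; fin_cases i <;> simp <;> ring
theorem ct_20_1 : chevD4.commTerms 20 1 = [(10, 1, 1, 1)] := by decide
theorem rel_20_1 (t u : F) : xg 1 u * xg 20 t = xg 20 t * xg 1 u * ((chevD4.commWord F 20 1 t u).map fun p => xg p.1 p.2).prod := by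
  rw [ChevalleyDatum.commWord, ct_20_1]
  simp only [List.map_cons, List.map_nil, List.prod_cons, List.prod_nil]
  apply Units.ext
  simp only [Units.val_mul, xg_val, Units.val_one]
  apply mat_ext_mulVec
  intro v
  simp only [← Matrix.mulVec_mulVec, Matrix.one_mulVec, xm_mulVec_1, xm_mulVec_10, xm_mulVec_20]
  funext i; fin_cases i <;> simp <;> ring
theorem ct_20_2 : chevD4.commTerms 20 2 = [] := by decide
theorem rel_20_2 (t u : F) : xg 2 u * xg 20 t = xg 20 t * xg 2 u * ((chevD4.commWord F 20 2 t u).map fun p => xg p.1 p.2).prod := by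
  rw [ChevalleyDatum.commWord, ct_20_2]
  simp only [List.map_cons, List.map_nil, List.prod_cons, List.prod_nil]
  apply Units.ext
  simp only [Units.val_mul, xg_val, Units.val_one]
  apply mat_ext_mulVec
  intro v
  simp only [← Matrix.mulVec_mulVec, Matrix.one_mulVec, xm_mulVec_2, xm_mulVec_20]
  funext i; fin_cases i <;> simp <;> ring
theorem ct_20_4 : chevD4.commTerms 20 4 = [(12, 1, 1, 1)] := by decide
theorem rel_20_4 (t u : F) : xg 4 u * xg 20 t = xg 20 t * xg 4 u * ((chevD4.commWord F 20 4 t u).map fun p => xg p.1 p.2).prod := by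
  rw [ChevalleyDatum.commWord, ct_20_4]
  simp only [List.map_cons, List.map_nil, List.prod_cons, List.prod_nil]
  apply Units.ext
  simp only [Units.val_mul, xg_val, Units.val_one]
  apply mat_ext_mulVec
  intro v
  simp only [← Matrix.mulVec_mulVec, Matrix.one_mulVec, xm_mulVec_4, xm_mulVec_12, xm_mulVec_20]
  funext i; fin_cases i <;> simp <;> ring
theorem ct_20_5 : chevD4.commTerms 20 5 = [(15, 1, 1, 1)] := by decide
theorem rel_20_5 (t u : F) : xg 5 u * xg 20 t = xg 20 t * xg 5 u * ((chevD4.commWord F 20 5 t u).map fun p => xg p.1 p.2).prod := by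
  rw [ChevalleyDatum.commWord, ct_20_5]
  simp only [List.map_cons, List.map_nil, List.prod_cons, List.prod_nil]
  apply Units.ext
  simp only [Units.val_mul, xg_val, Units.val_one]
  apply mat_ext_mulVec
  intro v
  simp only [← Matrix.mulVec_mulVec, Matrix.one_mulVec, xm_mulVec_5, xm_mulVec_15, xm_mulVec_20]
  funext i; fin_cases i <;> simp <;> ring
theorem ct_20_6 : chevD4.commTerms 20 6 = [] := by decide
theorem rel_20_6 (t u : F) : xg 6 u * xg 20 t = xg 20 t * xg 6 u * ((chevD4.commWord F 20 6 t u).map fun p => xg p.1 p.2).prod := by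
  rw [ChevalleyDatum.commWord, ct_20_6]
  simp only [List.map_cons, List.map_nil, List.prod_cons, List.prod_nil]
  apply Units.ext
  simp only [Units.val_mul, xg_val, Units.val_one]
  apply mat_ext_mulVec
  intro v
  simp only [← Matrix.mulVec_mulVec, Matrix.one_mulVec, xm_mulVec_6, xm_mulVec_20]
  funext i; fin_cases i <;> simp <;> ring
theorem ct_20_7 : chevD4.commTerms 20 7 = [] := by decide
theorem rel_20_7 (t u : F) : xg 7 u * xg 20 t = xg 20 t * xg 7 u * ((chevD4.commWord F 20 7 t u).map fun p => xg p.1 p.2).prod := by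
  rw [ChevalleyDatum.commWord, ct_20_7]
  simp only [List.map_cons, List.map_nil, List.prod_cons, List.prod_nil]
  apply Units.ext
  simp only [Units.val_mul, xg_val, Units.val_one]
  apply mat_ext_mulVec
  intro v
  simp only [← Matrix.mulVec_mulVec, Matrix.one_mulVec, xm_mulVec_7, xm_mulVec_20]
  funext i; fin_cases i <;> simp <;> ring
theorem ct_20_8 : chevD4.commTerms 20 8 = [(18, -1, 1, 1)] := by decide
theorem rel_20_8 (t u : F) : xg 8 u * xg 20 t = xg 20 t * xg 8 u * ((chevD4.commWord F 20 8 t u).map fun p => xg p.1 p.2).prod := by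
  rw [ChevalleyDatum.commWord, ct_20_8]
  simp only [List.map_cons, List.map_nil, List.prod_cons, List.prod_nil]
  apply Units.ext
  simp only [Units.val_mul, xg_val, Units.val_one]
  apply mat_ext_mulVec
  intro v
  simp only [← Matrix.mulVec_mulVec, Matrix.one_mulVec, xm_mulVec_8, xm_mulVec_18, xm_mulVec_20]
  funext i; fin_cases i <;> simp <;> ring
theorem ct_20_9 : chevD4.commTerms 20 9 = [] := by decide
theorem rel_20_9 (t u : F) : xg 9 u * xg 20 t = xg 20 t * xg 9 u * ((chevD4.commWord F 20 9 t u).map fun p => xg p.1 p.2).prod := by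
  rw [ChevalleyDatum.commWord, ct_20_9]
  simp only [List.map_cons, List.map_nil, List.prod_cons, List.prod_nil]
  apply Units.ext
  simp only [Units.val_mul, xg_val, Units.val_one]
  apply mat_ext_mulVec
  intro v
  simp only [← Matrix.mulVec_mulVec, Matrix.one_mulVec, xm_mulVec_9, xm_mulVec_20]
  funext i; fin_cases i <;> simp <;> ring
theorem ct_20_10 : chevD4.commTerms 20 10 = [] := by decide
theorem rel_20_10 (t u : F) : xg 10 u * xg 20 t = xg 20 t * xg 10 u * ((chevD4.commWord F 20 10 t u).map fun p => xg p.1 p.2).prod := by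
  rw [ChevalleyDatum.commWord, ct_20_10]
  simp only [List.map_cons, List.map_nil, List.prod_cons, List.prod_nil]
  apply Units.ext
  simp only [Units.val_mul, xg_val, Units.val_one]
  apply mat_ext_mulVec
  intro v
  simp only [← Matrix.mulVec_mulVec, Matrix.one_mulVec, xm_mulVec_10, xm_mulVec_20]
  funext i; fin_cases i <;> simp <;> ring
theorem ct_20_11 : chevD4.commTerms 20 11 = [(19, -1, 1, 1)] := by decide
theorem rel_20_11 (t u : F) : xg 11 u * xg 20 t = xg 20 t * xg 11 u * ((chevD4.commWord F 20 11 t u).map fun p => xg p.1 p.2).prod := by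
  rw [ChevalleyDatum.commWord, ct_20_11]
  simp only [List.map_cons, List.map_nil, List.prod_cons, List.prod_nil]
  apply Units.ext
  simp only [Units.val_mul, xg_val, Units.val_one]
  apply mat_ext_mulVec
  intro v
  simp only [← Matrix.mulVec_mulVec, Matrix.one_mulVec, xm_mulVec_11, xm_mulVec_19, xm_mulVec_20]
  funext i; fin_cases i <;> simp <;> ring
theorem ct_20_12 : chevD4.commTerms 20 12 = [] := by decide
theorem rel_20_12 (t u : F) : xg 12 u * xg 20 t = xg 20 t * xg 12 u * ((chevD4.commWord F 20 12 t u).map fun p => xg p.1 p.2).prod := by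
  rw [ChevalleyDatum.commWord, ct_20_12]
  simp only [List.map_cons, List.map_nil, List.prod_cons, List.prod_nil]
  apply Units.ext
  simp only [Units.val_mul, xg_val, Units.val_one]
  apply mat_ext_mulVec
  intro v
  simp only [← Matrix.mulVec_mulVec, Matrix.one_mulVec, xm_mulVec_12, xm_mulVec_20]
  funext i; fin_cases i <;> simp <;> ring
theorem ct_20_13 : chevD4.commTerms 20 13 = [(22, -1, 1, 1)] := by decide
theorem rel_20_13 (t u : F) : xg 13 u * xg 20 t = xg 20 t * xg 13 u * ((chevD4.commWord F 20 13 t u).map fun p => xg p.1 p.2).prod := by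
  rw [ChevalleyDatum.commWord, ct_20_13]
  simp only [List.map_cons, List.map_nil, List.prod_cons, List.prod_nil]
  apply Units.ext
  simp only [Units.val_mul, xg_val, Units.val_one]
  apply mat_ext_mulVec
  intro v
  simp only [← Matrix.mulVec_mulVec, Matrix.one_mulVec, xm_mulVec_13, xm_mulVec_20, xm_mulVec_22]
  funext i; fin_cases i <;> simp <;> ring
theorem ct_20_14 : chevD4.commTerms 20 14 = [] := by decide
theorem rel_20_14 (t u : F) : xg 14 u * xg 20 t = xg 20 t * xg 14 u * ((chevD4.commWord F 20 14 t u).map fun p => xg p.1 p.2).prod := by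
  rw [ChevalleyDatum.commWord, ct_20_14]
  simp only [List.map_cons, List.map_nil, List.prod_cons, List.prod_nil]
  apply Units.ext
  simp only [Units.val_mul, xg_val, Units.val_one]
  apply mat_ext_mulVec
  intro v
  simp only [← Matrix.mulVec_mulVec, Matrix.one_mulVec, xm_mulVec_14, xm_mulVec_20]
  funext i; fin_cases i <;> simp <;> ring
theorem ct_20_15 : chevD4.commTerms 20 15 = [] := by decide
theorem rel_20_15 (t u : F) : xg 15 u * xg 20 t = xg 20 t * xg 15 u * ((chevD4.commWord F 20 15 t u).map fun p => xg p.1 p.2).prod := by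
  rw [ChevalleyDatum.commWord, ct_20_15]
  simp only [List.map_cons, List.map_nil, List.prod_cons, List.prod_nil]
  apply Units.ext
  simp only [Units.val_mul, xg_val, Units.val_one]
  apply mat_ext_mulVec
  intro v
  simp only [← Matrix.mulVec_mulVec, Matrix.one_mulVec, xm_mulVec_15, xm_mulVec_20]
  funext i; fin_cases i <;> simp <;> ring
theorem ct_20_16 : chevD4.commTerms 20 16 = [(23, 1, 1, 1)] := by decide
theorem rel_20_16 (t u : F) : xg 16 u * xg 20 t = xg 20 t * xg 16 u * ((chevD4.commWord F 20 16 t u).map fun p => xg p.1 p.2).prod := by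
  rw [ChevalleyDatum.commWord, ct_20_16]
  simp only [List.map_cons, List.map_nil, List.prod_cons, List.prod_nil]
  apply Units.ext
  simp only [Units.val_mul, xg_val, Units.val_one]
  apply mat_ext_mulVec
  intro v
  simp only [← Matrix.mulVec_mulVec, Matrix.one_mulVec, xm_mulVec_16, xm_mulVec_20, xm_mulVec_23]
  funext i; fin_cases i <;> simp <;> ring
theorem ct_20_17 : chevD4.commTerms 20 17 = [] := by decide
theorem rel_20_17 (t u : F) : xg 17 u * xg 20 t = xg 20 t * xg 17 u * ((chevD4.commWord F 20 17 t u).map fun p => xg p.1 p.2).prod := by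
  rw [ChevalleyDatum.commWord, ct_20_17]
  simp only [List.map_cons, List.map_nil, List.prod_cons, List.prod_nil]
  apply Units.ext
  simp only [Units.val_mul, xg_val, Units.val_one]
  apply mat_ext_mulVec
  intro v
  simp only [← Matrix.mulVec_mulVec, Matrix.one_mulVec, xm_mulVec_17, xm_mulVec_20]
  funext i; fin_cases i <;> simp <;> ring
theorem ct_20_18 : chevD4.commTerms 20 18 = [] := by decide
theorem rel_20_18 (t u : F) : xg 18 u * xg 20 t = xg 20 t * xg 18 u * ((chevD4.commWord F 20 18 t u).map fun p => xg p.1 p.2).prod := by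
  rw [ChevalleyDatum.commWord, ct_20_18]
  simp only [List.map_cons, List.map_nil, List.prod_cons, List.prod_nil]
  apply Units.ext
  simp only [Units.val_mul, xg_val, Units.val_one]
  apply mat_ext_mulVec
  intro v
  simp only [← Matrix.mulVec_mulVec, Matrix.one_mulVec, xm_mulVec_18, xm_mulVec_20]
  funext i; fin_cases i <;> simp <;> ring
theorem ct_20_19 : chevD4.commTerms 20 19 = [] := by decide
theorem rel_20_19 (t u : F) : xg 19 u * xg 20 t = xg 20 t * xg 19 u * ((chevD4.commWord F 20 19 t u).map fun p => xg p.1 p.2).prod := by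
  rw [ChevalleyDatum.commWord, ct_20_19]
  simp only [List.map_cons, List.map_nil, List.prod_cons, List.prod_nil]
  apply Units.ext
  simp only [Units.val_mul, xg_val, Units.val_one]
  apply mat_ext_mulVec
  intro v
  simp only [← Matrix.mulVec_mulVec, Matrix.one_mulVec, xm_mulVec_19, xm_mulVec_20]
  funext i; fin_cases i <;> simp <;> ring
theorem ct_20_21 : chevD4.commTerms 20 21 = [] := by decide
theorem rel_20_21 (t u : F) : xg 21 u * xg 20 t = xg 20 t * xg 21 u * ((chevD4.commWord F 20 21 t u).map fun p => xg p.1 p.2).prod := by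
  rw [ChevalleyDatum.commWord, ct_20_21]
  simp only [List.map_cons, List.map_nil, List.prod_cons, List.prod_nil]
  apply Units.ext
  simp only [Units.val_mul, xg_val, Units.val_one]
  apply mat_ext_mulVec
  intro v
  simp only [← Matrix.mulVec_mulVec, Matrix.one_mulVec, xm_mulVec_20, xm_mulVec_21]
  funext i; fin_cases i <;> simp <;> ring
theorem ct_20_22 : chevD4.commTerms 20 22 = [] := by decide
theorem rel_20_22 (t u : F) : xg 22 u * xg 20 t = xg 20 t * xg 22 u * ((chevD4.commWord F 20 22 t u).map fun p => xg p.1 p.2).prod := by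
  rw [ChevalleyDatum.commWord, ct_20_22]
  simp only [List.map_cons, List.map_nil, List.prod_cons, List.prod_nil]
  apply Units.ext
  simp only [Units.val_mul, xg_val, Units.val_one]
  apply mat_ext_mulVec
  intro v
  simp only [← Matrix.mulVec_mulVec, Matrix.one_mulVec, xm_mulVec_20, xm_mulVec_22]
  funext i; fin_cases i <;> simp <;> ring
theorem ct_20_23 : chevD4.commTerms 20 23 = [] := by decide
theorem rel_20_23 (t u : F) : xg 23 u * xg 20 t = xg 20 t * xg 23 u * ((chevD4.commWord F 20 23 t u).map fun p => xg p.1 p.2).prod := by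
  rw [ChevalleyDatum.commWord, ct_20_23]
  simp only [List.map_cons, List.map_nil, List.prod_cons, List.prod_nil]
  apply Units.ext
  simp only [Units.val_mul, xg_val, Units.val_one]
  apply mat_ext_mulVec
  intro v
  simp only [← Matrix.mulVec_mulVec, Matrix.one_mulVec, xm_mulVec_20, xm_mulVec_23]
  funext i; fin_cases i <;> simp <;> ring

end Cfsg.Agent.Helper17.D4
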