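-- helper17: Steinberg's commutator relations for the explicit root elements of O_8^+ (S1082); machine generated.
import Cfsg.Agent.Helper17.D4Defs

set_option autoImplicit false
set_option linter.unusedSimpArgs false
set_option linter.unnecessarySeqFocus false
open Matrix Cfsg Cfsg.Lie

namespace Cfsg.Agent.Helper17.D4

variable {F : Type*} [Field F]

theorem ct_21_0 : chevD4.commTerms 21 0 = [(8, -1, 1, 1)] := by decide
theorem rel_21_0 (t u : F) : xg 0 u * xg 21 t = xg 21 t * xg 0 u * ((chevD4.commWord F 21 0 t u).map fun p => xg p.1 p.2).prod := by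
  rw [ChevalleyDatum.commWord, ct_21_0]
  simp only [List.map_cons, List.map_nil, List.prod_cons, List.prod_nil]
  apply Units.ext
  simp only [Units.val_mul, xg_val, Units.val_one]
  apply mat_ext_mulVec
  intro v
  simp only [← Matrix.mulVec_mulVec, Matrix.one_mulVec, xm_mulVec_0, xm_mulVec_8, xm_mulVec_21]
  funext i; fin_cases i <;> simp <;> ring
theorem ct_21_1 : chevD4.commTerms 21 1 = [(11, 1, 1, 1)] := by decide
theorem rel_21_1 (t u : F) : xg 1 u * xg 21 t = xg 21 t * xg 1 u * ((chevD4.commWord F 21 1 t u).map fun p => xg p.1 p.2).prod := by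
  rw [ChevalleyDatum.commWord, ct_21_1]
  simp only [List.map_cons, List.map_nil, List.prod_cons, List.prod_nil]
  apply Units.ext
  simp only [Units.val_mul, xg_val, Units.val_one]
  apply mat_ext_mulVec
  intro v
  simp only [← Matrix.mulVec_mulVec, Matrix.one_mulVec, xm_mulVec_1, xm_mulVec_11, xm_mulVec_21]
  funext i; fin_cases i <;> simp <;> ring
theorem ct_21_3 : chevD4.commTerms 21 3 = [] := by decide
theorem rel_21_3 (t u : F) : xg 3 u * xg 21 t = xg 21 t * xg 3 u * ((chevD4.commWord F 21 3 t u).map fun p => xg p.1 p.2).prod := by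
  rw [ChevalleyDatum.commWord, ct_21_3]
  simp only [List.map_cons, List.map_nil, List.prod_cons, List.prod_nil]
  apply Units.ext
  simp only [Units.val_mul, xg_val, Units.val_one]
  apply mat_ext_mulVec
  intro v
  simp only [← Matrix.mulVec_mulVec, Matrix.one_mulVec, xm_mulVec_3, xm_mulVec_21]
  funext i; fin_cases i <;> simp <;> ring
theorem ct_21_4 : chevD4.commTerms 21 4 = [(13, 1, 1, 1)] := by decide
theorem rel_21_4 (t u : F) : xg 4 u * xg 21 t = xg 21 t * xg 4 u * ((chevD4.commWord F 21 4 t u).map fun p => xg p.1 p.2).prod := by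
  rw [ChevalleyDatum.commWord, ct_21_4]
  simp only [List.map_cons, List.map_nil, List.prod_cons, List.prod_nil]
  apply Units.ext
  simp only [Units.val_mul, xg_val, Units.val_one]
  apply mat_ext_mulVec
  intro v
  simp only [← Matrix.mulVec_mulVec, Matrix.one_mulVec, xm_mulVec_4, xm_mulVec_13, xm_mulVec_21]
  funext i; fin_cases i <;> simp <;> ring
theorem ct_21_5 : chevD4.commTerms 21 5 = [(16, 1, 1, 1)] := by decide
theorem rel_21_5 (t u : F) : xg 5 u * xg 21 t = xg 21 t * xg 5 u * ((chevD4.commWord F 21 5 t u).map fun p => xg p.1 p.2).prod := by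
  rw [ChevalleyDatum.commWord, ct_21_5]
  simp only [List.map_cons, List.map_nil, List.prod_cons, List.prod_nil]
  apply Units.ext
  simp only [Units.val_mul, xg_val, Units.val_one]
  apply mat_ext_mulVec
  intro v
  simp only [← Matrix.mulVec_mulVec, Matrix.one_mulVec, xm_mulVec_5, xm_mulVec_16, xm_mulVec_21]
  funext i; fin_cases i <;> simp <;> ring
theorem ct_21_6 : chevD4.commTerms 21 6 = [] := by decide
theorem rel_21_6 (t u : F) : xg 6 u * xg 21 t = xg 21 t * xg 6 u * ((chevD4.commWord F 21 6 t u).map fun p => xg p.1 p.2).prod := by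
  rw [ChevalleyDatum.commWord, ct_21_6]
  simp only [List.map_cons, List.map_nil, List.prod_cons, List.prod_nil]
  apply Units.ext
  simp only [Units.val_mul, xg_val, Units.val_one]
  apply mat_ext_mulVec
  intro v
  simp only [← Matrix.mulVec_mulVec, Matrix.one_mulVec, xm_mulVec_6, xm_mulVec_21]
  funext i; fin_cases i <;> simp <;> ring
theorem ct_21_7 : chevD4.commTerms 21 7 = [(18, -1, 1, 1)] := by decide
theorem rel_21_7 (t u : F) : xg 7 u * xg 21 t = xg 21 t * xg 7 u * ((chevD4.commWord F 21 7 t u).map fun p => xg p.1 p.2).prod := by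
  rw [ChevalleyDatum.commWord, ct_21_7]
  simp only [List.map_cons, List.map_nil, List.prod_cons, List.prod_nil]
  apply Units.ext
  simp only [Units.val_mul, xg_val, Units.val_one]
  apply mat_ext_mulVec
  intro v
  simp only [← Matrix.mulVec_mulVec, Matrix.one_mulVec, xm_mulVec_7, xm_mulVec_18, xm_mulVec_21]
  funext i; fin_cases i <;> simp <;> ring
theorem ct_21_8 : chevD4.commTerms 21 8 = [] := by decide
theorem rel_21_8 (t u : F) : xg 8 u * xg 21 t = xg 21 t * xg 8 u * ((chevD4.commWord F 21 8 t u).map fun p => xg p.1 p.2).prod := by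
  rw [ChevalleyDatum.commWord, ct_21_8]
  simp only [List.map_cons, List.map_nil, List.prod_cons, List.prod_nil]
  apply Units.ext
  simp only [Units.val_mul, xg_val, Units.val_one]
  apply mat_ext_mulVec
  intro v
  simp only [← Matrix.mulVec_mulVec, Matrix.one_mulVec, xm_mulVec_8, xm_mulVec_21]
  funext i; fin_cases i <;> simp <;> ring
theorem ct_21_9 : chevD4.commTerms 21 9 = [] := by decide
theorem rel_21_9 (t u : F) : xg 9 u * xg 21 t = xg 21 t * xg 9 u * ((chevD4.commWord F 21 9 t u).map fun p => xg p.1 p.2).prod := by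
  rw [ChevalleyDatum.commWord, ct_21_9]
  simp only [List.map_cons, List.map_nil, List.prod_cons, List.prod_nil]
  apply Units.ext
  simp only [Units.val_mul, xg_val, Units.val_one]
  apply mat_ext_mulVec
  intro v
  simp only [← Matrix.mulVec_mulVec, Matrix.one_mulVec, xm_mulVec_9, xm_mulVec_21]
  funext i; fin_cases i <;> simp <;> ring
theorem ct_21_10 : chevD4.commTerms 21 10 = [(19, -1, 1, 1)] := by decide
theorem rel_21_10 (t u : F) : xg 10 u * xg 21 t = xg 21 t * xg 10 u * ((chevD4.commWord F 21 10 t u).map fun p => xg p.1 p.2).prod := by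
  rw [ChevalleyDatum.commWord, ct_21_10]
  simp only [List.map_cons, List.map_nil, List.prod_cons, List.prod_nil]
  apply Units.ext
  simp only [Units.val_mul, xg_val, Units.val_one]
  apply mat_ext_mulVec
  intro v
  simp only [← Matrix.mulVec_mulVec, Matrix.one_mulVec, xm_mulVec_10, xm_mulVec_19, xm_mulVec_21]
  funext i; fin_cases i <;> simp <;> ring
theorem ct_21_11 : chevD4.commTerms 21 11 = [] := by decide
theorem rel_21_11 (t u : F) : xg 11 u * xg 21 t = xg 21 t * xg 11 u * ((chevD4.commWord F 21 11 t u).map fun p => xg p.1 p.2).prod := by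
  rw [ChevalleyDatum.commWord, ct_21_11]
  simp only [List.map_cons, List.map_nil, List.prod_cons, List.prod_nil]
  apply Units.ext
  simp only [Units.val_mul, xg_val, Units.val_one]
  apply mat_ext_mulVec
  intro v
  simp only [← Matrix.mulVec_mulVec, Matrix.one_mulVec, xm_mulVec_11, xm_mulVec_21]
  funext i; fin_cases i <;> simp <;> ring
theorem ct_21_12 : chevD4.commTerms 21 12 = [(22, -1, 1, 1)] := by decide
theorem rel_21_12 (t u : F) : xg 12 u * xg 21 t = xg 21 t * xg 12 u * ((chevD4.commWord F 21 12 t u).map fun p => xg p.1 p.2).prod := by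
  rw [ChevalleyDatum.commWord, ct_21_12]
  simp only [List.map_cons, List.map_nil, List.prod_cons, List.prod_nil]
  apply Units.ext
  simp only [Units.val_mul, xg_val, Units.val_one]
  apply mat_ext_mulVec
  intro v
  simp only [← Matrix.mulVec_mulVec, Matrix.one_mulVec, xm_mulVec_12, xm_mulVec_21, xm_mulVec_22]
  funext i; fin_cases i <;> simp <;> ring
theorem ct_21_13 : chevD4.commTerms 21 13 = [] := by decide
theorem rel_21_13 (t u : F) : xg 13 u * xg 21 t = xg 21 t * xg 13 u * ((chevD4.commWord F 21 13 t u).map fun p => xg p.1 p.2).prod := by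
  rw [ChevalleyDatum.commWord, ct_21_13]
  simp only [List.map_cons, List.map_nil, List.prod_cons, List.prod_nil]
  apply Units.ext
  simp only [Units.val_mul, xg_val, Units.val_one]
  apply mat_ext_mulVec
  intro v
  simp only [← Matrix.mulVec_mulVec, Matrix.one_mulVec, xm_mulVec_13, xm_mulVec_21]
  funext i; fin_cases i <;> simp <;> ring
theorem ct_21_14 : chevD4.commTerms 21 14 = [] := by decide
theorem rel_21_14 (t u : F) : xg 14 u * xg 21 t = xg 21 t * xg 14 u * ((chevD4.commWord F 21 14 t u).map fun p => xg p.1 p.2).prod := by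
  rw [ChevalleyDatum.commWord, ct_21_14]
  simp only [List.map_cons, List.map_nil, List.prod_cons, List.prod_nil]
  apply Units.ext
  simp only [Units.val_mul, xg_val, Units.val_one]
  apply mat_ext_mulVec
  intro v
  simp only [← Matrix.mulVec_mulVec, Matrix.one_mulVec, xm_mulVec_14, xm_mulVec_21]
  funext i; fin_cases i <;> simp <;> ring
theorem ct_21_15 : chevD4.commTerms 21 15 = [(23, 1, 1, 1)] := by decide
theorem rel_21_15 (t u : F) : xg 15 u * xg 21 t = xg 21 t * xg 15 u * ((chevD4.commWord F 21 15 t u).map fun p => xg p.1 p.2).prod := by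
  rw [ChevalleyDatum.commWord, ct_21_15]
  simp only [List.map_cons, List.map_nil, List.prod_cons, List.prod_nil]
  apply Units.ext
  simp only [Units.val_mul, xg_val, Units.val_one]
  apply mat_ext_mulVec
  intro v
  simp only [← Matrix.mulVec_mulVec, Matrix.one_mulVec, xm_mulVec_15, xm_mulVec_21, xm_mulVec_23]
  funext i; fin_cases i <;> simp <;> ring
theorem ct_21_16 : chevD4.commTerms 21 16 = [] := by decide
theorem rel_21_16 (t u : F) : xg 16 u * xg 21 t = xg 21 t * xg 16 u * ((chevD4.commWord F 21 16 t u).map fun p => xg p.1 p.2).prod := by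
  rw [ChevalleyDatum.commWord, ct_21_16]
  simp only [List.map_cons, List.map_nil, List.prod_cons, List.prod_nil]
  apply Units.ext
  simp only [Units.val_mul, xg_val, Units.val_one]
  apply mat_ext_mulVec
  intro v
  simp only [← Matrix.mulVec_mulVec, Matrix.one_mulVec, xm_mulVec_16, xm_mulVec_21]
  funext i; fin_cases i <;> simp <;> ring
theorem ct_21_17 : chevD4.commTerms 21 17 = [] := by decide
theorem rel_21_17 (t u : F) : xg 17 u * xg 21 t = xg 21 t * xg 17 u * ((chevD4.commWord F 21 17 t u).map fun p => xg p.1 p.2).prod := by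
  rw [ChevalleyDatum.commWord, ct_21_17]
  simp only [List.map_cons, List.map_nil, List.prod_cons, List.prod_nil]
  apply Units.ext
  simp only [Units.val_mul, xg_val, Units.val_one]
  apply mat_ext_mulVec
  intro v
  simp only [← Matrix.mulVec_mulVec, Matrix.one_mulVec, xm_mulVec_17, xm_mulVec_21]
  funext i; fin_cases i <;> simp <;> ring
theorem ct_21_18 : chevD4.commTerms 21 18 = [] := by decide
theorem rel_21_18 (t u : F) : xg 18 u * xg 21 t = xg 21 t * xg 18 u * ((chevD4.commWord F 21 18 t u).map fun p => xg p.1 p.2).prod := by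
  rw [ChevalleyDatum.commWord, ct_21_18]
  simp only [List.map_cons, List.map_nil, List.prod_cons, List.prod_nil]
  apply Units.ext
  simp only [Units.val_mul, xg_val, Units.val_one]
  apply mat_ext_mulVec
  intro v
  simp only [← Matrix.mulVec_mulVec, Matrix.one_mulVec, xm_mulVec_18, xm_mulVec_21]
  funext i; fin_cases i <;> simp <;> ring
theorem ct_21_19 : chevD4.commTerms 21 19 = [] := by decide
theorem rel_21_19 (t u : F) : xg 19 u * xg 21 t = xg 21 t * xg 19 u * ((chevD4.commWord F 21 19 t u).map fun p => xg p.1 p.2).prod := by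
  rw [ChevalleyDatum.commWord, ct_21_19]
  simp only [List.map_cons, List.map_nil, List.prod_cons, List.prod_nil]
  apply Units.ext
  simp only [Units.val_mul, xg_val, Units.val_one]
  apply mat_ext_mulVec
  intro v
  simp only [← Matrix.mulVec_mulVec, Matrix.one_mulVec, xm_mulVec_19, xm_mulVec_21]
  funext i; fin_cases i <;> simp <;> ring
theorem ct_21_20 : chevD4.commTerms 21 20 = [] := by decide
theorem rel_21_20 (t u : F) : xg 20 u * xg 21 t = xg 21 t * xg 20 u * ((chevD4.commWord F 21 20 t u).map fun p => xg p.1 p.2).prod := by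
  rw [ChevalleyDatum.commWord, ct_21_20]
  simp only [List.map_cons, List.map_nil, List.prod_cons, List.prod_nil]
  apply Units.ext
  simp only [Units.val_mul, xg_val, Units.val_one]
  apply mat_ext_mulVec
  intro v
  simp only [← Matrix.mulVec_mulVec, Matrix.one_mulVec, xm_mulVec_20, xm_mulVec_21]
  funext i; fin_cases i <;> simp <;> ring
theorem ct_21_22 : chevD4.commTerms 21 22 = [] := by decide
theorem rel_21_22 (t u : F) : xg 22 u * xg 21 t = xg 21 t * xg 22 u * ((chevD4.commWord F 21 22 t u).map fun p => xg p.1 p.2).prod := by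
  rw [ChevalleyDatum.commWord, ct_21_22]
  simp only [List.map_cons, List.map_nil, List.prod_cons, List.prod_nil]
  apply Units.ext
  simp only [Units.val_mul, xg_val, Units.val_one]
  apply mat_ext_mulVec
  intro v
  simp only [← Matrix.mulVec_mulVec, Matrix.one_mulVec, xm_mulVec_21, xm_mulVec_22]
  funext i; fin_cases i <;> simp <;> ring
theorem ct_21_23 : chevD4.commTerms 21 23 = [] := by decide
theorem rel_21_23 (t u : F) : xg 23 u * xg 21 t = xg 21 t * xg 23 u * ((chevD4.commWord F 21 23 t u).map fun p => xg p.1 p.2).prod := by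
  rw [ChevalleyDatum.commWord, ct_21_23]
  simp only [List.map_cons, List.map_nil, List.prod_cons, List.prod_nil]
  apply Units.ext
  simp only [Units.val_mul, xg_val, Units.val_one]
  apply mat_ext_mulVec
  intro v
  simp only [← Matrix.mulVec_mulVec, Matrix.one_mulVec, xm_mulVec_21, xm_mulVec_23]
  funext i; fin_cases i <;> simp <;> ring
theorem ct_22_0 : chevD4.commTerms 22 0 = [(9, 1, 1, 1)] := by decide
theorem rel_22_0 (t u : F) : xg 0 u * xg 22 t = xg 22 t * xg 0 u * ((chevD4.commWord F 22 0 t u).map fun p => xg p.1 p.2).prod := by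
  rw [ChevalleyDatum.commWord, ct_22_0]
  simp only [List.map_cons, List.map_nil, List.prod_cons, List.prod_nil]
  apply Units.ext
  simp only [Units.val_mul, xg_val, Units.val_one]
  apply mat_ext_mulVec
  intro v
  simp only [← Matrix.mulVec_mulVec, Matrix.one_mulVec, xm_mulVec_0, xm_mulVec_9, xm_mulVec_22]
  funext i; fin_cases i <;> simp <;> ring
theorem ct_22_2 : chevD4.commTerms 22 2 = [(12, 1, 1, 1)] := by decide
theorem rel_22_2 (t u : F) : xg 2 u * xg 22 t = xg 22 t * xg 2 u * ((chevD4.commWord F 22 2 t u).map fun p => xg p.1 p.2).prod := by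
  rw [ChevalleyDatum.commWord, ct_22_2]
  simp only [List.map_cons, List.map_nil, List.prod_cons, List.prod_nil]
  apply Units.ext
  simp only [Units.val_mul, xg_val, Units.val_one]
  apply mat_ext_mulVec
  intro v
  simp only [← Matrix.mulVec_mulVec, Matrix.one_mulVec, xm_mulVec_2, xm_mulVec_12, xm_mulVec_22]
  funext i; fin_cases i <;> simp <;> ring
theorem ct_22_3 : chevD4.commTerms 22 3 = [(13, 1, 1, 1)] := by decide
theorem rel_22_3 (t u : F) : xg 3 u * xg 22 t = xg 22 t * xg 3 u * ((chevD4.commWord F 22 3 t u).map fun p => xg p.1 p.2).prod := by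
  rw [ChevalleyDatum.commWord, ct_22_3]
  simp only [List.map_cons, List.map_nil, List.prod_cons, List.prod_nil]
  apply Units.ext
  simp only [Units.val_mul, xg_val, Units.val_one]
  apply mat_ext_mulVec
  intro v
  simp only [← Matrix.mulVec_mulVec, Matrix.one_mulVec, xm_mulVec_3, xm_mulVec_13, xm_mulVec_22]
  funext i; fin_cases i <;> simp <;> ring
theorem ct_22_4 : chevD4.commTerms 22 4 = [] := by decide
theorem rel_22_4 (t u : F) : xg 4 u * xg 22 t = xg 22 t * xg 4 u * ((chevD4.commWord F 22 4 t u).map fun p => xg p.1 p.2).prod := by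
  rw [ChevalleyDatum.commWord, ct_22_4]
  simp only [List.map_cons, List.map_nil, List.prod_cons, List.prod_nil]
  apply Units.ext
  simp only [Units.val_mul, xg_val, Units.val_one]
  apply mat_ext_mulVec
  intro v
  simp only [← Matrix.mulVec_mulVec, Matrix.one_mulVec, xm_mulVec_4, xm_mulVec_22]
  funext i; fin_cases i <;> simp <;> ring
theorem ct_22_5 : chevD4.commTerms 22 5 = [(17, 1, 1, 1)] := by decide
theorem rel_22_5 (t u : F) : xg 5 u * xg 22 t = xg 22 t * xg 5 u * ((chevD4.commWord F 22 5 t u).map fun p => xg p.1 p.2).prod := by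
  rw [ChevalleyDatum.commWord, ct_22_5]
  simp only [List.map_cons, List.map_nil, List.prod_cons, List.prod_nil]
  apply Units.ext
  simp only [Units.val_mul, xg_val, Units.val_one]
  apply mat_ext_mulVec
  intro v
  simp only [← Matrix.mulVec_mulVec, Matrix.one_mulVec, xm_mulVec_5, xm_mulVec_17, xm_mulVec_22]
  funext i; fin_cases i <;> simp <;> ring
theorem ct_22_6 : chevD4.commTerms 22 6 = [(18, -1, 1, 1)] := by decide
theorem rel_22_6 (t u : F) : xg 6 u * xg 22 t = xg 22 t * xg 6 u * ((chevD4.commWord F 22 6 t u).map fun p => xg p.1 p.2).prod := by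
  rw [ChevalleyDatum.commWord, ct_22_6]
  simp only [List.map_cons, List.map_nil, List.prod_cons, List.prod_nil]
  apply Units.ext
  simp only [Units.val_mul, xg_val, Units.val_one]
  apply mat_ext_mulVec
  intro v
  simp only [← Matrix.mulVec_mulVec, Matrix.one_mulVec, xm_mulVec_6, xm_mulVec_18, xm_mulVec_22]
  funext i; fin_cases i <;> simp <;> ring
theorem ct_22_7 : chevD4.commTerms 22 7 = [] := by decide
theorem rel_22_7 (t u : F) : xg 7 u * xg 22 t = xg 22 t * xg 7 u * ((chevD4.commWord F 22 7 t u).map fun p => xg p.1 p.2).prod := by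
  rw [ChevalleyDatum.commWord, ct_22_7]
  simp only [List.map_cons, List.map_nil, List.prod_cons, List.prod_nil]
  apply Units.ext
  simp only [Units.val_mul, xg_val, Units.val_one]
  apply mat_ext_mulVec
  intro v
  simp only [← Matrix.mulVec_mulVec, Matrix.one_mulVec, xm_mulVec_7, xm_mulVec_22]
  funext i; fin_cases i <;> simp <;> ring
theorem ct_22_8 : chevD4.commTerms 22 8 = [] := by decide
theorem rel_22_8 (t u : F) : xg 8 u * xg 22 t = xg 22 t * xg 8 u * ((chevD4.commWord F 22 8 t u).map fun p => xg p.1 p.2).prod := by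
  rw [ChevalleyDatum.commWord, ct_22_8]
  simp only [List.map_cons, List.map_nil, List.prod_cons, List.prod_nil]
  apply Units.ext
  simp only [Units.val_mul, xg_val, Units.val_one]
  apply mat_ext_mulVec
  intro v
  simp only [← Matrix.mulVec_mulVec, Matrix.one_mulVec, xm_mulVec_8, xm_mulVec_22]
  funext i; fin_cases i <;> simp <;> ring
theorem ct_22_9 : chevD4.commTerms 22 9 = [] := by decide
theorem rel_22_9 (t u : F) : xg 9 u * xg 22 t = xg 22 t * xg 9 u * ((chevD4.commWord F 22 9 t u).map fun p => xg p.1 p.2).prod := by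
  rw [ChevalleyDatum.commWord, ct_22_9]
  simp only [List.map_cons, List.map_nil, List.prod_cons, List.prod_nil]
  apply Units.ext
  simp only [Units.val_mul, xg_val, Units.val_one]
  apply mat_ext_mulVec
  intro v
  simp only [← Matrix.mulVec_mulVec, Matrix.one_mulVec, xm_mulVec_9, xm_mulVec_22]
  funext i; fin_cases i <;> simp <;> ring
theorem ct_22_10 : chevD4.commTerms 22 10 = [(20, -1, 1, 1)] := by decide
theorem rel_22_10 (t u : F) : xg 10 u * xg 22 t = xg 22 t * xg 10 u * ((chevD4.commWord F 22 10 t u).map fun p => xg p.1 p.2).prod := by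
  rw [ChevalleyDatum.commWord, ct_22_10]
  simp only [List.map_cons, List.map_nil, List.prod_cons, List.prod_nil]
  apply Units.ext
  simp only [Units.val_mul, xg_val, Units.val_one]
  apply mat_ext_mulVec
  intro v
  simp only [← Matrix.mulVec_mulVec, Matrix.one_mulVec, xm_mulVec_10, xm_mulVec_20, xm_mulVec_22]
  funext i; fin_cases i <;> simp <;> ring
theorem ct_22_11 : chevD4.commTerms 22 11 = [(21, -1, 1, 1)] := by decide
theorem rel_22_11 (t u : F) : xg 11 u * xg 22 t = xg 22 t * xg 11 u * ((chevD4.commWord F 22 11 t u).map fun p => xg p.1 p.2).prod := by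
  rw [ChevalleyDatum.commWord, ct_22_11]
  simp only [List.map_cons, List.map_nil, List.prod_cons, List.prod_nil]
  apply Units.ext
  simp only [Units.val_mul, xg_val, Units.val_one]
  apply mat_ext_mulVec
  intro v
  simp only [← Matrix.mulVec_mulVec, Matrix.one_mulVec, xm_mulVec_11, xm_mulVec_21, xm_mulVec_22]
  funext i; fin_cases i <;> simp <;> ring
theorem ct_22_12 : chevD4.commTerms 22 12 = [] := by decide
theorem rel_22_12 (t u : F) : xg 12 u * xg 22 t = xg 22 t * xg 12 u * ((chevD4.commWord F 22 12 t u).map fun p => xg p.1 p.2).prod := by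
  rw [ChevalleyDatum.commWord, ct_22_12]
  simp only [List.map_cons, List.map_nil, List.prod_cons, List.prod_nil]
  apply Units.ext
  simp only [Units.val_mul, xg_val, Units.val_one]
  apply mat_ext_mulVec
  intro v
  simp only [← Matrix.mulVec_mulVec, Matrix.one_mulVec, xm_mulVec_12, xm_mulVec_22]
  funext i; fin_cases i <;> simp <;> ring
theorem ct_22_13 : chevD4.commTerms 22 13 = [] := by decide
theorem rel_22_13 (t u : F) : xg 13 u * xg 22 t = xg 22 t * xg 13 u * ((chevD4.commWord F 22 13 t u).map fun p => xg p.1 p.2).prod := by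
  rw [ChevalleyDatum.commWord, ct_22_13]
  simp only [List.map_cons, List.map_nil, List.prod_cons, List.prod_nil]
  apply Units.ext
  simp only [Units.val_mul, xg_val, Units.val_one]
  apply mat_ext_mulVec
  intro v
  simp only [← Matrix.mulVec_mulVec, Matrix.one_mulVec, xm_mulVec_13, xm_mulVec_22]
  funext i; fin_cases i <;> simp <;> ring
theorem ct_22_14 : chevD4.commTerms 22 14 = [(23, -1, 1, 1)] := by decide
theorem rel_22_14 (t u : F) : xg 14 u * xg 22 t = xg 22 t * xg 14 u * ((chevD4.commWord F 22 14 t u).map fun p => xg p.1 p.2).prod := by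
  rw [ChevalleyDatum.commWord, ct_22_14]
  simp only [List.map_cons, List.map_nil, List.prod_cons, List.prod_nil]
  apply Units.ext
  simp only [Units.val_mul, xg_val, Units.val_one]
  apply mat_ext_mulVec
  intro v
  simp only [← Matrix.mulVec_mulVec, Matrix.one_mulVec, xm_mulVec_14, xm_mulVec_22, xm_mulVec_23]
  funext i; fin_cases i <;> simp <;> ring
theorem ct_22_15 : chevD4.commTerms 22 15 = [] := by decide
theorem rel_22_15 (t u : F) : xg 15 u * xg 22 t = xg 22 t * xg 15 u * ((chevD4.commWord F 22 15 t u).map fun p => xg p.1 p.2).prod := by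
  rw [ChevalleyDatum.commWord, ct_22_15]
  simp only [List.map_cons, List.map_nil, List.prod_cons, List.prod_nil]
  apply Units.ext
  simp only [Units.val_mul, xg_val, Units.val_one]
  apply mat_ext_mulVec
  intro v
  simp only [← Matrix.mulVec_mulVec, Matrix.one_mulVec, xm_mulVec_15, xm_mulVec_22]
  funext i; fin_cases i <;> simp <;> ring
theorem ct_22_16 : chevD4.commTerms 22 16 = [] := by decide
theorem rel_22_16 (t u : F) : xg 16 u * xg 22 t = xg 22 t * xg 16 u * ((chevD4.commWord F 22 16 t u).map fun p => xg p.1 p.2).prod := by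
  rw [ChevalleyDatum.commWord, ct_22_16]
  simp only [List.map_cons, List.map_nil, List.prod_cons, List.prod_nil]
  apply Units.ext
  simp only [Units.val_mul, xg_val, Units.val_one]
  apply mat_ext_mulVec
  intro v
  simp only [← Matrix.mulVec_mulVec, Matrix.one_mulVec, xm_mulVec_16, xm_mulVec_22]
  funext i; fin_cases i <;> simp <;> ring
theorem ct_22_17 : chevD4.commTerms 22 17 = [] := by decide
theorem rel_22_17 (t u : F) : xg 17 u * xg 22 t = xg 22 t * xg 17 u * ((chevD4.commWord F 22 17 t u).map fun p => xg p.1 p.2).prod := by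
  rw [ChevalleyDatum.commWord, ct_22_17]
  simp only [List.map_cons, List.map_nil, List.prod_cons, List.prod_nil]
  apply Units.ext
  simp only [Units.val_mul, xg_val, Units.val_one]
  apply mat_ext_mulVec
  intro v
  simp only [← Matrix.mulVec_mulVec, Matrix.one_mulVec, xm_mulVec_17, xm_mulVec_22]
  funext i; fin_cases i <;> simp <;> ring
theorem ct_22_18 : chevD4.commTerms 22 18 = [] := by decide
theorem rel_22_18 (t u : F) : xg 18 u * xg 22 t = xg 22 t * xg 18 u * ((chevD4.commWord F 22 18 t u).map fun p => xg p.1 p.2).prod := by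
  rw [ChevalleyDatum.commWord, ct_22_18]
  simp only [List.map_cons, List.map_nil, List.prod_cons, List.prod_nil]
  apply Units.ext
  simp only [Units.val_mul, xg_val, Units.val_one]
  apply mat_ext_mulVec
  intro v
  simp only [← Matrix.mulVec_mulVec, Matrix.one_mulVec, xm_mulVec_18, xm_mulVec_22]
  funext i; fin_cases i <;> simp <;> ring
theorem ct_22_19 : chevD4.commTerms 22 19 = [] := by decide
theorem rel_22_19 (t u : F) : xg 19 u * xg 22 t = xg 22 t * xg 19 u * ((chevD4.commWord F 22 19 t u).map fun p => xg p.1 p.2).prod := by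
  rw [ChevalleyDatum.commWord, ct_22_19]
  simp only [List.map_cons, List.map_nil, List.prod_cons, List.prod_nil]
  apply Units.ext
  simp only [Units.val_mul, xg_val, Units.val_one]
  apply mat_ext_mulVec
  intro v
  simp only [← Matrix.mulVec_mulVec, Matrix.one_mulVec, xm_mulVec_19, xm_mulVec_22]
  funext i; fin_cases i <;> simp <;> ring
theorem ct_22_20 : chevD4.commTerms 22 20 = [] := by decide
theorem rel_22_20 (t u : F) : xg 20 u * xg 22 t = xg 22 t * xg 20 u * ((chevD4.commWord F 22 20 t u).map fun p => xg p.1 p.2).prod := by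
  rw [ChevalleyDatum.commWord, ct_22_20]
  simp only [List.map_cons, List.map_nil, List.prod_cons, List.prod_nil]
  apply Units.ext
  simp only [Units.val_mul, xg_val, Units.val_one]
  apply mat_ext_mulVec
  intro v
  simp only [← Matrix.mulVec_mulVec, Matrix.one_mulVec, xm_mulVec_20, xm_mulVec_22]
  funext i; fin_cases i <;> simp <;> ring
theorem ct_22_21 : chevD4.commTerms 22 21 = [] := by decide
theorem rel_22_21 (t u : F) : xg 21 u * xg 22 t = xg 22 t * xg 21 u * ((chevD4.commWord F 22 21 t u).map fun p => xg p.1 p.2).prod := by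
  rw [ChevalleyDatum.commWord, ct_22_21]
  simp only [List.map_cons, List.map_nil, List.prod_cons, List.prod_nil]
  apply Units.ext
  simp only [Units.val_mul, xg_val, Units.val_one]
  apply mat_ext_mulVec
  intro v
  simp only [← Matrix.mulVec_mulVec, Matrix.one_mulVec, xm_mulVec_21, xm_mulVec_22]
  funext i; fin_cases i <;> simp <;> ring
theorem ct_22_23 : chevD4.commTerms 22 23 = [] := by decide
theorem rel_22_23 (t u : F) : xg 23 u * xg 22 t = xg 22 t * xg 23 u * ((chevD4.commWord F 22 23 t u).map fun p => xg p.1 p.2).prod := by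
  rw [ChevalleyDatum.commWord, ct_22_23]
  simp only [List.map_cons, List.map_nil, List.prod_cons, List.prod_nil]
  apply Units.ext
  simp only [Units.val_mul, xg_val, Units.val_one]
  apply mat_ext_mulVec
  intro v
  simp only [← Matrix.mulVec_mulVec, Matrix.one_mulVec, xm_mulVec_22, xm_mulVec_23]
  funext i; fin_cases i <;> simp <;> ring
theorem ct_23_1 : chevD4.commTerms 23 1 = [(14, 1, 1, 1)] := by decide
theorem rel_23_1 (t u : F) : xg 1 u * xg 23 t = xg 23 t * xg 1 u * ((chevD4.commWord F 23 1 t u).map fun p => xg p.1 p.2).prod := by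
  rw [ChevalleyDatum.commWord, ct_23_1]
  simp only [List.map_cons, List.map_nil, List.prod_cons, List.prod_nil]
  apply Units.ext
  simp only [Units.val_mul, xg_val, Units.val_one]
  apply mat_ext_mulVec
  intro v
  simp only [← Matrix.mulVec_mulVec, Matrix.one_mulVec, xm_mulVec_1, xm_mulVec_14, xm_mulVec_23]
  funext i; fin_cases i <;> simp <;> ring
theorem ct_23_2 : chevD4.commTerms 23 2 = [(15, -1, 1, 1)] := by decide
theorem rel_23_2 (t u : F) : xg 2 u * xg 23 t = xg 23 t * xg 2 u * ((chevD4.commWord F 23 2 t u).map fun p => xg p.1 p.2).prod := by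
  rw [ChevalleyDatum.commWord, ct_23_2]
  simp only [List.map_cons, List.map_nil, List.prod_cons, List.prod_nil]
  apply Units.ext
  simp only [Units.val_mul, xg_val, Units.val_one]
  apply mat_ext_mulVec
  intro v
  simp only [← Matrix.mulVec_mulVec, Matrix.one_mulVec, xm_mulVec_2, xm_mulVec_15, xm_mulVec_23]
  funext i; fin_cases i <;> simp <;> ring
theorem ct_23_3 : chevD4.commTerms 23 3 = [(16, -1, 1, 1)] := by decide
theorem rel_23_3 (t u : F) : xg 3 u * xg 23 t = xg 23 t * xg 3 u * ((chevD4.commWord F 23 3 t u).map fun p => xg p.1 p.2).prod := by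
  rw [ChevalleyDatum.commWord, ct_23_3]
  simp only [List.map_cons, List.map_nil, List.prod_cons, List.prod_nil]
  apply Units.ext
  simp only [Units.val_mul, xg_val, Units.val_one]
  apply mat_ext_mulVec
  intro v
  simp only [← Matrix.mulVec_mulVec, Matrix.one_mulVec, xm_mulVec_3, xm_mulVec_16, xm_mulVec_23]
  funext i; fin_cases i <;> simp <;> ring
theorem ct_23_4 : chevD4.commTerms 23 4 = [(17, 1, 1, 1)] := by decide
theorem rel_23_4 (t u : F) : xg 4 u * xg 23 t = xg 23 t * xg 4 u * ((chevD4.commWord F 23 4 t u).map fun p => xg p.1 p.2).prod := by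
  rw [ChevalleyDatum.commWord, ct_23_4]
  simp only [List.map_cons, List.map_nil, List.prod_cons, List.prod_nil]
  apply Units.ext
  simp only [Units.val_mul, xg_val, Units.val_one]
  apply mat_ext_mulVec
  intro v
  simp only [← Matrix.mulVec_mulVec, Matrix.one_mulVec, xm_mulVec_4, xm_mulVec_17, xm_mulVec_23]
  funext i; fin_cases i <;> simp <;> ring
theorem ct_23_5 : chevD4.commTerms 23 5 = [] := by decide
theorem rel_23_5 (t u : F) : xg 5 u * xg 23 t = xg 23 t * xg 5 u * ((chevD4.commWord F 23 5 t u).map fun p => xg p.1 p.2).prod := by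
  rw [ChevalleyDatum.commWord, ct_23_5]
  simp only [List.map_cons, List.map_nil, List.prod_cons, List.prod_nil]
  apply Units.ext
  simp only [Units.val_mul, xg_val, Units.val_one]
  apply mat_ext_mulVec
  intro v
  simp only [← Matrix.mulVec_mulVec, Matrix.one_mulVec, xm_mulVec_5, xm_mulVec_23]
  funext i; fin_cases i <;> simp <;> ring
theorem ct_23_6 : chevD4.commTerms 23 6 = [(19, -1, 1, 1)] := by decide
theorem rel_23_6 (t u : F) : xg 6 u * xg 23 t = xg 23 t * xg 6 u * ((chevD4.commWord F 23 6 t u).map fun p => xg p.1 p.2).prod := by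
  rw [ChevalleyDatum.commWord, ct_23_6]
  simp only [List.map_cons, List.map_nil, List.prod_cons, List.prod_nil]
  apply Units.ext
  simp only [Units.val_mul, xg_val, Units.val_one]
  apply mat_ext_mulVec
  intro v
  simp only [← Matrix.mulVec_mulVec, Matrix.one_mulVec, xm_mulVec_6, xm_mulVec_19, xm_mulVec_23]
  funext i; fin_cases i <;> simp <;> ring
theorem ct_23_7 : chevD4.commTerms 23 7 = [(20, 1, 1, 1)] := by decide
theorem rel_23_7 (t u : F) : xg 7 u * xg 23 t = xg 23 t * xg 7 u * ((chevD4.commWord F 23 7 t u).map fun p => xg p.1 p.2).prod := by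
  rw [ChevalleyDatum.commWord, ct_23_7]
  simp only [List.map_cons, List.map_nil, List.prod_cons, List.prod_nil]
  apply Units.ext
  simp only [Units.val_mul, xg_val, Units.val_one]
  apply mat_ext_mulVec
  intro v
  simp only [← Matrix.mulVec_mulVec, Matrix.one_mulVec, xm_mulVec_7, xm_mulVec_20, xm_mulVec_23]
  funext i; fin_cases i <;> simp <;> ring
theorem ct_23_8 : chevD4.commTerms 23 8 = [(21, 1, 1, 1)] := by decide
theorem rel_23_8 (t u : F) : xg 8 u * xg 23 t = xg 23 t * xg 8 u * ((chevD4.commWord F 23 8 t u).map fun p => xg p.1 p.2).prod := by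
  rw [ChevalleyDatum.commWord, ct_23_8]
  simp only [List.map_cons, List.map_nil, List.prod_cons, List.prod_nil]
  apply Units.ext
  simp only [Units.val_mul, xg_val, Units.val_one]
  apply mat_ext_mulVec
  intro v
  simp only [← Matrix.mulVec_mulVec, Matrix.one_mulVec, xm_mulVec_8, xm_mulVec_21, xm_mulVec_23]
  funext i; fin_cases i <;> simp <;> ring
theorem ct_23_9 : chevD4.commTerms 23 9 = [(22, -1, 1, 1)] := by decide
theorem rel_23_9 (t u : F) : xg 9 u * xg 23 t = xg 23 t * xg 9 u * ((chevD4.commWord F 23 9 t u).map fun p => xg p.1 p.2).prod := by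
  rw [ChevalleyDatum.commWord, ct_23_9]
  simp only [List.map_cons, List.map_nil, List.prod_cons, List.prod_nil]
  apply Units.ext
  simp only [Units.val_mul, xg_val, Units.val_one]
  apply mat_ext_mulVec
  intro v
  simp only [← Matrix.mulVec_mulVec, Matrix.one_mulVec, xm_mulVec_9, xm_mulVec_22, xm_mulVec_23]
  funext i; fin_cases i <;> simp <;> ring
theorem ct_23_10 : chevD4.commTerms 23 10 = [] := by decide
theorem rel_23_10 (t u : F) : xg 10 u * xg 23 t = xg 23 t * xg 10 u * ((chevD4.commWord F 23 10 t u).map fun p => xg p.1 p.2).prod := by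
  rw [ChevalleyDatum.commWord, ct_23_10]
  simp only [List.map_cons, List.map_nil, List.prod_cons, List.prod_nil]
  apply Units.ext
  simp only [Units.val_mul, xg_val, Units.val_one]
  apply mat_ext_mulVec
  intro v
  simp only [← Matrix.mulVec_mulVec, Matrix.one_mulVec, xm_mulVec_10, xm_mulVec_23]
  funext i; fin_cases i <;> simp <;> ring
theorem ct_23_11 : chevD4.commTerms 23 11 = [] := by decide
theorem rel_23_11 (t u : F) : xg 11 u * xg 23 t = xg 23 t * xg 11 u * ((chevD4.commWord F 23 11 t u).map fun p => xg p.1 p.2).prod := by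
  rw [ChevalleyDatum.commWord, ct_23_11]
  simp only [List.map_cons, List.map_nil, List.prod_cons, List.prod_nil]
  apply Units.ext
  simp only [Units.val_mul, xg_val, Units.val_one]
  apply mat_ext_mulVec
  intro v
  simp only [← Matrix.mulVec_mulVec, Matrix.one_mulVec, xm_mulVec_11, xm_mulVec_23]
  funext i; fin_cases i <;> simp <;> ring
theorem ct_23_12 : chevD4.commTerms 23 12 = [] := by decide
theorem rel_23_12 (t u : F) : xg 12 u * xg 23 t = xg 23 t * xg 12 u * ((chevD4.commWord F 23 12 t u).map fun p => xg p.1 p.2).prod := by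
  rw [ChevalleyDatum.commWord, ct_23_12]
  simp only [List.map_cons, List.map_nil, List.prod_cons, List.prod_nil]
  apply Units.ext
  simp only [Units.val_mul, xg_val, Units.val_one]
  apply mat_ext_mulVec
  intro v
  simp only [← Matrix.mulVec_mulVec, Matrix.one_mulVec, xm_mulVec_12, xm_mulVec_23]
  funext i; fin_cases i <;> simp <;> ring
theorem ct_23_13 : chevD4.commTerms 23 13 = [] := by decide
theorem rel_23_13 (t u : F) : xg 13 u * xg 23 t = xg 23 t * xg 13 u * ((chevD4.commWord F 23 13 t u).map fun p => xg p.1 p.2).prod := by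
  rw [ChevalleyDatum.commWord, ct_23_13]
  simp only [List.map_cons, List.map_nil, List.prod_cons, List.prod_nil]
  apply Units.ext
  simp only [Units.val_mul, xg_val, Units.val_one]
  apply mat_ext_mulVec
  intro v
  simp only [← Matrix.mulVec_mulVec, Matrix.one_mulVec, xm_mulVec_13, xm_mulVec_23]
  funext i; fin_cases i <;> simp <;> ring
theorem ct_23_14 : chevD4.commTerms 23 14 = [] := by decide
theorem rel_23_14 (t u : F) : xg 14 u * xg 23 t = xg 23 t * xg 14 u * ((chevD4.commWord F 23 14 t u).map fun p => xg p.1 p.2).prod := by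
  rw [ChevalleyDatum.commWord, ct_23_14]
  simp only [List.map_cons, List.map_nil, List.prod_cons, List.prod_nil]
  apply Units.ext
  simp only [Units.val_mul, xg_val, Units.val_one]
  apply mat_ext_mulVec
  intro v
  simp only [← Matrix.mulVec_mulVec, Matrix.one_mulVec, xm_mulVec_14, xm_mulVec_23]
  funext i; fin_cases i <;> simp <;> ring
theorem ct_23_15 : chevD4.commTerms 23 15 = [] := by decide
theorem rel_23_15 (t u : F) : xg 15 u * xg 23 t = xg 23 t * xg 15 u * ((chevD4.commWord F 23 15 t u).map fun p => xg p.1 p.2).prod := by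
  rw [ChevalleyDatum.commWord, ct_23_15]
  simp only [List.map_cons, List.map_nil, List.prod_cons, List.prod_nil]
  apply Units.ext
  simp only [Units.val_mul, xg_val, Units.val_one]
  apply mat_ext_mulVec
  intro v
  simp only [← Matrix.mulVec_mulVec, Matrix.one_mulVec, xm_mulVec_15, xm_mulVec_23]
  funext i; fin_cases i <;> simp <;> ring
theorem ct_23_16 : chevD4.commTerms 23 16 = [] := by decide
theorem rel_23_16 (t u : F) : xg 16 u * xg 23 t = xg 23 t * xg 16 u * ((chevD4.commWord F 23 16 t u).map fun p => xg p.1 p.2).prod := by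
  rw [ChevalleyDatum.commWord, ct_23_16]
  simp only [List.map_cons, List.map_nil, List.prod_cons, List.prod_nil]
  apply Units.ext
  simp only [Units.val_mul, xg_val, Units.val_one]
  apply mat_ext_mulVec
  intro v
  simp only [← Matrix.mulVec_mulVec, Matrix.one_mulVec, xm_mulVec_16, xm_mulVec_23]
  funext i; fin_cases i <;> simp <;> ring
theorem ct_23_17 : chevD4.commTerms 23 17 = [] := by decide
theorem rel_23_17 (t u : F) : xg 17 u * xg 23 t = xg 23 t * xg 17 u * ((chevD4.commWord F 23 17 t u).map fun p => xg p.1 p.2).prod := by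
  rw [ChevalleyDatum.commWord, ct_23_17]
  simp only [List.map_cons, List.map_nil, List.prod_cons, List.prod_nil]
  apply Units.ext
  simp only [Units.val_mul, xg_val, Units.val_one]
  apply mat_ext_mulVec
  intro v
  simp only [← Matrix.mulVec_mulVec, Matrix.one_mulVec, xm_mulVec_17, xm_mulVec_23]
  funext i; fin_cases i <;> simp <;> ring
theorem ct_23_18 : chevD4.commTerms 23 18 = [] := by decide
theorem rel_23_18 (t u : F) : xg 18 u * xg 23 t = xg 23 t * xg 18 u * ((chevD4.commWord F 23 18 t u).map fun p => xg p.1 p.2).prod := by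
  rw [ChevalleyDatum.commWord, ct_23_18]
  simp only [List.map_cons, List.map_nil, List.prod_cons, List.prod_nil]
  apply Units.ext
  simp only [Units.val_mul, xg_val, Units.val_one]
  apply mat_ext_mulVec
  intro v
  simp only [← Matrix.mulVec_mulVec, Matrix.one_mulVec, xm_mulVec_18, xm_mulVec_23]
  funext i; fin_cases i <;> simp <;> ring
theorem ct_23_19 : chevD4.commTerms 23 19 = [] := by decide
theorem rel_23_19 (t u : F) : xg 19 u * xg 23 t = xg 23 t * xg 19 u * ((chevD4.commWord F 23 19 t u).map fun p => xg p.1 p.2).prod := by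
  rw [ChevalleyDatum.commWord, ct_23_19]
  simp only [List.map_cons, List.map_nil, List.prod_cons, List.prod_nil]
  apply Units.ext
  simp only [Units.val_mul, xg_val, Units.val_one]
  apply mat_ext_mulVec
  intro v
  simp only [← Matrix.mulVec_mulVec, Matrix.one_mulVec, xm_mulVec_19, xm_mulVec_23]
  funext i; fin_cases i <;> simp <;> ring
theorem ct_23_20 : chevD4.commTerms 23 20 = [] := by decide
theorem rel_23_20 (t u : F) : xg 20 u * xg 23 t = xg 23 t * xg 20 u * ((chevD4.commWord F 23 20 t u).map fun p => xg p.1 p.2).prod := by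
  rw [ChevalleyDatum.commWord, ct_23_20]
  simp only [List.map_cons, List.map_nil, List.prod_cons, List.prod_nil]
  apply Units.ext
  simp only [Units.val_mul, xg_val, Units.val_one]
  apply mat_ext_mulVec
  intro v
  simp only [← Matrix.mulVec_mulVec, Matrix.one_mulVec, xm_mulVec_20, xm_mulVec_23]
  funext i; fin_cases i <;> simp <;> ring
theorem ct_23_21 : chevD4.commTerms 23 21 = [] := by decide
theorem rel_23_21 (t u : F) : xg 21 u * xg 23 t = xg 23 t * xg 21 u * ((chevD4.commWord F 23 21 t u).map fun p => xg p.1 p.2).prod := by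
  rw [ChevalleyDatum.commWord, ct_23_21]
  simp only [List.map_cons, List.map_nil, List.prod_cons, List.prod_nil]
  apply Units.ext
  simp only [Units.val_mul, xg_val, Units.val_one]
  apply mat_ext_mulVec
  intro v
  simp only [← Matrix.mulVec_mulVec, Matrix.one_mulVec, xm_mulVec_21, xm_mulVec_23]
  funext i; fin_cases i <;> simp <;> ring
theorem ct_23_22 : chevD4.commTerms 23 22 = [] := by decide
theorem rel_23_22 (t u : F) : xg 22 u * xg 23 t = xg 23 t * xg 22 u * ((chevD4.commWord F 23 22 t u).map fun p => xg p.1 p.2).prod := by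
  rw [ChevalleyDatum.commWord, ct_23_22]
  simp only [List.map_cons, List.map_nil, List.prod_cons, List.prod_nil]
  apply Units.ext
  simp only [Units.val_mul, xg_val, Units.val_one]
  apply mat_ext_mulVec
  intro v
  simp only [← Matrix.mulVec_mulVec, Matrix.one_mulVec, xm_mulVec_22, xm_mulVec_23]
  funext i; fin_cases i <;> simp <;> ring

end Cfsg.Agent.Helper17.D4
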