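-- helper17: Steinberg's relations for the explicit root elements of O_8^+ and the homomorphism from the presented group (S1082).
import Cfsg.Agent.Helper17.D4RelA
import Cfsg.Agent.Helper17.D4RelB
import Cfsg.Agent.Helper17.D4RelC
import Cfsg.Agent.Helper17.D4RelD
import Cfsg.Agent.Helper17.D4RelE
import Cfsg.Agent.Helper17.D4RelF
import Cfsg.Agent.Helper17.D4RelG
import Cfsg.Agent.Helper17.D4RelH
import Cfsg.Agent.Helper17.D4RelT

set_option autoImplicit false
open Matrix Cfsg Cfsg.Lie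
open scoped commutatorElement

namespace Cfsg.Agent.Helper17.D4

variable {F : Type*} [Field F]

theorem neg_eq : ∀ r < 24, chevD4.neg r = 23 - r := by decide

/-- Steinberg's commutator relations (R2) for the explicit root elements. -/
theorem xg_comm_rel (r : ℕ) (hr : r < 24) (s : ℕ) (hs : s < 24) (h1 : s ≠ r) (h2 : s ≠ chevD4.neg r) (t u : F) :
    xg s u * xg r t = xg r t * xg s u * ((chevD4.commWord F r s t u).map fun p => xg p.1 p.2).prod := by
  rw [neg_eq r hr] at h2
  interval_cases r <;> interval_cases s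
  · exact absurd rfl h1
  · exact rel_0_1 t u
  · exact rel_0_2 t u
  · exact rel_0_3 t u
  · exact rel_0_4 t u
  · exact rel_0_5 t u
  · exact rel_0_6 t u
  · exact rel_0_7 t u
  · exact rel_0_8 t u
  · exact rel_0_9 t u
  · exact rel_0_10 t u
  · exact rel_0_11 t u
  · exact rel_0_12 t u
  · exact rel_0_13 t u
  · exact rel_0_14 t u
  · exact rel_0_15 t u
  · exact rel_0_16 t u
  · exact rel_0_17 t u
  · exact rel_0_18 t u
  · exact rel_0_19 t u
  · exact rel_0_20 t u
  · exact rel_0_21 t u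
  · exact rel_0_22 t u
  · exact absurd rfl h2
  · exact rel_1_0 t u
  · exact absurd rfl h1
  · exact rel_1_2 t u
  · exact rel_1_3 t u
  · exact rel_1_4 t u
  · exact rel_1_5 t u
  · exact rel_1_6 t u
  · exact rel_1_7 t u
  · exact rel_1_8 t u
  · exact rel_1_9 t u
  · exact rel_1_10 t u
  · exact rel_1_11 t u
  · exact rel_1_12 t u
  · exact rel_1_13 t u
  · exact rel_1_14 t u
  · exact rel_1_15 t u
  · exact rel_1_16 t u
  · exact rel_1_17 t u
  · exact rel_1_18 t u
  · exact rel_1_19 t u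
  · exact rel_1_20 t u
  · exact rel_1_21 t u
  · exact absurd rfl h2
  · exact rel_1_23 t u
  · exact rel_2_0 t u
  · exact rel_2_1 t u
  · exact absurd rfl h1
  · exact rel_2_3 t u
  · exact rel_2_4 t u
  · exact rel_2_5 t u
  · exact rel_2_6 t u
  · exact rel_2_7 t u
  · exact rel_2_8 t u
  · exact rel_2_9 t u
  · exact rel_2_10 t u
  · exact rel_2_11 t u
  · exact rel_2_12 t u
  · exact rel_2_13 t u
  · exact rel_2_14 t u
  · exact rel_2_15 t u
  · exact rel_2_16 t u
  · exact rel_2_17 t u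
  · exact rel_2_18 t u
  · exact rel_2_19 t u
  · exact rel_2_20 t u
  · exact absurd rfl h2
  · exact rel_2_22 t u
  · exact rel_2_23 t u
  · exact rel_3_0 t u
  · exact rel_3_1 t u
  · exact rel_3_2 t u
  · exact absurd rfl h1
  · exact rel_3_4 t u
  · exact rel_3_5 t u
  · exact rel_3_6 t u
  · exact rel_3_7 t u
  · exact rel_3_8 t u
  · exact rel_3_9 t u
  · exact rel_3_10 t u
  · exact rel_3_11 t u
  · exact rel_3_12 t u
  · exact rel_3_13 t u
  · exact rel_3_14 t u
  · exact rel_3_15 t u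
  · exact rel_3_16 t u
  · exact rel_3_17 t u
  · exact rel_3_18 t u
  · exact rel_3_19 t u
  · exact absurd rfl h2
  · exact rel_3_21 t u
  · exact rel_3_22 t u
  · exact rel_3_23 t u
  · exact rel_4_0 t u
  · exact rel_4_1 t u
  · exact rel_4_2 t u
  · exact rel_4_3 t u
  · exact absurd rfl h1
  · exact rel_4_5 t u
  · exact rel_4_6 t u
  · exact rel_4_7 t u
  · exact rel_4_8 t u
  · exact rel_4_9 t u
  · exact rel_4_10 t u
  · exact rel_4_11 t u
  · exact rel_4_12 t u
  · exact rel_4_13 t u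
  · exact rel_4_14 t u
  · exact rel_4_15 t u
  · exact rel_4_16 t u
  · exact rel_4_17 t u
  · exact rel_4_18 t u
  · exact absurd rfl h2
  · exact rel_4_20 t u
  · exact rel_4_21 t u
  · exact rel_4_22 t u
  · exact rel_4_23 t u
  · exact rel_5_0 t u
  · exact rel_5_1 t u
  · exact rel_5_2 t u
  · exact rel_5_3 t u
  · exact rel_5_4 t u
  · exact absurd rfl h1
  · exact rel_5_6 t u
  · exact rel_5_7 t u
  · exact rel_5_8 t u
  · exact rel_5_9 t u
  · exact rel_5_10 t u
  · exact rel_5_11 t u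
  · exact rel_5_12 t u
  · exact rel_5_13 t u
  · exact rel_5_14 t u
  · exact rel_5_15 t u
  · exact rel_5_16 t u
  · exact rel_5_17 t u
  · exact absurd rfl h2
  · exact rel_5_19 t u
  · exact rel_5_20 t u
  · exact rel_5_21 t u
  · exact rel_5_22 t u
  · exact rel_5_23 t u
  · exact rel_6_0 t u
  · exact rel_6_1 t u
  · exact rel_6_2 t u
  · exact rel_6_3 t u
  · exact rel_6_4 t u
  · exact rel_6_5 t u
  · exact absurd rfl h1
  · exact rel_6_7 t u
  · exact rel_6_8 t u
  · exact rel_6_9 t u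
  · exact rel_6_10 t u
  · exact rel_6_11 t u
  · exact rel_6_12 t u
  · exact rel_6_13 t u
  · exact rel_6_14 t u
  · exact rel_6_15 t u
  · exact rel_6_16 t u
  · exact absurd rfl h2
  · exact rel_6_18 t u
  · exact rel_6_19 t u
  · exact rel_6_20 t u
  · exact rel_6_21 t u
  · exact rel_6_22 t u
  · exact rel_6_23 t u
  · exact rel_7_0 t u
  · exact rel_7_1 t u
  · exact rel_7_2 t u
  · exact rel_7_3 t u
  · exact rel_7_4 t u
  · exact rel_7_5 t u
  · exact rel_7_6 t u
  · exact absurd rfl h1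
  · exact rel_7_8 t u
  · exact rel_7_9 t u
  · exact rel_7_10 t u
  · exact rel_7_11 t u
  · exact rel_7_12 t u
  · exact rel_7_13 t u
  · exact rel_7_14 t u
  · exact rel_7_15 t u
  · exact absurd rfl h2
  · exact rel_7_17 t u
  · exact rel_7_18 t u
  · exact rel_7_19 t u
  · exact rel_7_20 t u
  · exact rel_7_21 t u
  · exact rel_7_22 t u
  · exact rel_7_23 t u
  · exact rel_8_0 t u
  · exact rel_8_1 t u
  · exact rel_8_2 t u
  · exact rel_8_3 t u
  · exact rel_8_4 t u
  · exact rel_8_5 t u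
  · exact rel_8_6 t u
  · exact rel_8_7 t u
  · exact absurd rfl h1
  · exact rel_8_9 t u
  · exact rel_8_10 t u
  · exact rel_8_11 t u
  · exact rel_8_12 t u
  · exact rel_8_13 t u
  · exact rel_8_14 t u
  · exact absurd rfl h2
  · exact rel_8_16 t u
  · exact rel_8_17 t u
  · exact rel_8_18 t u
  · exact rel_8_19 t u
  · exact rel_8_20 t u
  · exact rel_8_21 t u
  · exact rel_8_22 t u
  · exact rel_8_23 t u
  · exact rel_9_0 t u
  · exact rel_9_1 t u
  · exact rel_9_2 t u
  · exact rel_9_3 t u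
  · exact rel_9_4 t u
  · exact rel_9_5 t u
  · exact rel_9_6 t u
  · exact rel_9_7 t u
  · exact rel_9_8 t u
  · exact absurd rfl h1
  · exact rel_9_10 t u
  · exact rel_9_11 t u
  · exact rel_9_12 t u
  · exact rel_9_13 t u
  · exact absurd rfl h2
  · exact rel_9_15 t u
  · exact rel_9_16 t u
  · exact rel_9_17 t u
  · exact rel_9_18 t u
  · exact rel_9_19 t u
  · exact rel_9_20 t u
  · exact rel_9_21 t u
  · exact rel_9_22 t u
  · exact rel_9_23 t u
  · exact rel_10_0 t u
  · exact rel_10_1 t u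
  · exact rel_10_2 t u
  · exact rel_10_3 t u
  · exact rel_10_4 t u
  · exact rel_10_5 t u
  · exact rel_10_6 t u
  · exact rel_10_7 t u
  · exact rel_10_8 t u
  · exact rel_10_9 t u
  · exact absurd rfl h1
  · exact rel_10_11 t u
  · exact rel_10_12 t u
  · exact absurd rfl h2
  · exact rel_10_14 t u
  · exact rel_10_15 t u
  · exact rel_10_16 t u
  · exact rel_10_17 t u
  · exact rel_10_18 t u
  · exact rel_10_19 t u
  · exact rel_10_20 t u
  · exact rel_10_21 t u
  · exact rel_10_22 t u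
  · exact rel_10_23 t u
  · exact rel_11_0 t u
  · exact rel_11_1 t u
  · exact rel_11_2 t u
  · exact rel_11_3 t u
  · exact rel_11_4 t u
  · exact rel_11_5 t u
  · exact rel_11_6 t u
  · exact rel_11_7 t u
  · exact rel_11_8 t u
  · exact rel_11_9 t u
  · exact rel_11_10 t u
  · exact absurd rfl h1
  · exact absurd rfl h2
  · exact rel_11_13 t u
  · exact rel_11_14 t u
  · exact rel_11_15 t u
  · exact rel_11_16 t u
  · exact rel_11_17 t u
  · exact rel_11_18 t u
  · exact rel_11_19 t u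
  · exact rel_11_20 t u
  · exact rel_11_21 t u
  · exact rel_11_22 t u
  · exact rel_11_23 t u
  · exact rel_12_0 t u
  · exact rel_12_1 t u
  · exact rel_12_2 t u
  · exact rel_12_3 t u
  · exact rel_12_4 t u
  · exact rel_12_5 t u
  · exact rel_12_6 t u
  · exact rel_12_7 t u
  · exact rel_12_8 t u
  · exact rel_12_9 t u
  · exact rel_12_10 t u
  · exact absurd rfl h2
  · exact absurd rfl h1
  · exact rel_12_13 t u
  · exact rel_12_14 t u
  · exact rel_12_15 t u
  · exact rel_12_16 t u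
  · exact rel_12_17 t u
  · exact rel_12_18 t u
  · exact rel_12_19 t u
  · exact rel_12_20 t u
  · exact rel_12_21 t u
  · exact rel_12_22 t u
  · exact rel_12_23 t u
  · exact rel_13_0 t u
  · exact rel_13_1 t u
  · exact rel_13_2 t u
  · exact rel_13_3 t u
  · exact rel_13_4 t u
  · exact rel_13_5 t u
  · exact rel_13_6 t u
  · exact rel_13_7 t u
  · exact rel_13_8 t u
  · exact rel_13_9 t u
  · exact absurd rfl h2
  · exact rel_13_11 t u
  · exact rel_13_12 t u
  · exact absurd rfl h1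
  · exact rel_13_14 t u
  · exact rel_13_15 t u
  · exact rel_13_16 t u
  · exact rel_13_17 t u
  · exact rel_13_18 t u
  · exact rel_13_19 t u
  · exact rel_13_20 t u
  · exact rel_13_21 t u
  · exact rel_13_22 t u
  · exact rel_13_23 t u
  · exact rel_14_0 t u
  · exact rel_14_1 t u
  · exact rel_14_2 t u
  · exact rel_14_3 t u
  · exact rel_14_4 t u
  · exact rel_14_5 t u
  · exact rel_14_6 t u
  · exact rel_14_7 t u
  · exact rel_14_8 t u
  · exact absurd rfl h2
  · exact rel_14_10 t u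
  · exact rel_14_11 t u
  · exact rel_14_12 t u
  · exact rel_14_13 t u
  · exact absurd rfl h1
  · exact rel_14_15 t u
  · exact rel_14_16 t u
  · exact rel_14_17 t u
  · exact rel_14_18 t u
  · exact rel_14_19 t u
  · exact rel_14_20 t u
  · exact rel_14_21 t u
  · exact rel_14_22 t u
  · exact rel_14_23 t u
  · exact rel_15_0 t u
  · exact rel_15_1 t u
  · exact rel_15_2 t u
  · exact rel_15_3 t u
  · exact rel_15_4 t u
  · exact rel_15_5 t u
  · exact rel_15_6 t u
  · exact rel_15_7 t u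
  · exact absurd rfl h2
  · exact rel_15_9 t u
  · exact rel_15_10 t u
  · exact rel_15_11 t u
  · exact rel_15_12 t u
  · exact rel_15_13 t u
  · exact rel_15_14 t u
  · exact absurd rfl h1
  · exact rel_15_16 t u
  · exact rel_15_17 t u
  · exact rel_15_18 t u
  · exact rel_15_19 t u
  · exact rel_15_20 t u
  · exact rel_15_21 t u
  · exact rel_15_22 t u
  · exact rel_15_23 t u
  · exact rel_16_0 t u
  · exact rel_16_1 t u
  · exact rel_16_2 t u
  · exact rel_16_3 t u
  · exact rel_16_4 t u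
  · exact rel_16_5 t u
  · exact rel_16_6 t u
  · exact absurd rfl h2
  · exact rel_16_8 t u
  · exact rel_16_9 t u
  · exact rel_16_10 t u
  · exact rel_16_11 t u
  · exact rel_16_12 t u
  · exact rel_16_13 t u
  · exact rel_16_14 t u
  · exact rel_16_15 t u
  · exact absurd rfl h1
  · exact rel_16_17 t u
  · exact rel_16_18 t u
  · exact rel_16_19 t u
  · exact rel_16_20 t u
  · exact rel_16_21 t u
  · exact rel_16_22 t u
  · exact rel_16_23 t u
  · exact rel_17_0 t u
  · exact rel_17_1 t u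
  · exact rel_17_2 t u
  · exact rel_17_3 t u
  · exact rel_17_4 t u
  · exact rel_17_5 t u
  · exact absurd rfl h2
  · exact rel_17_7 t u
  · exact rel_17_8 t u
  · exact rel_17_9 t u
  · exact rel_17_10 t u
  · exact rel_17_11 t u
  · exact rel_17_12 t u
  · exact rel_17_13 t u
  · exact rel_17_14 t u
  · exact rel_17_15 t u
  · exact rel_17_16 t u
  · exact absurd rfl h1
  · exact rel_17_18 t u
  · exact rel_17_19 t u
  · exact rel_17_20 t u
  · exact rel_17_21 t u
  · exact rel_17_22 t u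
  · exact rel_17_23 t u
  · exact rel_18_0 t u
  · exact rel_18_1 t u
  · exact rel_18_2 t u
  · exact rel_18_3 t u
  · exact rel_18_4 t u
  · exact absurd rfl h2
  · exact rel_18_6 t u
  · exact rel_18_7 t u
  · exact rel_18_8 t u
  · exact rel_18_9 t u
  · exact rel_18_10 t u
  · exact rel_18_11 t u
  · exact rel_18_12 t u
  · exact rel_18_13 t u
  · exact rel_18_14 t u
  · exact rel_18_15 t u
  · exact rel_18_16 t u
  · exact rel_18_17 t u
  · exact absurd rfl h1
  · exact rel_18_19 t u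
  · exact rel_18_20 t u
  · exact rel_18_21 t u
  · exact rel_18_22 t u
  · exact rel_18_23 t u
  · exact rel_19_0 t u
  · exact rel_19_1 t u
  · exact rel_19_2 t u
  · exact rel_19_3 t u
  · exact absurd rfl h2
  · exact rel_19_5 t u
  · exact rel_19_6 t u
  · exact rel_19_7 t u
  · exact rel_19_8 t u
  · exact rel_19_9 t u
  · exact rel_19_10 t u
  · exact rel_19_11 t u
  · exact rel_19_12 t u
  · exact rel_19_13 t u
  · exact rel_19_14 t u
  · exact rel_19_15 t u
  · exact rel_19_16 t u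
  · exact rel_19_17 t u
  · exact rel_19_18 t u
  · exact absurd rfl h1
  · exact rel_19_20 t u
  · exact rel_19_21 t u
  · exact rel_19_22 t u
  · exact rel_19_23 t u
  · exact rel_20_0 t u
  · exact rel_20_1 t u
  · exact rel_20_2 t u
  · exact absurd rfl h2
  · exact rel_20_4 t u
  · exact rel_20_5 t u
  · exact rel_20_6 t u
  · exact rel_20_7 t u
  · exact rel_20_8 t u
  · exact rel_20_9 t u
  · exact rel_20_10 t u
  · exact rel_20_11 t u
  · exact rel_20_12 t u
  · exact rel_20_13 t u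
  · exact rel_20_14 t u
  · exact rel_20_15 t u
  · exact rel_20_16 t u
  · exact rel_20_17 t u
  · exact rel_20_18 t u
  · exact rel_20_19 t u
  · exact absurd rfl h1
  · exact rel_20_21 t u
  · exact rel_20_22 t u
  · exact rel_20_23 t u
  · exact rel_21_0 t u
  · exact rel_21_1 t u
  · exact absurd rfl h2
  · exact rel_21_3 t u
  · exact rel_21_4 t u
  · exact rel_21_5 t u
  · exact rel_21_6 t u
  · exact rel_21_7 t u
  · exact rel_21_8 t u
  · exact rel_21_9 t u
  · exact rel_21_10 t u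
  · exact rel_21_11 t u
  · exact rel_21_12 t u
  · exact rel_21_13 t u
  · exact rel_21_14 t u
  · exact rel_21_15 t u
  · exact rel_21_16 t u
  · exact rel_21_17 t u
  · exact rel_21_18 t u
  · exact rel_21_19 t u
  · exact rel_21_20 t u
  · exact absurd rfl h1
  · exact rel_21_22 t u
  · exact rel_21_23 t u
  · exact rel_22_0 t u
  · exact absurd rfl h2
  · exact rel_22_2 t u
  · exact rel_22_3 t u
  · exact rel_22_4 t u
  · exact rel_22_5 t u
  · exact rel_22_6 t u
  · exact rel_22_7 t u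
  · exact rel_22_8 t u
  · exact rel_22_9 t u
  · exact rel_22_10 t u
  · exact rel_22_11 t u
  · exact rel_22_12 t u
  · exact rel_22_13 t u
  · exact rel_22_14 t u
  · exact rel_22_15 t u
  · exact rel_22_16 t u
  · exact rel_22_17 t u
  · exact rel_22_18 t u
  · exact rel_22_19 t u
  · exact rel_22_20 t u
  · exact rel_22_21 t u
  · exact absurd rfl h1
  · exact rel_22_23 t u
  · exact absurd rfl h2
  · exact rel_23_1 t u
  · exact rel_23_2 t u
  · exact rel_23_3 t u
  · exact rel_23_4 t u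
  · exact rel_23_5 t u
  · exact rel_23_6 t u
  · exact rel_23_7 t u
  · exact rel_23_8 t u
  · exact rel_23_9 t u
  · exact rel_23_10 t u
  · exact rel_23_11 t u
  · exact rel_23_12 t u
  · exact rel_23_13 t u
  · exact rel_23_14 t u
  · exact rel_23_15 t u
  · exact rel_23_16 t u
  · exact rel_23_17 t u
  · exact rel_23_18 t u
  · exact rel_23_19 t u
  · exact rel_23_20 t u
  · exact rel_23_21 t u
  · exact rel_23_22 t u
  · exact absurd rfl h1

/-- Every root element is a commutator of root elements. -/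
theorem xg_mem_comm (q : ℕ) (hq : q < 24) (w : F) : xg q w ∈ ⁅G8 F, G8 F⁆ := by
  interval_cases q
  · have h := rel_1_9 (-w) (1 : F)
    rw [ChevalleyDatum.commWord, ct_1_9] at h
    simp only [List.map_cons, List.map_nil, List.prod_cons, List.prod_nil, mul_one] at h
    have hw : ((1 : ℤ) : F) * (-(-w)) ^ 1 * (1 : F) ^ 1 = w := by push_cast; ring
    rw [hw] at h
    have e : xg 0 w = ⁅(xg 9 (1 : F))⁻¹, (xg 1 (-w))⁻¹⁆ := by
      rw [commutatorElement_def, inv_inv, inv_inv, mul_assoc _ (xg 9 (1 : F)), h]; group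
    rw [e]
    exact Subgroup.commutator_mem_commutator (inv_mem (xg_mem_G8 _ _)) (inv_mem (xg_mem_G8 _ _))
  · have h := rel_0_14 (-w) (1 : F)
    rw [ChevalleyDatum.commWord, ct_0_14] at h
    simp only [List.map_cons, List.map_nil, List.prod_cons, List.prod_nil, mul_one] at h
    have hw : ((1 : ℤ) : F) * (-(-w)) ^ 1 * (1 : F) ^ 1 = w := by push_cast; ring
    rw [hw] at h
    have e : xg 1 w = ⁅(xg 14 (1 : F))⁻¹, (xg 0 (-w))⁻¹⁆ := by
      rw [commutatorElement_def, inv_inv, inv_inv, mul_assoc _ (xg 14 (1 : F)), h]; group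
    rw [e]
    exact Subgroup.commutator_mem_commutator (inv_mem (xg_mem_G8 _ _)) (inv_mem (xg_mem_G8 _ _))
  · have h := rel_0_15 w (1 : F)
    rw [ChevalleyDatum.commWord, ct_0_15] at h
    simp only [List.map_cons, List.map_nil, List.prod_cons, List.prod_nil, mul_one] at h
    have hw : ((-1 : ℤ) : F) * (-w) ^ 1 * (1 : F) ^ 1 = w := by push_cast; ring
    rw [hw] at h
    have e : xg 2 w = ⁅(xg 15 (1 : F))⁻¹, (xg 0 w)⁻¹⁆ := by
      rw [commutatorElement_def, inv_inv, inv_inv, mul_assoc _ (xg 15 (1 : F)), h]; group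
    rw [e]
    exact Subgroup.commutator_mem_commutator (inv_mem (xg_mem_G8 _ _)) (inv_mem (xg_mem_G8 _ _))
  · have h := rel_0_16 w (1 : F)
    rw [ChevalleyDatum.commWord, ct_0_16] at h
    simp only [List.map_cons, List.map_nil, List.prod_cons, List.prod_nil, mul_one] at h
    have hw : ((-1 : ℤ) : F) * (-w) ^ 1 * (1 : F) ^ 1 = w := by push_cast; ring
    rw [hw] at h
    have e : xg 3 w = ⁅(xg 16 (1 : F))⁻¹, (xg 0 w)⁻¹⁆ := by
      rw [commutatorElement_def, inv_inv, inv_inv, mul_assoc _ (xg 16 (1 : F)), h]; group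
    rw [e]
    exact Subgroup.commutator_mem_commutator (inv_mem (xg_mem_G8 _ _)) (inv_mem (xg_mem_G8 _ _))
  · have h := rel_0_17 (-w) (1 : F)
    rw [ChevalleyDatum.commWord, ct_0_17] at h
    simp only [List.map_cons, List.map_nil, List.prod_cons, List.prod_nil, mul_one] at h
    have hw : ((1 : ℤ) : F) * (-(-w)) ^ 1 * (1 : F) ^ 1 = w := by push_cast; ring
    rw [hw] at h
    have e : xg 4 w = ⁅(xg 17 (1 : F))⁻¹, (xg 0 (-w))⁻¹⁆ := by
      rw [commutatorElement_def, inv_inv, inv_inv, mul_assoc _ (xg 17 (1 : F)), h]; group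
    rw [e]
    exact Subgroup.commutator_mem_commutator (inv_mem (xg_mem_G8 _ _)) (inv_mem (xg_mem_G8 _ _))
  · have h := rel_1_17 (-w) (1 : F)
    rw [ChevalleyDatum.commWord, ct_1_17] at h
    simp only [List.map_cons, List.map_nil, List.prod_cons, List.prod_nil, mul_one] at h
    have hw : ((1 : ℤ) : F) * (-(-w)) ^ 1 * (1 : F) ^ 1 = w := by push_cast; ring
    rw [hw] at h
    have e : xg 5 w = ⁅(xg 17 (1 : F))⁻¹, (xg 1 (-w))⁻¹⁆ := by
      rw [commutatorElement_def, inv_inv, inv_inv, mul_assoc _ (xg 17 (1 : F)), h]; group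
    rw [e]
    exact Subgroup.commutator_mem_commutator (inv_mem (xg_mem_G8 _ _)) (inv_mem (xg_mem_G8 _ _))
  · have h := rel_0_19 w (1 : F)
    rw [ChevalleyDatum.commWord, ct_0_19] at h
    simp only [List.map_cons, List.map_nil, List.prod_cons, List.prod_nil, mul_one] at h
    have hw : ((-1 : ℤ) : F) * (-w) ^ 1 * (1 : F) ^ 1 = w := by push_cast; ring
    rw [hw] at h
    have e : xg 6 w = ⁅(xg 19 (1 : F))⁻¹, (xg 0 w)⁻¹⁆ := by
      rw [commutatorElement_def, inv_inv, inv_inv, mul_assoc _ (xg 19 (1 : F)), h]; group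
    rw [e]
    exact Subgroup.commutator_mem_commutator (inv_mem (xg_mem_G8 _ _)) (inv_mem (xg_mem_G8 _ _))
  · have h := rel_0_20 (-w) (1 : F)
    rw [ChevalleyDatum.commWord, ct_0_20] at h
    simp only [List.map_cons, List.map_nil, List.prod_cons, List.prod_nil, mul_one] at h
    have hw : ((1 : ℤ) : F) * (-(-w)) ^ 1 * (1 : F) ^ 1 = w := by push_cast; ring
    rw [hw] at h
    have e : xg 7 w = ⁅(xg 20 (1 : F))⁻¹, (xg 0 (-w))⁻¹⁆ := by
      rw [commutatorElement_def, inv_inv, inv_inv, mul_assoc _ (xg 20 (1 : F)), h]; group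
    rw [e]
    exact Subgroup.commutator_mem_commutator (inv_mem (xg_mem_G8 _ _)) (inv_mem (xg_mem_G8 _ _))
  · have h := rel_0_21 (-w) (1 : F)
    rw [ChevalleyDatum.commWord, ct_0_21] at h
    simp only [List.map_cons, List.map_nil, List.prod_cons, List.prod_nil, mul_one] at h
    have hw : ((1 : ℤ) : F) * (-(-w)) ^ 1 * (1 : F) ^ 1 = w := by push_cast; ring
    rw [hw] at h
    have e : xg 8 w = ⁅(xg 21 (1 : F))⁻¹, (xg 0 (-w))⁻¹⁆ := by
      rw [commutatorElement_def, inv_inv, inv_inv, mul_assoc _ (xg 21 (1 : F)), h]; group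
    rw [e]
    exact Subgroup.commutator_mem_commutator (inv_mem (xg_mem_G8 _ _)) (inv_mem (xg_mem_G8 _ _))
  · have h := rel_0_22 w (1 : F)
    rw [ChevalleyDatum.commWord, ct_0_22] at h
    simp only [List.map_cons, List.map_nil, List.prod_cons, List.prod_nil, mul_one] at h
    have hw : ((-1 : ℤ) : F) * (-w) ^ 1 * (1 : F) ^ 1 = w := by push_cast; ring
    rw [hw] at h
    have e : xg 9 w = ⁅(xg 22 (1 : F))⁻¹, (xg 0 w)⁻¹⁆ := by
      rw [commutatorElement_def, inv_inv, inv_inv, mul_assoc _ (xg 22 (1 : F)), h]; group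
    rw [e]
    exact Subgroup.commutator_mem_commutator (inv_mem (xg_mem_G8 _ _)) (inv_mem (xg_mem_G8 _ _))
  · have h := rel_1_20 w (1 : F)
    rw [ChevalleyDatum.commWord, ct_1_20] at h
    simp only [List.map_cons, List.map_nil, List.prod_cons, List.prod_nil, mul_one] at h
    have hw : ((-1 : ℤ) : F) * (-w) ^ 1 * (1 : F) ^ 1 = w := by push_cast; ring
    rw [hw] at h
    have e : xg 10 w = ⁅(xg 20 (1 : F))⁻¹, (xg 1 w)⁻¹⁆ := by
      rw [commutatorElement_def, inv_inv, inv_inv, mul_assoc _ (xg 20 (1 : F)), h]; group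
    rw [e]
    exact Subgroup.commutator_mem_commutator (inv_mem (xg_mem_G8 _ _)) (inv_mem (xg_mem_G8 _ _))
  · have h := rel_1_21 w (1 : F)
    rw [ChevalleyDatum.commWord, ct_1_21] at h
    simp only [List.map_cons, List.map_nil, List.prod_cons, List.prod_nil, mul_one] at h
    have hw : ((-1 : ℤ) : F) * (-w) ^ 1 * (1 : F) ^ 1 = w := by push_cast; ring
    rw [hw] at h
    have e : xg 11 w = ⁅(xg 21 (1 : F))⁻¹, (xg 1 w)⁻¹⁆ := by
      rw [commutatorElement_def, inv_inv, inv_inv, mul_assoc _ (xg 21 (1 : F)), h]; group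
    rw [e]
    exact Subgroup.commutator_mem_commutator (inv_mem (xg_mem_G8 _ _)) (inv_mem (xg_mem_G8 _ _))
  · have h := rel_2_22 w (1 : F)
    rw [ChevalleyDatum.commWord, ct_2_22] at h
    simp only [List.map_cons, List.map_nil, List.prod_cons, List.prod_nil, mul_one] at h
    have hw : ((-1 : ℤ) : F) * (-w) ^ 1 * (1 : F) ^ 1 = w := by push_cast; ring
    rw [hw] at h
    have e : xg 12 w = ⁅(xg 22 (1 : F))⁻¹, (xg 2 w)⁻¹⁆ := by
      rw [commutatorElement_def, inv_inv, inv_inv, mul_assoc _ (xg 22 (1 : F)), h]; group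
    rw [e]
    exact Subgroup.commutator_mem_commutator (inv_mem (xg_mem_G8 _ _)) (inv_mem (xg_mem_G8 _ _))
  · have h := rel_3_22 w (1 : F)
    rw [ChevalleyDatum.commWord, ct_3_22] at h
    simp only [List.map_cons, List.map_nil, List.prod_cons, List.prod_nil, mul_one] at h
    have hw : ((-1 : ℤ) : F) * (-w) ^ 1 * (1 : F) ^ 1 = w := by push_cast; ring
    rw [hw] at h
    have e : xg 13 w = ⁅(xg 22 (1 : F))⁻¹, (xg 3 w)⁻¹⁆ := by
      rw [commutatorElement_def, inv_inv, inv_inv, mul_assoc _ (xg 22 (1 : F)), h]; group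
    rw [e]
    exact Subgroup.commutator_mem_commutator (inv_mem (xg_mem_G8 _ _)) (inv_mem (xg_mem_G8 _ _))
  · have h := rel_1_23 w (1 : F)
    rw [ChevalleyDatum.commWord, ct_1_23] at h
    simp only [List.map_cons, List.map_nil, List.prod_cons, List.prod_nil, mul_one] at h
    have hw : ((-1 : ℤ) : F) * (-w) ^ 1 * (1 : F) ^ 1 = w := by push_cast; ring
    rw [hw] at h
    have e : xg 14 w = ⁅(xg 23 (1 : F))⁻¹, (xg 1 w)⁻¹⁆ := by
      rw [commutatorElement_def, inv_inv, inv_inv, mul_assoc _ (xg 23 (1 : F)), h]; group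
    rw [e]
    exact Subgroup.commutator_mem_commutator (inv_mem (xg_mem_G8 _ _)) (inv_mem (xg_mem_G8 _ _))
  · have h := rel_2_23 (-w) (1 : F)
    rw [ChevalleyDatum.commWord, ct_2_23] at h
    simp only [List.map_cons, List.map_nil, List.prod_cons, List.prod_nil, mul_one] at h
    have hw : ((1 : ℤ) : F) * (-(-w)) ^ 1 * (1 : F) ^ 1 = w := by push_cast; ring
    rw [hw] at h
    have e : xg 15 w = ⁅(xg 23 (1 : F))⁻¹, (xg 2 (-w))⁻¹⁆ := by
      rw [commutatorElement_def, inv_inv, inv_inv, mul_assoc _ (xg 23 (1 : F)), h]; group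
    rw [e]
    exact Subgroup.commutator_mem_commutator (inv_mem (xg_mem_G8 _ _)) (inv_mem (xg_mem_G8 _ _))
  · have h := rel_3_23 (-w) (1 : F)
    rw [ChevalleyDatum.commWord, ct_3_23] at h
    simp only [List.map_cons, List.map_nil, List.prod_cons, List.prod_nil, mul_one] at h
    have hw : ((1 : ℤ) : F) * (-(-w)) ^ 1 * (1 : F) ^ 1 = w := by push_cast; ring
    rw [hw] at h
    have e : xg 16 w = ⁅(xg 23 (1 : F))⁻¹, (xg 3 (-w))⁻¹⁆ := by
      rw [commutatorElement_def, inv_inv, inv_inv, mul_assoc _ (xg 23 (1 : F)), h]; group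
    rw [e]
    exact Subgroup.commutator_mem_commutator (inv_mem (xg_mem_G8 _ _)) (inv_mem (xg_mem_G8 _ _))
  · have h := rel_4_23 w (1 : F)
    rw [ChevalleyDatum.commWord, ct_4_23] at h
    simp only [List.map_cons, List.map_nil, List.prod_cons, List.prod_nil, mul_one] at h
    have hw : ((-1 : ℤ) : F) * (-w) ^ 1 * (1 : F) ^ 1 = w := by push_cast; ring
    rw [hw] at h
    have e : xg 17 w = ⁅(xg 23 (1 : F))⁻¹, (xg 4 w)⁻¹⁆ := by
      rw [commutatorElement_def, inv_inv, inv_inv, mul_assoc _ (xg 23 (1 : F)), h]; group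
    rw [e]
    exact Subgroup.commutator_mem_commutator (inv_mem (xg_mem_G8 _ _)) (inv_mem (xg_mem_G8 _ _))
  · have h := rel_6_22 (-w) (1 : F)
    rw [ChevalleyDatum.commWord, ct_6_22] at h
    simp only [List.map_cons, List.map_nil, List.prod_cons, List.prod_nil, mul_one] at h
    have hw : ((1 : ℤ) : F) * (-(-w)) ^ 1 * (1 : F) ^ 1 = w := by push_cast; ring
    rw [hw] at h
    have e : xg 18 w = ⁅(xg 22 (1 : F))⁻¹, (xg 6 (-w))⁻¹⁆ := by
      rw [commutatorElement_def, inv_inv, inv_inv, mul_assoc _ (xg 22 (1 : F)), h]; group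
    rw [e]
    exact Subgroup.commutator_mem_commutator (inv_mem (xg_mem_G8 _ _)) (inv_mem (xg_mem_G8 _ _))
  · have h := rel_6_23 (-w) (1 : F)
    rw [ChevalleyDatum.commWord, ct_6_23] at h
    simp only [List.map_cons, List.map_nil, List.prod_cons, List.prod_nil, mul_one] at h
    have hw : ((1 : ℤ) : F) * (-(-w)) ^ 1 * (1 : F) ^ 1 = w := by push_cast; ring
    rw [hw] at h
    have e : xg 19 w = ⁅(xg 23 (1 : F))⁻¹, (xg 6 (-w))⁻¹⁆ := by
      rw [commutatorElement_def, inv_inv, inv_inv, mul_assoc _ (xg 23 (1 : F)), h]; group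
    rw [e]
    exact Subgroup.commutator_mem_commutator (inv_mem (xg_mem_G8 _ _)) (inv_mem (xg_mem_G8 _ _))
  · have h := rel_7_23 w (1 : F)
    rw [ChevalleyDatum.commWord, ct_7_23] at h
    simp only [List.map_cons, List.map_nil, List.prod_cons, List.prod_nil, mul_one] at h
    have hw : ((-1 : ℤ) : F) * (-w) ^ 1 * (1 : F) ^ 1 = w := by push_cast; ring
    rw [hw] at h
    have e : xg 20 w = ⁅(xg 23 (1 : F))⁻¹, (xg 7 w)⁻¹⁆ := by
      rw [commutatorElement_def, inv_inv, inv_inv, mul_assoc _ (xg 23 (1 : F)), h]; group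
    rw [e]
    exact Subgroup.commutator_mem_commutator (inv_mem (xg_mem_G8 _ _)) (inv_mem (xg_mem_G8 _ _))
  · have h := rel_8_23 w (1 : F)
    rw [ChevalleyDatum.commWord, ct_8_23] at h
    simp only [List.map_cons, List.map_nil, List.prod_cons, List.prod_nil, mul_one] at h
    have hw : ((-1 : ℤ) : F) * (-w) ^ 1 * (1 : F) ^ 1 = w := by push_cast; ring
    rw [hw] at h
    have e : xg 21 w = ⁅(xg 23 (1 : F))⁻¹, (xg 8 w)⁻¹⁆ := by
      rw [commutatorElement_def, inv_inv, inv_inv, mul_assoc _ (xg 23 (1 : F)), h]; group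
    rw [e]
    exact Subgroup.commutator_mem_commutator (inv_mem (xg_mem_G8 _ _)) (inv_mem (xg_mem_G8 _ _))
  · have h := rel_9_23 (-w) (1 : F)
    rw [ChevalleyDatum.commWord, ct_9_23] at h
    simp only [List.map_cons, List.map_nil, List.prod_cons, List.prod_nil, mul_one] at h
    have hw : ((1 : ℤ) : F) * (-(-w)) ^ 1 * (1 : F) ^ 1 = w := by push_cast; ring
    rw [hw] at h
    have e : xg 22 w = ⁅(xg 23 (1 : F))⁻¹, (xg 9 (-w))⁻¹⁆ := by
      rw [commutatorElement_def, inv_inv, inv_inv, mul_assoc _ (xg 23 (1 : F)), h]; group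
    rw [e]
    exact Subgroup.commutator_mem_commutator (inv_mem (xg_mem_G8 _ _)) (inv_mem (xg_mem_G8 _ _))
  · have h := rel_14_22 (-w) (1 : F)
    rw [ChevalleyDatum.commWord, ct_14_22] at h
    simp only [List.map_cons, List.map_nil, List.prod_cons, List.prod_nil, mul_one] at h
    have hw : ((1 : ℤ) : F) * (-(-w)) ^ 1 * (1 : F) ^ 1 = w := by push_cast; ring
    rw [hw] at h
    have e : xg 23 w = ⁅(xg 22 (1 : F))⁻¹, (xg 14 (-w))⁻¹⁆ := by
      rw [commutatorElement_def, inv_inv, inv_inv, mul_assoc _ (xg 22 (1 : F)), h]; group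
    rw [e]
    exact Subgroup.commutator_mem_commutator (inv_mem (xg_mem_G8 _ _)) (inv_mem (xg_mem_G8 _ _))

end Cfsg.Agent.Helper17.D4
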