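/-
helper17: the homomorphism `x̄_r(t) ↦ xg r t` from Steinberg's presented group of type `D₄` onto the group `G8 F`
generated by the explicit root elements of `O₈⁺(F)` (S1082).
-/
import Cfsg.Agent.Helper17.D4Rel

set_option autoImplicit false
open Matrix Cfsg Cfsg.Lie
open scoped commutatorElement

namespace Cfsg.Agent.Helper17.D4

variable {F : Type*} [Field F]

/-- The homomorphism from the free group on the symbols `x̄_r(t)` of `chevD4` to `GL_8(F)`. -/
noncomputable def d4Lift (F : Type*) [Field F] : FreeGroup (Fin chevD4.nroots × F) →* GL (Fin 8) F :=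
  FreeGroup.lift (fun p => xg p.1.val p.2)

theorem d4_nroots : chevD4.nroots = 24 := rfl

theorem d4Lift_stX (r : ℕ) (t : F) : d4Lift F (chevD4.stX r t) = xg r t := by
  unfold ChevalleyDatum.stX
  by_cases h : r < chevD4.nroots
  · rw [dif_pos h]
    unfold d4Lift
    rw [FreeGroup.lift_apply_of]
  · rw [dif_neg h, map_one]
    exact (xg_of_ge r (by rw [d4_nroots] at h; omega) t).symm

theorem d4Lift_stWord (w : List (ℕ × F)) :
    d4Lift F (chevD4.stWord w) = (w.map fun p => xg p.1 p.2).prod := by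
  unfold ChevalleyDatum.stWord
  rw [map_list_prod, List.map_map]
  congr 1
  apply List.map_congr_left
  intro p _
  exact d4Lift_stX p.1 p.2

theorem d4Lift_rel : ∀ g ∈ chevD4.steinbergRels F, d4Lift F g = 1 := by
  rintro g ((⟨r, t₁, t₂, hr, rfl⟩ | ⟨r, s, t, u, hr, hs, h1, h2, rfl⟩) | ⟨r, t₁, t₂, hr, ht₁, ht₂, rfl⟩)
  · rw [map_mul, map_mul, map_inv, d4Lift_stX, d4Lift_stX, d4Lift_stX, xg_add, mul_inv_cancel]
  · rw [map_mul, map_mul, map_mul, map_mul, map_inv, map_inv, map_inv, d4Lift_stX, d4Lift_stX,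
      d4Lift_stWord]
    have hcf := xg_comm_rel r hr s hs h1 h2 t u
    rw [mul_assoc _ (xg s u) (xg r t), hcf]
    group
  · unfold ChevalleyDatum.stH
    rw [map_mul, map_mul, map_inv, d4Lift_stWord, d4Lift_stWord, d4Lift_stWord]
    have hw : ∀ c : F, ((chevD4.hWord r c).map fun p => xg p.1 p.2).prod = hg r c := by
      intro c
      unfold ChevalleyDatum.hWord ChevalleyDatum.nWord
      rw [neg_eq r hr]
      rfl
    rw [hw, hw, hw, hg_mul r hr t₁ t₂ ht₁ ht₂, mul_inv_cancel]

/-- The homomorphism `x̄_r(t) ↦ xg r t` from Steinberg's presented group of type `D₄` to `GL_8(F)`. -/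
noncomputable def d4Hom (F : Type*) [Field F] : chevD4.SteinbergGroup F →* GL (Fin 8) F :=
  PresentedGroup.toGroup (rels := chevD4.steinbergRels F)
    (f := fun p : Fin chevD4.nroots × F => xg p.1.val p.2) (fun g hg => d4Lift_rel g hg)

theorem d4Hom_stGen (r : ℕ) (t : F) : d4Hom F (chevD4.stGen F r t) = xg r t := by
  unfold d4Hom ChevalleyDatum.stGen
  exact d4Lift_stX r t

theorem d4Hom_of (p : Fin chevD4.nroots × F) :
    d4Hom F (PresentedGroup.of (rels := chevD4.steinbergRels F) p) = xg p.1.val p.2 := by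
  unfold d4Hom
  exact PresentedGroup.toGroup.of _

/-- The image of the presented group is the group generated by the root elements. -/
theorem d4Hom_range : (d4Hom F).range = G8 F := by
  rw [MonoidHom.range_eq_map, ← PresentedGroup.closure_range_of, MonoidHom.map_closure]
  unfold G8
  congr 1
  ext g
  constructor
  · rintro ⟨_, ⟨p, rfl⟩, rfl⟩
    exact ⟨p.1.val, p.1.isLt, p.2, d4Hom_of p⟩
  · rintro ⟨r, hr, t, rfl⟩
    exact ⟨_, ⟨(⟨r, hr⟩, t), rfl⟩, d4Hom_of (⟨r, hr⟩, t)⟩

/-- The image is not commutative. -/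
theorem d4Hom_noncomm : ∃ a b : chevD4.SteinbergGroup F, d4Hom F a * d4Hom F b ≠ d4Hom F b * d4Hom F a := by
  refine ⟨chevD4.stGen F 18 1, chevD4.stGen F 14 1, ?_⟩
  rw [d4Hom_stGen, d4Hom_stGen]
  intro h
  have h2 := congrArg (fun g : GL (Fin 8) F => ((g : Matrix (Fin 8) (Fin 8) F) *ᵥ ![0, 0, 1, 0, 0, 0, 0, 0]) 0) h
  simp only [Units.val_mul, xg_val, ← Matrix.mulVec_mulVec, xm_mulVec_18, xm_mulVec_14] at h2
  simp at h2

/-- `G8 F` is contained in the commutator subgroup of `O8 F`. -/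
theorem G8_le_comm : G8 F ≤ ⁅O8 F, O8 F⁆ := by
  have h1 : G8 F ≤ ⁅G8 F, G8 F⁆ := by
    unfold G8
    rw [Subgroup.closure_le]
    rintro g ⟨r, hr, t, rfl⟩
    exact xg_mem_comm r hr t
  exact h1.trans (Subgroup.commutator_mono G8_le_O8 G8_le_O8)

end Cfsg.Agent.Helper17.D4
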