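/-
helper17: the fundamental reflections of type E6 preserve orthogonality of roots (the table `abiOrthOK` for
`Cfsg.Agent.Helper17.abi_orth_wW`), by the linear transformation rules of `AbIdeal3` (row checks only).
-/
import Cfsg.Agent.Helper17.AbIdeal3

set_option autoImplicit false

namespace Cfsg.Agent.Helper17

open Cfsg Cfsg.Lie Cfsg.Agent.Helper38

set_option maxRecDepth 1000000 in
theorem abiCorRefl_E6 : AbiCorRefl chevE6 := by decide +kernel

set_option maxRecDepth 1000000 in
theorem abiCorSum_E6 : AbiCorSum chevE6 := by decide +kernel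

set_option maxRecDepth 1000000 in
theorem abiCartanTwo_E6 : AbiCartanTwo chevE6 := by decide +kernel

theorem abiOrthOK_E6 : abiOrthOK chevE6 = true :=
  abiOrthOK_of_lin cReflOK_E6 abiCorRefl_E6 abiCorSum_E6 abiCartanTwo_E6

end Cfsg.Agent.Helper17
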