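/-
helper17: the fundamental reflections of type E8 preserve orthogonality of roots (the table `abiOrthOK` for
`Cfsg.Agent.Helper17.abi_orth_wW`), by the linear transformation rules of `AbIdeal3` / `AbIdeal4` (row checks
with the inverse Cartan matrix; no evaluation of `reflectRoot`).
-/
import Cfsg.Agent.Helper17.AbIdeal4

set_option autoImplicit false

namespace Cfsg.Agent.Helper17

open Cfsg Cfsg.Lie Cfsg.Agent.Helper36 Cfsg.Agent.Helper38 Cfsg.Agent.Helper18

/-- The inverse of the Cartan matrix of type E8. -/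
def abiG_E8 : List (List ℤ) :=
  [[4, 5, 7, 10, 8, 6, 4, 2], [5, 8, 10, 15, 12, 9, 6, 3], [7, 10, 14, 20, 16, 12, 8, 4],
   [10, 15, 20, 30, 24, 18, 12, 6], [8, 12, 16, 24, 20, 15, 10, 5], [6, 9, 12, 18, 15, 12, 8, 4],
   [4, 6, 8, 12, 10, 8, 6, 3], [2, 3, 4, 6, 5, 4, 3, 2]]

set_option maxRecDepth 1000000 in
theorem abiCorG_E8 : AbiCorG chevE8 abiG_E8 1 := by decide +kernel

set_option maxRecDepth 1000000 in
theorem abiGInv_E8 : AbiGInv chevE8 abiG_E8 1 := by decide +kernel

set_option maxRecDepth 1000000 in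
theorem abiCorSum_E8 : AbiCorSum chevE8 := by decide +kernel

set_option maxRecDepth 1000000 in
theorem abiCartanTwo_E8 : AbiCartanTwo chevE8 := by decide +kernel

theorem abiCorRefl_E8 : AbiCorRefl chevE8 :=
  abiCorRefl_of_G cReflOK_E8 (wFacts_light (by simp)) abiG_E8 one_ne_zero abiCorG_E8 abiGInv_E8

theorem abiOrthOK_E8 : abiOrthOK chevE8 = true :=
  abiOrthOK_of_lin cReflOK_E8 abiCorRefl_E8 abiCorSum_E8 abiCartanTwo_E8

end Cfsg.Agent.Helper17
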