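/-
helper17: pieces NC and ORD of CALL S2176 (helper38) - in `E₈(K)`, characteristic two, the elements
`x_239(1)`, `x_232(1) x_233(1)`, `x_228(1) x_222(1) x_218(1)`, `x_226(1) x_220(1) x_213(1) x_216(1)` have order two
and are pairwise non-conjugate.  The 24 roots of `e8incI` form an abelian ideal that contains the roots of all
four representatives; shapes in its root product are invariant under the Borel subgroup
(`Cfsg.Agent.Helper17.AbIdeal`), and the Weyl group preserves orthogonality.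
-/
import Cfsg.Agent.Helper17.E8Orth

set_option autoImplicit false

namespace Cfsg.Agent.Helper38

open Cfsg Cfsg.Lie Cfsg.Agent.Helper36 Cfsg.Agent.Helper17 Cfsg.Agent.Helper18

section E8INC

variable {F : Type*} [Field F] {η : ℕ → ℕ → ℤ}

/-- The abelian ideal. -/
def e8incI : List ℕ := [213, 216, 217, 218, 220, 221, 222, 223, 224, 225, 226, 227, 228, 229, 230, 231, 232, 233, 234, 235, 236, 237, 238, 239]

/-- The covering pairs `γ → γ + q` inside the ideal. -/
def e8incE : List (ℕ × ℕ) := [(213, 217), (213, 218), (213, 222), (213, 223), (213, 225), (213, 229), (213, 230), (213, 233), (213, 234), (213, 237), (213, 238), (213, 239), (216, 217), (216, 218), (216, 221), (216, 224), (216, 225), (216, 228), (216, 231), (216, 233), (216, 235), (216, 236), (216, 238), (216, 239), (217, 218), (217, 222), (217, 224), (217, 225), (217, 229), (217, 231), (217, 233), (217, 235), (217, 237), (217, 238), (217, 239), (218, 223), (218, 224), (218, 225), (218,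 230), (218, 231), (218, 233), (218, 236), (218, 237), (218, 238), (218, 239), (220, 221), (220, 222), (220, 223), (220, 224), (220, 225), (220, 227), (220, 232), (220, 234), (220, 235), (220, 236), (220, 237), (220, 239), (221, 222), (221, 223), (221, 224), (221, 225), (221, 228), (221, 232), (221, 234), (221, 235), (221, 236), (221, 238), (221, 239), (222, 223), (222, 224), (222, 225), (222, 229), (222, 232), (222, 234), (222, 235), (222, 237), (222, 238), (222, 239), (223, 224), (223, 225), (223, 230), (223, 232), (223, 234), (223, 236), (223, 237), (223, 238), (223, 239), (224, 225), (224, 231), (224, 232), (224, 235), (224, 236), (224, 237), (224, 238), (224, 239), (225, 233), (225, 234), (225, 235), (225, 236), (225, 237), (225, 238), (225, 239), (226, 227), (226, 228), (226, 229), (226, 230), (226, 231), (226, 232), (226, 233), (226, 234), (226, 235), (226, 236), (226, 237), (226, 238), (227, 228), (227, 229), (227, 230), (227, 231), (227,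 232), (227, 233), (227, 234), (227, 235), (227, 236), (227, 237), (227, 239), (228, 229), (228, 230), (228, 231), (228, 232), (228, 233), (228, 234), (228, 235), (228, 236), (228, 238), (228, 239), (229, 230), (229, 231), (229, 232), (229, 233), (229, 234), (229, 235), (229, 237), (229, 238), (229, 239), (230, 231), (230, 232), (230, 233), (230, 234), (230, 236), (230, 237), (230, 238), (230, 239), (231, 232), (231, 233), (231, 235), (231, 236), (231, 237), (231, 238), (231, 239), (232, 234), (232, 235), (232, 236), (232, 237), (232, 238), (232, 239), (233, 234), (233, 235), (233, 236), (233, 237), (233, 238), (233, 239), (234, 235), (234, 236), (234, 237), (234, 238), (234, 239), (235, 236), (235, 237), (235, 238), (235, 239), (236, 237), (236, 238), (236, 239), (237, 238), (237, 239), (238, 239)]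

def e8incZ3 : List ℕ := [213, 216, 217, 220, 221, 226, 227]
def e8incZ2 : List ℕ := [213, 216, 217, 218, 220, 221, 222, 223, 224, 225, 226, 227, 228, 229, 230, 231]
def e8incZ1 : List ℕ := [213, 216, 217, 218, 220, 221, 222, 223, 224, 225, 226, 227, 228, 229, 230, 231, 232, 233, 234, 235, 236, 237, 238]

set_option maxRecDepth 1000000 in
theorem e8inc_commTab : ∀ γ ∈ e8incI, ∀ γ' ∈ e8incI,
    γ = γ' ∨ (γ' ≠ γ ∧ γ' ≠ chevE8.neg γ ∧ chevE8.commTerms γ γ' = []) := by decide +kernel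

set_option maxRecDepth 1000000 in
theorem e8inc_posTab : ∀ γ ∈ e8incI, chevE8.IsPosRoot γ := by decide +kernel

set_option maxRecDepth 1000000 in
theorem e8inc_edgeTab : ∀ q ∈ chevE8.posRoots, ∀ γ ∈ e8incI, AbiEdge chevE8 e8incI e8incE q γ := by
  decide +kernel

set_option maxRecDepth 1000000 in
theorem e8inc_E4 : ∀ e ∈ e8incE, e.2 ∈ [226, 220, 213, 216] ++ [] → e.1 ∈ ([] : List ℕ) := by decide +kernel
set_option maxRecDepth 1000000 in
theorem e8inc_E3 : ∀ e ∈ e8incE, e.2 ∈ [228, 222, 218] ++ e8incZ3 → e.1 ∈ e8incZ3 := by decide +kernel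
set_option maxRecDepth 1000000 in
theorem e8inc_E2 : ∀ e ∈ e8incE, e.2 ∈ [232, 233] ++ e8incZ2 → e.1 ∈ e8incZ2 := by decide +kernel
set_option maxRecDepth 1000000 in
theorem e8inc_E1 : ∀ e ∈ e8incE, e.2 ∈ [239] ++ e8incZ1 → e.1 ∈ e8incZ1 := by decide +kernel
set_option maxRecDepth 1000000 in
theorem e8inc_E0 : ∀ e ∈ e8incE, e.2 ∈ [] ++ e8incI → e.1 ∈ e8incI := by decide +kernel

theorem e8inc_orthOK : abiOrthOK chevE8 = true := abiOrthOK_E8

set_option maxRecDepth 1000000 in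
theorem e8inc_orthTab : abiPair chevE8 232 233 = 0 ∧ abiPair chevE8 228 222 = 0 ∧
    abiPair chevE8 228 218 = 0 ∧ abiPair chevE8 222 218 = 0 ∧ abiPair chevE8 226 220 = 0 ∧
    abiPair chevE8 226 213 = 0 ∧ abiPair chevE8 226 216 = 0 ∧ abiPair chevE8 220 213 = 0 ∧
    abiPair chevE8 220 216 = 0 ∧ abiPair chevE8 213 216 = 0 ∧ abiPair chevE8 239 239 ≠ 0 := by
  decide +kernel

set_option maxRecDepth 1000000 in
theorem e8inc_noTriple : ∀ a ∈ [232, 233, 234, 235, 236, 237, 238, 239], ∀ b ∈ [232, 233, 234, 235, 236, 237, 238, 239],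
    abiPair chevE8 a b = 0 → ∀ c ∈ [232, 233, 234, 235, 236, 237, 238, 239], abiPair chevE8 a c = 0 →
      abiPair chevE8 b c = 0 → False := by decide +kernel

set_option maxRecDepth 1000000 in
theorem e8inc_noQuad : ∀ a ∈ [218, 219, 220, 221, 222, 223, 224, 225, 226, 227, 228, 229, 230, 231, 232, 233, 234, 235, 236, 237, 238, 239],
    ∀ b ∈ [218, 219, 220, 221, 222, 223, 224, 225, 226, 227, 228, 229, 230, 231, 232, 233, 234, 235, 236, 237, 238, 239],
    abiPair chevE8 a b = 0 →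
    ∀ c ∈ [218, 219, 220, 221, 222, 223, 224, 225, 226, 227, 228, 229, 230, 231, 232, 233, 234, 235, 236, 237, 238, 239],
    abiPair chevE8 a c = 0 → abiPair chevE8 b c = 0 →
    ∀ d ∈ [218, 219, 220, 221, 222, 223, 224, 225, 226, 227, 228, 229, 230, 231, 232, 233, 234, 235, 236, 237, 238, 239],
    abiPair chevE8 a d = 0 → abiPair chevE8 b d = 0 → abiPair chevE8 c d = 0 → False := by
  decide +kernel

theorem e8inc_comm (R : BRel chevE8 F η) : AbiComm R e8incI := by
  intro γ hγ γ' hγ' a b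
  rcases e8inc_commTab γ hγ γ' hγ' with rfl | ⟨h1, h2, h3⟩
  · rw [xGL_mul, xGL_mul, add_comm]
  · have h := abi_conj_nil R (e8inc_posTab γ hγ).1 (e8inc_posTab γ' hγ').1 h1 h2 h3 a b
    exact (chCent_comm_of_conj h).symm

theorem e8inc_hD7 : chevE8 ∈ [chevG2, chevB2, chevD4, chevF4, chevE6, chevE7, chevE8] := by simp

/-- The four shapes and the shape of the identity. -/
def e8incSh4 (R : BRel chevE8 F η) : GL chevE8.Idx F → Prop := AbiSh R e8incI [226, 220, 213, 216] []
def e8incSh3 (R : BRel chevE8 F η) : GL chevE8.Idx F → Prop := AbiSh R e8incI [228, 222, 218] e8incZ3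
def e8incSh2 (R : BRel chevE8 F η) : GL chevE8.Idx F → Prop := AbiSh R e8incI [232, 233] e8incZ2
def e8incSh1 (R : BRel chevE8 F η) : GL chevE8.Idx F → Prop := AbiSh R e8incI [239] e8incZ1
def e8incSh0 (R : BRel chevE8 F η) : GL chevE8.Idx F → Prop := AbiSh R e8incI [] e8incI

theorem e8inc_sh1 (R : BRel chevE8 F η) {e : F} (he : e ≠ 0) : e8incSh1 R (xGL R.xadd 239 e) := by
  refine ⟨fun γ => if γ = 239 then e else 0, ?_, ?_, (abi_prod_single R (by decide) (by decide) e).symm⟩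
  · intro γ hγ
    simp only [List.mem_cons, List.not_mem_nil, or_false] at hγ
    subst hγ
    simpa using he
  · intro γ hγ
    have h1 : γ ≠ 239 := by rintro rfl; exact absurd hγ (by decide)
    simp [h1]

theorem e8inc_sh2 (R : BRel chevE8 F η) {d1 d2 : F} (h1 : d1 ≠ 0) (h2 : d2 ≠ 0) :
    e8incSh2 R (xGL R.xadd 232 d1 * xGL R.xadd 233 d2) := by
  refine ⟨fun γ => (if γ = 232 then d1 else 0) + (if γ = 233 then d2 else 0), ?_, ?_, ?_⟩
  · intro γ hγ
    simp only [List.mem_cons, List.not_mem_nil, or_false] at hγ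
    rcases hγ with rfl | rfl
    · simpa using h1
    · simpa using h2
  · intro γ hγ
    have e1 : γ ≠ 232 := by rintro rfl; exact absurd hγ (by decide)
    have e2 : γ ≠ 233 := by rintro rfl; exact absurd hγ (by decide)
    simp [e1, e2]
  · rw [← abi_prod_mul R (e8inc_comm R) (fun x hx => hx), abi_prod_single R (by decide) (by decide),
      abi_prod_single R (by decide) (by decide)]

theorem e8inc_sh3 (R : BRel chevE8 F η) {c1 c2 c3 : F} (h1 : c1 ≠ 0) (h2 : c2 ≠ 0) (h3 : c3 ≠ 0) :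
    e8incSh3 R (xGL R.xadd 228 c1 * xGL R.xadd 222 c2 * xGL R.xadd 218 c3) := by
  refine ⟨fun γ => ((if γ = 228 then c1 else 0) + (if γ = 222 then c2 else 0)) +
    (if γ = 218 then c3 else 0), ?_, ?_, ?_⟩
  · intro γ hγ
    simp only [List.mem_cons, List.not_mem_nil, or_false] at hγ
    rcases hγ with rfl | rfl | rfl
    · simpa using h1
    · simpa using h2
    · simpa using h3
  · intro γ hγ
    have e1 : γ ≠ 228 := by rintro rfl; exact absurd hγ (by decide)
    have e2 : γ ≠ 222 := by rintro rfl; exact absurd hγ (by decide)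
    have e3 : γ ≠ 218 := by rintro rfl; exact absurd hγ (by decide)
    simp [e1, e2, e3]
  · rw [← abi_prod_mul R (e8inc_comm R) (fun x hx => hx), ← abi_prod_mul R (e8inc_comm R) (fun x hx => hx),
      abi_prod_single R (by decide) (by decide), abi_prod_single R (by decide) (by decide),
      abi_prod_single R (by decide) (by decide)]

theorem e8inc_sh4 (R : BRel chevE8 F η) {c1 c2 c3 c4 : F} (h1 : c1 ≠ 0) (h2 : c2 ≠ 0) (h3 : c3 ≠ 0)
    (h4 : c4 ≠ 0) :
    e8incSh4 R (xGL R.xadd 226 c1 * xGL R.xadd 220 c2 * xGL R.xadd 213 c3 * xGL R.xadd 216 c4) := by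
  refine ⟨fun γ => (((if γ = 226 then c1 else 0) + (if γ = 220 then c2 else 0)) +
    (if γ = 213 then c3 else 0)) + (if γ = 216 then c4 else 0), ?_, ?_, ?_⟩
  · intro γ hγ
    simp only [List.mem_cons, List.not_mem_nil, or_false] at hγ
    rcases hγ with rfl | rfl | rfl | rfl
    · simpa using h1
    · simpa using h2
    · simpa using h3
    · simpa using h4
  · intro γ hγ
    exact absurd hγ List.not_mem_nil
  · rw [← abi_prod_mul R (e8inc_comm R) (fun x hx => hx), ← abi_prod_mul R (e8inc_comm R) (fun x hx => hx),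
      ← abi_prod_mul R (e8inc_comm R) (fun x hx => hx),
      abi_prod_single R (by decide) (by decide), abi_prod_single R (by decide) (by decide),
      abi_prod_single R (by decide) (by decide), abi_prod_single R (by decide) (by decide)]

theorem e8inc_sh0 (R : BRel chevE8 F η) : e8incSh0 R (1 : GL chevE8.Idx F) :=
  ⟨fun _ => 0, fun _ h => absurd h List.not_mem_nil, fun _ _ => rfl, (abi_prod_zero R e8incI).symm⟩

/-- The Weyl word of a conjugation between two shapes. -/
theorem e8inc_word [CharP F 2] (R : BRel chevE8 F η) {h : GL chevE8.Idx F} (hh : h ∈ chevE8.group F)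
    {M Z M' Z' : List ℕ} (hM : ∀ γ ∈ M, γ ∈ e8incI) (hM' : ∀ γ ∈ M', γ ∈ e8incI)
    (hE : ∀ e ∈ e8incE, e.2 ∈ M ++ Z → e.1 ∈ Z) (hE' : ∀ e ∈ e8incE, e.2 ∈ M' ++ Z' → e.1 ∈ Z')
    {m : ℕ} (hm : m < chevE8.nroots) (hZ' : ∀ γ ∈ e8incI, γ ∉ Z' → m ≤ γ)
    {y z : GL chevE8.Idx F} (hy : AbiSh R e8incI M Z y) (hz : AbiSh R e8incI M' Z' z)
    (heq : h * y * h⁻¹ = z) :
    ∃ L, ValidW chevE8 L ∧ (∀ γ ∈ M, m ≤ wW chevE8 L γ ∧ wW chevE8 L γ < 240) ∧
      ∀ a ∈ e8incI, ∀ b ∈ e8incI, abiPair chevE8 a b = 0 →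
        abiPair chevE8 (wW chevE8 L a) (wW chevE8 L b) = 0 := by
  have hW := wtFacts_of_wtOK chainPackOK_E8 wtOK_E8
  have hE8 : RootElts chevE8 F := rootElts_of_mem e8inc_hD7
  obtain ⟨L, hL, hr⟩ := abi_bruhat R hW hE8 (l := e8incI) (by decide) (e8inc_comm R) e8inc_posTab
    hM hM' (abi_act_of_edges e8inc_edgeTab hE) (abi_act_of_edges e8inc_edgeTab hE') hh hy hz heq hm hZ'
  refine ⟨L, hL, hr, ?_⟩
  intro a ha b hb hab
  exact abi_orth_wW R.wf e8inc_orthOK (e8inc_posTab a ha).1 (e8inc_posTab b hb).1 hab L hL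

/-- Two orthogonal roots cannot both be moved to the highest root. -/
theorem e8inc_nc_top [CharP F 2] (R : BRel chevE8 F η) {h : GL chevE8.Idx F} (hh : h ∈ chevE8.group F)
    {M Z M' Z' : List ℕ} {a b : ℕ} (ha : a ∈ M) (hb : b ∈ M) (hab : abiPair chevE8 a b = 0)
    (hM : ∀ γ ∈ M, γ ∈ e8incI) (hM' : ∀ γ ∈ M', γ ∈ e8incI)
    (hE : ∀ e ∈ e8incE, e.2 ∈ M ++ Z → e.1 ∈ Z) (hE' : ∀ e ∈ e8incE, e.2 ∈ M' ++ Z' → e.1 ∈ Z')
    (hZ' : ∀ γ ∈ e8incI, γ ∉ Z' → 239 ≤ γ)
    {y z : GL chevE8.Idx F} (hy : AbiSh R e8incI M Z y) (hz : AbiSh R e8incI M' Z' z) :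
    h * y * h⁻¹ ≠ z := by
  intro heq
  obtain ⟨L, hL, hr, ho⟩ := e8inc_word R hh hM hM' hE hE' (m := 239) (by decide) hZ' hy hz heq
  have o1 := ho a (hM a ha) b (hM b hb) hab
  have r1 := hr a ha
  have r2 := hr b hb
  have e1 : wW chevE8 L a = 239 := by omega
  have e2 : wW chevE8 L b = 239 := by omega
  rw [e1, e2] at o1
  exact e8inc_orthTab.2.2.2.2.2.2.2.2.2.2 o1

/-- Three pairwise orthogonal roots cannot be moved above the root `232`. -/
theorem e8inc_nc_232 [CharP F 2] (R : BRel chevE8 F η) {h : GL chevE8.Idx F} (hh : h ∈ chevE8.group F)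
    {M Z M' Z' : List ℕ} {a b c : ℕ} (ha : a ∈ M) (hb : b ∈ M) (hc : c ∈ M)
    (hab : abiPair chevE8 a b = 0) (hac : abiPair chevE8 a c = 0) (hbc : abiPair chevE8 b c = 0)
    (hM : ∀ γ ∈ M, γ ∈ e8incI) (hM' : ∀ γ ∈ M', γ ∈ e8incI)
    (hE : ∀ e ∈ e8incE, e.2 ∈ M ++ Z → e.1 ∈ Z) (hE' : ∀ e ∈ e8incE, e.2 ∈ M' ++ Z' → e.1 ∈ Z')
    (hZ' : ∀ γ ∈ e8incI, γ ∉ Z' → 232 ≤ γ)
    {y z : GL chevE8.Idx F} (hy : AbiSh R e8incI M Z y) (hz : AbiSh R e8incI M' Z' z) :
    h * y * h⁻¹ ≠ z := by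
  intro heq
  obtain ⟨L, hL, hr, ho⟩ := e8inc_word R hh hM hM' hE hE' (m := 232) (by decide) hZ' hy hz heq
  have o1 := ho a (hM a ha) b (hM b hb) hab
  have o2 := ho a (hM a ha) c (hM c hc) hac
  have o3 := ho b (hM b hb) c (hM c hc) hbc
  have r1 := hr a ha
  have r2 := hr b hb
  have r3 := hr c hc
  have m1 : wW chevE8 L a ∈ [232, 233, 234, 235, 236, 237, 238, 239] := by
    simp only [List.mem_cons, List.not_mem_nil, or_false]; omega
  have m2 : wW chevE8 L b ∈ [232, 233, 234, 235, 236, 237, 238, 239] := by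
    simp only [List.mem_cons, List.not_mem_nil, or_false]; omega
  have m3 : wW chevE8 L c ∈ [232, 233, 234, 235, 236, 237, 238, 239] := by
    simp only [List.mem_cons, List.not_mem_nil, or_false]; omega
  exact e8inc_noTriple _ m1 _ m2 o1 _ m3 o2 o3

/-- Four pairwise orthogonal roots cannot be moved above the root `218`. -/
theorem e8inc_nc_218 [CharP F 2] (R : BRel chevE8 F η) {h : GL chevE8.Idx F} (hh : h ∈ chevE8.group F)
    {y z : GL chevE8.Idx F} (hy : e8incSh4 R y) (hz : e8incSh3 R z) : h * y * h⁻¹ ≠ z := by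
  intro heq
  obtain ⟨L, hL, hr, ho⟩ := e8inc_word R hh (by decide) (by decide) e8inc_E4 e8inc_E3 (m := 218)
    (by decide) (by decide) hy hz heq
  have t := e8inc_orthTab
  have o12 := ho 226 (by decide) 220 (by decide) t.2.2.2.2.1
  have o13 := ho 226 (by decide) 213 (by decide) t.2.2.2.2.2.1
  have o14 := ho 226 (by decide) 216 (by decide) t.2.2.2.2.2.2.1
  have o23 := ho 220 (by decide) 213 (by decide) t.2.2.2.2.2.2.2.1
  have o24 := ho 220 (by decide) 216 (by decide) t.2.2.2.2.2.2.2.2.1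
  have o34 := ho 213 (by decide) 216 (by decide) t.2.2.2.2.2.2.2.2.2.1
  have r1 := hr 226 (by decide)
  have r2 := hr 220 (by decide)
  have r3 := hr 213 (by decide)
  have r4 := hr 216 (by decide)
  have m1 : wW chevE8 L 226 ∈ [218, 219, 220, 221, 222, 223, 224, 225, 226, 227, 228, 229, 230, 231, 232, 233, 234, 235, 236, 237, 238, 239] := by
    simp only [List.mem_cons, List.not_mem_nil, or_false]; omega
  have m2 : wW chevE8 L 220 ∈ [218, 219, 220, 221, 222, 223, 224, 225, 226, 227, 228, 229, 230, 231, 232, 233, 234, 235, 236, 237, 238, 239] := by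
    simp only [List.mem_cons, List.not_mem_nil, or_false]; omega
  have m3 : wW chevE8 L 213 ∈ [218, 219, 220, 221, 222, 223, 224, 225, 226, 227, 228, 229, 230, 231, 232, 233, 234, 235, 236, 237, 238, 239] := by
    simp only [List.mem_cons, List.not_mem_nil, or_false]; omega
  have m4 : wW chevE8 L 216 ∈ [218, 219, 220, 221, 222, 223, 224, 225, 226, 227, 228, 229, 230, 231, 232, 233, 234, 235, 236, 237, 238, 239] := by
    simp only [List.mem_cons, List.not_mem_nil, or_false]; omega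
  exact e8inc_noQuad _ m1 _ m2 o12 _ m3 o13 o23 _ m4 o14 o24 o34

/-- PIECE NC: the four representatives (with arbitrary non-zero parameters) are pairwise non-conjugate. -/
theorem e8i_noconj_gen [CharP F 2] (R : BRel chevE8 F η) {h : GL chevE8.Idx F} (hh : h ∈ chevE8.group F)
    {e d1 d2 c1 c2 c3 b1 b2 b3 b4 : F} (he : e ≠ 0) (hd1 : d1 ≠ 0) (hd2 : d2 ≠ 0) (hc1 : c1 ≠ 0)
    (hc2 : c2 ≠ 0) (hc3 : c3 ≠ 0) (hb1 : b1 ≠ 0) (hb2 : b2 ≠ 0) (hb3 : b3 ≠ 0) (hb4 : b4 ≠ 0) :
    h * (xGL R.xadd 232 d1 * xGL R.xadd 233 d2) * h⁻¹ ≠ xGL R.xadd 239 e ∧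
    h * (xGL R.xadd 228 c1 * xGL R.xadd 222 c2 * xGL R.xadd 218 c3) * h⁻¹ ≠ xGL R.xadd 239 e ∧
    h * (xGL R.xadd 226 b1 * xGL R.xadd 220 b2 * xGL R.xadd 213 b3 * xGL R.xadd 216 b4) * h⁻¹ ≠
      xGL R.xadd 239 e ∧
    h * (xGL R.xadd 228 c1 * xGL R.xadd 222 c2 * xGL R.xadd 218 c3) * h⁻¹ ≠
      xGL R.xadd 232 d1 * xGL R.xadd 233 d2 ∧
    h * (xGL R.xadd 226 b1 * xGL R.xadd 220 b2 * xGL R.xadd 213 b3 * xGL R.xadd 216 b4) * h⁻¹ ≠
      xGL R.xadd 232 d1 * xGL R.xadd 233 d2 ∧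
    h * (xGL R.xadd 226 b1 * xGL R.xadd 220 b2 * xGL R.xadd 213 b3 * xGL R.xadd 216 b4) * h⁻¹ ≠
      xGL R.xadd 228 c1 * xGL R.xadd 222 c2 * xGL R.xadd 218 c3 := by
  have t := e8inc_orthTab
  refine ⟨?_, ?_, ?_, ?_, ?_, ?_⟩
  · exact e8inc_nc_top R hh (a := 232) (b := 233) (by decide) (by decide) t.1
      (by decide) (by decide) e8inc_E2 e8inc_E1 (by decide) (e8inc_sh2 R hd1 hd2) (e8inc_sh1 R he)
  · exact e8inc_nc_top R hh (a := 228) (b := 222) (by decide) (by decide) t.2.1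
      (by decide) (by decide) e8inc_E3 e8inc_E1 (by decide) (e8inc_sh3 R hc1 hc2 hc3) (e8inc_sh1 R he)
  · exact e8inc_nc_top R hh (a := 226) (b := 220) (by decide) (by decide) t.2.2.2.2.1
      (by decide) (by decide) e8inc_E4 e8inc_E1 (by decide) (e8inc_sh4 R hb1 hb2 hb3 hb4)
      (e8inc_sh1 R he)
  · exact e8inc_nc_232 R hh (a := 228) (b := 222) (c := 218) (by decide) (by decide) (by decide)
      t.2.1 t.2.2.1 t.2.2.2.1 (by decide) (by decide) e8inc_E3 e8inc_E2 (by decide)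
      (e8inc_sh3 R hc1 hc2 hc3) (e8inc_sh2 R hd1 hd2)
  · exact e8inc_nc_232 R hh (a := 226) (b := 220) (c := 213) (by decide) (by decide) (by decide)
      t.2.2.2.2.1 t.2.2.2.2.2.1 t.2.2.2.2.2.2.2.1 (by decide) (by decide) e8inc_E4 e8inc_E2 (by decide)
      (e8inc_sh4 R hb1 hb2 hb3 hb4) (e8inc_sh2 R hd1 hd2)
  · exact e8inc_nc_218 R hh (e8inc_sh4 R hb1 hb2 hb3 hb4) (e8inc_sh3 R hc1 hc2 hc3)

/-- PIECE NC. -/
theorem e8i_noconj [CharP F 2] (R : BRel chevE8 F η) {h : GL chevE8.Idx F} (hh : h ∈ chevE8.group F) :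
    h * (xGL R.xadd 232 (1 : F) * xGL R.xadd 233 1) * h⁻¹ ≠ xGL R.xadd 239 1 ∧
    h * (xGL R.xadd 228 (1 : F) * xGL R.xadd 222 1 * xGL R.xadd 218 1) * h⁻¹ ≠ xGL R.xadd 239 1 ∧
    h * (xGL R.xadd 226 (1 : F) * xGL R.xadd 220 1 * xGL R.xadd 213 1 * xGL R.xadd 216 1) * h⁻¹ ≠
      xGL R.xadd 239 1 ∧
    h * (xGL R.xadd 228 (1 : F) * xGL R.xadd 222 1 * xGL R.xadd 218 1) * h⁻¹ ≠
      xGL R.xadd 232 1 * xGL R.xadd 233 1 ∧
    h * (xGL R.xadd 226 (1 : F) * xGL R.xadd 220 1 * xGL R.xadd 213 1 * xGL R.xadd 216 1) * h⁻¹ ≠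
      xGL R.xadd 232 1 * xGL R.xadd 233 1 ∧
    h * (xGL R.xadd 226 (1 : F) * xGL R.xadd 220 1 * xGL R.xadd 213 1 * xGL R.xadd 216 1) * h⁻¹ ≠
      xGL R.xadd 228 1 * xGL R.xadd 222 1 * xGL R.xadd 218 1 :=
  e8i_noconj_gen R hh one_ne_zero one_ne_zero one_ne_zero one_ne_zero one_ne_zero one_ne_zero one_ne_zero
    one_ne_zero one_ne_zero one_ne_zero

theorem e8inc_two {G : Type*} [Group G] {g : G} (h2 : g * g = 1) (h1 : g ≠ 1) : orderOf g = 2 := by
  haveI : Fact (Nat.Prime 2) := ⟨Nat.prime_two⟩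
  exact orderOf_eq_prime (by rw [pow_two]; exact h2) h1

theorem e8inc_sq [CharP F 2] (R : BRel chevE8 F η) (r : ℕ) (t : F) :
    xGL R.xadd r t * xGL R.xadd r t = 1 := by
  rw [xGL_mul, CharTwo.add_self_eq_zero, xGL_zero]

theorem e8inc_sq2 {G : Type*} [Group G] {a b : G} (ha : a * a = 1) (hb : b * b = 1) (hc : a * b = b * a) :
    (a * b) * (a * b) = 1 := by
  calc (a * b) * (a * b) = a * (b * a) * b := by group
    _ = a * (a * b) * b := by rw [hc]
    _ = (a * a) * (b * b) := by group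
    _ = 1 := by rw [ha, hb, one_mul]

theorem e8inc_comm3 {G : Type*} [Group G] {a b c : G} (hac : a * c = c * a) (hbc : b * c = c * b) :
    a * b * c = c * (a * b) := by
  rw [mul_assoc, hbc, ← mul_assoc, hac, mul_assoc]

/-- PIECE ORD. -/
theorem e8i_order [CharP F 2] (R : BRel chevE8 F η) :
    orderOf (xGL R.xadd 239 (1 : F)) = 2 ∧
    orderOf (xGL R.xadd 232 (1 : F) * xGL R.xadd 233 1) = 2 ∧
    orderOf (xGL R.xadd 228 (1 : F) * xGL R.xadd 222 1 * xGL R.xadd 218 1) = 2 ∧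
    orderOf (xGL R.xadd 226 (1 : F) * xGL R.xadd 220 1 * xGL R.xadd 213 1 * xGL R.xadd 216 1) = 2 := by
  have hone : (1 : GL chevE8.Idx F) ∈ chevE8.group F := one_mem _
  have t := e8inc_orthTab
  have cm : ∀ a ∈ e8incI, ∀ b ∈ e8incI,
      xGL R.xadd a (1 : F) * xGL R.xadd b 1 = xGL R.xadd b 1 * xGL R.xadd a 1 :=
    fun a ha b hb => e8inc_comm R a ha b hb 1 1
  have c2 := cm 232 (by decide) 233 (by decide)
  have c3a := cm 228 (by decide) 222 (by decide)
  have c3 := e8inc_comm3 (cm 228 (by decide) 218 (by decide)) (cm 222 (by decide) 218 (by decide))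
  have c4a := cm 226 (by decide) 220 (by decide)
  have c4b := e8inc_comm3 (cm 226 (by decide) 213 (by decide)) (cm 220 (by decide) 213 (by decide))
  have c4 : xGL R.xadd 226 (1 : F) * xGL R.xadd 220 1 * xGL R.xadd 213 1 * xGL R.xadd 216 1 =
      xGL R.xadd 216 1 * (xGL R.xadd 226 (1 : F) * xGL R.xadd 220 1 * xGL R.xadd 213 1) := by
    apply e8inc_comm3 _ (cm 213 (by decide) 216 (by decide))
    exact e8inc_comm3 (cm 226 (by decide) 216 (by decide)) (cm 220 (by decide) 216 (by decide))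
  refine ⟨?_, ?_, ?_, ?_⟩
  · apply e8inc_two (e8inc_sq R 239 1)
    intro h
    have h3 := congrArg Units.val h
    rw [xGL_val, Units.val_one] at h3
    exact one_ne_zero (R.xinj 239 (by decide) _ h3)
  · apply e8inc_two (e8inc_sq2 (e8inc_sq R 232 1) (e8inc_sq R 233 1) c2)
    intro h
    refine e8inc_nc_top R hone (a := 232) (b := 233) (by decide) (by decide) t.1
      (by decide) (by decide) e8inc_E2 e8inc_E0 (by decide)
      (e8inc_sh2 R (one_ne_zero (α := F)) (one_ne_zero (α := F))) (e8inc_sh0 R) ?_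
    rw [h]; group
  · apply e8inc_two (e8inc_sq2 (e8inc_sq2 (e8inc_sq R 228 1) (e8inc_sq R 222 1) c3a) (e8inc_sq R 218 1) c3)
    intro h
    refine e8inc_nc_top R hone (a := 228) (b := 222) (by decide) (by decide) t.2.1
      (by decide) (by decide) e8inc_E3 e8inc_E0 (by decide)
      (e8inc_sh3 R (one_ne_zero (α := F)) (one_ne_zero (α := F)) (one_ne_zero (α := F))) (e8inc_sh0 R) ?_
    rw [h]; group
  · apply e8inc_two (e8inc_sq2 (e8inc_sq2 (e8inc_sq2 (e8inc_sq R 226 1) (e8inc_sq R 220 1) c4a)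
      (e8inc_sq R 213 1) c4b) (e8inc_sq R 216 1) c4)
    intro h
    refine e8inc_nc_top R hone (a := 226) (b := 220) (by decide) (by decide) t.2.2.2.2.1
      (by decide) (by decide) e8inc_E4 e8inc_E0 (by decide)
      (e8inc_sh4 R (one_ne_zero (α := F)) (one_ne_zero (α := F)) (one_ne_zero (α := F))
        (one_ne_zero (α := F))) (e8inc_sh0 R) ?_
    rw [h]; group

end E8INC

end Cfsg.Agent.Helper38
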