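/-
helper17: piece SYL of CALL S2176 (helper38) - an involution of `E₈(q)`, `q` even, is conjugate into `U`
(the index of `U` is odd).  Copy of `Cfsg.Agent.Helper38.g2i_sylow`.
-/
import Cfsg.Agent.Helper38.ChevCentF4e
import Cfsg.Agent.Helper18.FAut5

set_option autoImplicit false

namespace Cfsg.Agent.Helper38

open Cfsg Cfsg.Lie Cfsg.Agent.Helper36 Cfsg.Agent.Helper17 Cfsg.Agent.Helper18

section E8ISYL

variable {F : Type*} [Field F] {η : ℕ → ℕ → ℤ}

/-- PIECE SYL (copy of `g2i_sylow` with `Cfsg.Agent.Helper18.char_two_data`). -/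
theorem e8i_sylow [Fintype F] [CharP F 2] {g : GL chevE8.Idx F} (hg : g ∈ chevE8.group F)
    (hg2 : g * g = 1) : ∃ x ∈ chevE8.group F, x⁻¹ * g * x ∈ chevE8.posUnipotent F := by
  classical
  have hodd := (Cfsg.Agent.Helper18.char_two_data (F := F) (D := chevE8) (by simp)).2.2.1
  let g' : ↥(chevE8.group F) := ⟨g, hg⟩
  have hg'2 : g' ^ 2 = 1 := Subtype.ext (by rw [pow_two]; exact hg2)
  haveI : Fintype (↥(chevE8.group F) ⧸ (chevE8.posUnipotent F).subgroupOf (chevE8.group F)) :=
    Fintype.ofFinite _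
  have hc : ¬ 2 ∣ Fintype.card
      (↥(chevE8.group F) ⧸ (chevE8.posUnipotent F).subgroupOf (chevE8.group F)) := by
    rw [← Nat.card_eq_fintype_card, ← Subgroup.index_eq_card]
    exact hodd
  haveI : Fact (Nat.Prime 2) := ⟨Nat.prime_two⟩
  obtain ⟨q, hq⟩ := Equiv.Perm.exists_fixed_point_of_prime (p := 2) (n := 1) hc
    (σ := MulAction.toPermHom ↥(chevE8.group F)
      (↥(chevE8.group F) ⧸ (chevE8.posUnipotent F).subgroupOf (chevE8.group F)) g')
    (by rw [pow_one, ← map_pow, hg'2, map_one])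
  induction q using Quotient.inductionOn' with
  | h x =>
    have hq' : (QuotientGroup.mk (g' * x) :
        ↥(chevE8.group F) ⧸ (chevE8.posUnipotent F).subgroupOf (chevE8.group F)) =
        QuotientGroup.mk x := hq
    rw [QuotientGroup.eq] at hq'
    refine ⟨x, x.2, ?_⟩
    have h1 := inv_mem hq'
    have e : ((g' * x)⁻¹ * x)⁻¹ = x⁻¹ * g' * x := by group
    rw [e] at h1
    exact h1

end E8ISYL

end Cfsg.Agent.Helper38
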