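/-
helper17: piece NC of CALL S2174 (helper38) - in `F₄(K)`, characteristic two, the elements of the four types
`x_47(a)`, `x_44(b)`, `x_47(a) x_44(b)`, `x_39(1) x_45(1)` are pairwise non-conjugate.  Bruhat decomposition, the
conjugation of the abelian group `V = X_39 X_40 X_44 X_45 X_46 X_47` by the Borel subgroup and the weight
argument for `n_w` (`chLT_bruhat_word`).
-/
import Cfsg.Agent.Helper38.ChevCentF4e
import Cfsg.Agent.Helper18.FAut5

set_option autoImplicit false

namespace Cfsg.Agent.Helper38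

open Cfsg Cfsg.Lie Cfsg.Agent.Helper36 Cfsg.Agent.Helper17 Cfsg.Agent.Helper18

section F4INC

variable {F : Type*} [Field F] {η : ℕ → ℕ → ℤ}

/-- The products `x_44(u) x_47(v)` with prescribed vanishing of `u` and of `v`. -/
def f4inc_K (R : BRel chevF4 F η) (A B : Prop) (y : GL chevF4.Idx F) : Prop :=
  ∃ u v : F, (u = 0 ↔ A) ∧ (v = 0 ↔ B) ∧ y = xGL R.xadd 44 u * xGL R.xadd 47 v

theorem f4inc_conj_mul {G : Type*} [Group G] (g a b : G) :
    g * (a * b) * g⁻¹ = (g * a * g⁻¹) * (g * b * g⁻¹) := by group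

theorem f4inc_hx_ne (R : BRel chevF4 F η) {h : GL chevF4.Idx F} {r : ℕ} (hr : r < chevF4.nroots) {χ : F}
    (hχ : ∀ t : F, h * xGL R.xadd r t * h⁻¹ = xGL R.xadd r (χ * t)) : χ ≠ 0 := by
  intro e
  have h1 := hχ 1
  rw [e, zero_mul, xGL_zero] at h1
  have h2 : xGL R.xadd r (1 : F) = 1 := by
    calc xGL R.xadd r (1 : F) = h⁻¹ * (h * xGL R.xadd r 1 * h⁻¹) * h := by group
      _ = 1 := by rw [h1]; group
  have h3 := congrArg Units.val h2
  rw [xGL_val, Units.val_one] at h3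
  exact one_ne_zero (R.xinj r hr 1 h3)

theorem f4inc_K_conj_B [CharP F 2] (R : BRel chevF4 F η) (A B : Prop) {b : GL chevF4.Idx F}
    (hb : b ∈ chevF4.borelSubgroup F) {y : GL chevF4.Idx F} (hy : f4inc_K R A B y) :
    f4inc_K R A B (b * y * b⁻¹) := by
  apply chLT_conj_B R (f4inc_K R A B) _ _ hb hy
  · rintro q hq u₀ y ⟨u, v, hu, hv, rfl⟩
    have hq' : q ∈ posF4 := by
      rw [← chPosRoots_F4]
      exact mem_posRoots.mpr hq
    refine ⟨u, v, hu, hv, ?_⟩
    rw [f4inc_conj_mul, chF4_K_fix R (Or.inl hq') (by decide), chF4_K_fix R (Or.inl hq') (by decide)]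
  · rintro h hh y ⟨u, v, hu, hv, rfl⟩
    obtain ⟨χ1, hχ1⟩ := R.hx h hh 44 (by decide)
    obtain ⟨χ2, hχ2⟩ := R.hx h hh 47 (by decide)
    have h1 : χ1 ≠ 0 := f4inc_hx_ne R (by decide) hχ1
    have h2 : χ2 ≠ 0 := f4inc_hx_ne R (by decide) hχ2
    refine ⟨χ1 * u, χ2 * v, ?_, ?_, ?_⟩
    · rw [← hu]
      constructor
      · intro e
        exact (mul_eq_zero.mp e).resolve_left h1
      · intro e
        rw [e, mul_zero]
    · rw [← hv]
      constructor
      · intro e
        exact (mul_eq_zero.mp e).resolve_left h2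
      · intro e
        rw [e, mul_zero]
    · rw [f4inc_conj_mul, hχ1, hχ2]

theorem f4inc_short : ∀ L : List ℕ, ValidW chevF4 L → ∀ x ∈ shortF4, wW chevF4 L x ∈ shortF4 := by
  intro L
  induction L with
  | nil => intro _ x hx; exact hx
  | cons i L ih =>
    intro hL x hx
    rw [wW_cons]
    exact shortRefl_F4 i hL.head _ (ih hL.tail x hx)

theorem f4inc_V6 (R : BRel chevF4 F η) (a1 a2 a3 a4 a5 a6 : F) :
    chRootProd R gamF4 (c6F4 a1 a2 a3 a4 a5 a6) =
      xGL R.xadd 39 a1 * (xGL R.xadd 40 a2 * (xGL R.xadd 44 a3 * (xGL R.xadd 45 a4 *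
        (xGL R.xadd 46 a5 * xGL R.xadd 47 a6)))) := by
  rw [chF4_V_eq, c6F4_39, c6F4_40, c6F4_44, c6F4_45, c6F4_46, c6F4_47]

theorem f4inc_K6 (R : BRel chevF4 F η) (u v : F) :
    xGL R.xadd 44 u * xGL R.xadd 47 v = chRootProd R gamF4 (c6F4 0 0 u 0 0 v) := by
  rw [f4inc_V6]
  simp only [xGL_zero, one_mul]

/-- The weight argument: the roots with non-trivial coefficient go to the roots `44, ..., 47`. -/
theorem f4inc_range [CharP F 2] (R : BRel chevF4 F η) {L : List ℕ} (hL : ValidW chevF4 L) (c c' : ℕ → F)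
    (key : R.nW L * chRootProd R gamF4 c * (R.nW L)⁻¹ = chRootProd R gamF4 c') (h39 : c' 39 = 0)
    (h40 : c' 40 = 0) : ∀ γ ∈ gamF4, c γ ≠ 0 → wW chevF4 L γ ∈ [44, 45, 46, 47] := by
  have hD7 : chevF4 ∈ [chevG2, chevB2, chevD4, chevF4, chevE6, chevE7, chevE8] := by simp
  have hW := wtFacts_of_wtOK chainPackOK_F4 wtOK_F4
  have hE : RootElts chevF4 F := rootElts_of_mem hD7
  have hbw := chLT_bruhat_word R hW hE gamF4 (by decide)
    (fun γ hγ => chPos_F4 γ (gam_sub_pos_F4 γ hγ))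
    (fun γ hγ γ' hγ' a b => chF4_comm R hγ hγ' a b) hL c c' key
  intro γ hγ hc
  obtain ⟨hpos, γ', hγ', hc', hle⟩ := hbw γ hγ hc
  have hγ'lt : γ' < chevF4.nroots := (chPos_F4 γ' (gam_sub_pos_F4 γ' hγ')).1
  have h44' : 44 ≤ γ' := by
    have hm := hγ'
    simp only [gamF4, List.mem_cons, List.not_mem_nil, or_false] at hm
    rcases hm with rfl | rfl | rfl | rfl | rfl | rfl
    · exact absurd h39 hc'
    · exact absurd h40 hc'
    all_goals norm_num
  have h44 : 44 ≤ wW chevF4 L γ := by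
    by_contra hlt
    rw [not_le] at hlt
    have h1 := hW.mono _ _ hlt (by decide : 44 < chevF4.nroots)
    have h2 : wt wtPackF4 44 ≤ wt wtPackF4 γ' := chLT_mono_le hW h44' hγ'lt
    omega
  have h48 : wW chevF4 L γ < 48 := hpos.1
  simp only [List.mem_cons, List.not_mem_nil, or_false]
  omega

/-- The element `n_w` cannot conjugate an element of `V` with non-trivial components at `39` and `45` into
`X_44 X_47`. -/
theorem f4inc_nP [CharP F 2] (R : BRel chevF4 F η) {L : List ℕ} (hL : ValidW chevF4 L) (c : ℕ → F)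
    (h39 : c 39 ≠ 0) (h45 : c 45 ≠ 0) (u' v' : F)
    (key : R.nW L * chRootProd R gamF4 c * (R.nW L)⁻¹ = xGL R.xadd 44 u' * xGL R.xadd 47 v') : False := by
  rw [f4inc_K6 R] at key
  have hr := f4inc_range R hL c _ key (c6F4_39 _ _ _ _ _ _) (c6F4_40 _ _ _ _ _ _)
  have r39 := hr 39 (by decide) h39
  have r45 := hr 45 (by decide) h45
  have s39 : wW chevF4 L 39 ∈ shortF4 := f4inc_short L hL 39 (by decide)
  have e39 : wW chevF4 L 39 = 44 := by
    simp only [List.mem_cons, List.not_mem_nil, or_false] at r39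
    rcases r39 with e | e | e | e
    · exact e
    · rw [e] at s39; exact absurd s39 (by decide)
    · rw [e] at s39; exact absurd s39 (by decide)
    · rw [e] at s39; exact absurd s39 (by decide)
  have hp : (wW chevF4 L 39, wW chevF4 L 45) ∈ pairOrbF4 :=
    orbFn2_F4.mem_wW R.wf (by decide) (by decide) L hL
  rw [e39] at hp
  have hg45 : wW chevF4 L 45 ∈ gamF4 := by
    simp only [List.mem_cons, List.not_mem_nil, or_false] at r45
    rcases r45 with e | e | e | e <;> rw [e] <;> decide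
  have := (pairGam_F4 44 (by decide) _ hg45 hp).1
  omega

/-- The element `n_w` conjugates `x_44(u) x_47(v)` to `x_44(u') x_47(v')` only if the components vanish
together. -/
theorem f4inc_nK [CharP F 2] (R : BRel chevF4 F η) {L : List ℕ} (hL : ValidW chevF4 L) (u v u' v' : F)
    (key : R.nW L * (xGL R.xadd 44 u * xGL R.xadd 47 v) * (R.nW L)⁻¹ =
      xGL R.xadd 44 u' * xGL R.xadd 47 v') : (u = 0 ↔ u' = 0) ∧ (v = 0 ↔ v' = 0) := by
  have key6 : R.nW L * chRootProd R gamF4 (c6F4 0 0 u 0 0 v) * (R.nW L)⁻¹ =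
      chRootProd R gamF4 (c6F4 0 0 u' 0 0 v') := by
    rw [← f4inc_K6, ← f4inc_K6]
    exact key
  have hr := f4inc_range R hL _ _ key6 (c6F4_39 _ _ _ _ _ _) (c6F4_40 _ _ _ _ _ _)
  have he1 := R.eW_ne_zero (F := F) hL (by decide : 44 < chevF4.nroots)
  have he2 := R.eW_ne_zero (F := F) hL (by decide : 47 < chevF4.nroots)
  -- the image of the short root
  have hA : xGL R.xadd (wW chevF4 L 44) ((eW chevF4 η L 44 : F) * u) =
      xGL R.xadd 44 ((eW chevF4 η L 44 : F) * u) := by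
    by_cases hu : u = 0
    · rw [hu, mul_zero, xGL_zero, xGL_zero]
    · have r44 := hr 44 (by decide) (by rw [c6F4_44]; exact hu)
      have s44 : wW chevF4 L 44 ∈ shortF4 := f4inc_short L hL 44 (by decide)
      have e44 : wW chevF4 L 44 = 44 := by
        simp only [List.mem_cons, List.not_mem_nil, or_false] at r44
        rcases r44 with e | e | e | e
        · exact e
        · rw [e] at s44; exact absurd s44 (by decide)
        · rw [e] at s44; exact absurd s44 (by decide)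
        · rw [e] at s44; exact absurd s44 (by decide)
      rw [e44]
  -- the image of the long root
  have hB : ∃ k ∈ [45, 46, 47], xGL R.xadd (wW chevF4 L 47) ((eW chevF4 η L 47 : F) * v) =
      xGL R.xadd k ((eW chevF4 η L 47 : F) * v) ∧ (k ≠ 47 → v ≠ 0) := by
    by_cases hv : v = 0
    · exact ⟨47, by decide, by rw [hv, mul_zero, xGL_zero, xGL_zero], fun h => absurd rfl h⟩
    · have r47 := hr 47 (by decide) (by rw [c6F4_47]; exact hv)
      have hne : wW chevF4 L 47 ≠ 44 := by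
        intro e
        have h5 := R.wf.wW_reverse' hL (by decide : 47 < chevF4.nroots)
        rw [e] at h5
        have s := f4inc_short L.reverse hL.reverse 44 (by decide)
        rw [h5] at s
        exact absurd s (by decide)
      refine ⟨wW chevF4 L 47, ?_, rfl, fun _ => hv⟩
      simp only [List.mem_cons, List.not_mem_nil, or_false] at r47 ⊢
      omega
  obtain ⟨k, hk, hBk, hkv⟩ := hB
  have e1 : R.nW L * (xGL R.xadd 44 u * xGL R.xadd 47 v) * (R.nW L)⁻¹ =
      xGL R.xadd 44 ((eW chevF4 η L 44 : F) * u) * xGL R.xadd k ((eW chevF4 η L 47 : F) * v) := by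
    rw [f4inc_conj_mul, R.nW_conj_x hL (by decide : 44 < chevF4.nroots),
      R.nW_conj_x hL (by decide : 47 < chevF4.nroots), hA, hBk]
  rw [e1] at key
  have hzero : ∀ {e x : F}, e ≠ 0 → (e * x = 0 ↔ x = 0) := by
    intro e x he
    constructor
    · intro h
      exact (mul_eq_zero.mp h).resolve_left he
    · intro h
      rw [h, mul_zero]
  simp only [List.mem_cons, List.not_mem_nil, or_false] at hk
  rcases hk with rfl | rfl | rfl
  · exfalso
    have h6 : chRootProd R gamF4 (c6F4 0 0 ((eW chevF4 η L 44 : F) * u) ((eW chevF4 η L 47 : F) * v) 0 0) =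
        chRootProd R gamF4 (c6F4 0 0 u' 0 0 v') := by
      rw [f4inc_V6, f4inc_V6]
      simp only [xGL_zero, one_mul, mul_one]
      rw [key]
    have h7 := chF4_V_unique R h6 45 (by decide)
    rw [c6F4_45, c6F4_45] at h7
    exact hkv (by decide) ((hzero he2).mp h7)
  · exfalso
    have h6 : chRootProd R gamF4 (c6F4 0 0 ((eW chevF4 η L 44 : F) * u) 0 ((eW chevF4 η L 47 : F) * v) 0) =
        chRootProd R gamF4 (c6F4 0 0 u' 0 0 v') := by
      rw [f4inc_V6, f4inc_V6]
      simp only [xGL_zero, one_mul, mul_one]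
      rw [key]
    have h7 := chF4_V_unique R h6 46 (by decide)
    rw [c6F4_46, c6F4_46] at h7
    exact hkv (by decide) ((hzero he2).mp h7)
  · have h6 : chRootProd R gamF4 (c6F4 0 0 ((eW chevF4 η L 44 : F) * u) 0 0 ((eW chevF4 η L 47 : F) * v)) =
        chRootProd R gamF4 (c6F4 0 0 u' 0 0 v') := by
      rw [← f4inc_K6, ← f4inc_K6]
      exact key
    have h44 := chF4_V_unique R h6 44 (by decide)
    have h47 := chF4_V_unique R h6 47 (by decide)
    rw [c6F4_44, c6F4_44] at h44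
    rw [c6F4_47, c6F4_47] at h47
    rw [← h44, ← h47]
    exact ⟨(hzero he1).symm, (hzero he2).symm⟩

theorem f4inc_bruhat_eq {G : Type*} [Group G] (b₁ n h₀ b₂ y z : G)
    (h : (b₁ * (n * h₀) * b₂) * y * (b₁ * (n * h₀) * b₂)⁻¹ = z) :
    n * (h₀ * b₂ * y * (h₀ * b₂)⁻¹) * n⁻¹ = b₁⁻¹ * z * b₁⁻¹⁻¹ := by
  rw [← h]; group

/-- PIECE NC: the elements of the four types are pairwise non-conjugate.  All of them lie in the abelian group
`V = X_39 X_40 X_44 X_45 X_46 X_47` (`chRootProd R gamF4 c`). -/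
theorem f4i_noconj [CharP F 2] (R : BRel chevF4 F η) {h : GL chevF4.Idx F} (hh : h ∈ chevF4.group F)
    (a b a' b' : F) :
    (h * (xGL R.xadd 47 a * xGL R.xadd 44 b) * h⁻¹ = xGL R.xadd 47 a' * xGL R.xadd 44 b' →
      (a = 0 ↔ a' = 0) ∧ (b = 0 ↔ b' = 0)) ∧
    h * (xGL R.xadd 39 (1 : F) * xGL R.xadd 45 1) * h⁻¹ ≠ xGL R.xadd 47 a' * xGL R.xadd 44 b' := by
  obtain ⟨b₁, hb₁, n, hn, b₂, hb₂, rfl⟩ := R.bruhat h hh
  obtain ⟨L, hL, h₀, hh₀, rfl⟩ := R.exists_word n hn
  have hHB : chevF4.diagonalSubgroup F ≤ chevF4.borelSubgroup F := le_sup_right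
  have hb : h₀ * b₂ ∈ chevF4.borelSubgroup F := mul_mem (hHB hh₀) hb₂
  have hz : f4inc_K R (b' = 0) (a' = 0) (xGL R.xadd 47 a' * xGL R.xadd 44 b') :=
    ⟨b', a', Iff.rfl, Iff.rfl, (chF4_comm R (by decide) (by decide) b' a').symm⟩
  obtain ⟨u', v', hu', hv', ez⟩ := f4inc_K_conj_B R _ _ (inv_mem hb₁) hz
  constructor
  · intro heq
    have hy : f4inc_K R (b = 0) (a = 0) (xGL R.xadd 47 a * xGL R.xadd 44 b) :=
      ⟨b, a, Iff.rfl, Iff.rfl, (chF4_comm R (by decide) (by decide) b a).symm⟩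
    obtain ⟨u, v, hu, hv, ey⟩ := f4inc_K_conj_B R _ _ hb hy
    have key := f4inc_bruhat_eq b₁ (R.nW L) h₀ b₂ _ _ heq
    rw [ey, ez] at key
    obtain ⟨k1, k2⟩ := f4inc_nK R hL u v u' v' key
    exact ⟨hv.symm.trans (k2.trans hv'), hu.symm.trans (k1.trans hu')⟩
  · intro heq
    have hy : F4P R (xGL R.xadd 39 (1 : F) * xGL R.xadd 45 1) := by
      refine ⟨c6F4 1 0 0 1 0 0, ?_, ?_, ?_⟩
      · rw [c6F4_39]; exact one_ne_zero
      · rw [c6F4_45]; exact one_ne_zero
      · rw [f4inc_V6]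
        simp only [xGL_zero, one_mul, mul_one]
    obtain ⟨c, h39, h45, ey⟩ := F4P_conj_B R hb hy
    have key := f4inc_bruhat_eq b₁ (R.nW L) h₀ b₂ _ _ heq
    rw [ey, ez] at key
    exact f4inc_nP R hL c h39 h45 u' v' key

end F4INC

end Cfsg.Agent.Helper38
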