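/-
helper17: piece ORD of CALL S2174 (helper38) - the four representatives `x_47(1)`, `x_44(1)`, `x_47(1) x_44(1)`,
`x_39(1) x_45(1)` of `F₄(q)`, `q` even, have order two.
-/
import Cfsg.Agent.Helper38.ChevCentF4e
import Cfsg.Agent.Helper18.FAut5

set_option autoImplicit false

namespace Cfsg.Agent.Helper38

open Cfsg Cfsg.Lie Cfsg.Agent.Helper36 Cfsg.Agent.Helper17 Cfsg.Agent.Helper18

section F4IORD

variable {F : Type*} [Field F] {η : ℕ → ℕ → ℤ}

theorem f4iord_sq [CharP F 2] (R : BRel chevF4 F η) (r : ℕ) (t : F) :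
    xGL R.xadd r t * xGL R.xadd r t = 1 := by
  rw [xGL_mul, CharTwo.add_self_eq_zero, xGL_zero]

theorem f4iord_V6 (R : BRel chevF4 F η) (a1 a2 a3 a4 a5 a6 : F) :
    chRootProd R gamF4 (c6F4 a1 a2 a3 a4 a5 a6) =
      xGL R.xadd 39 a1 * (xGL R.xadd 40 a2 * (xGL R.xadd 44 a3 * (xGL R.xadd 45 a4 *
        (xGL R.xadd 46 a5 * xGL R.xadd 47 a6)))) := by
  rw [chF4_V_eq, c6F4_39, c6F4_40, c6F4_44, c6F4_45, c6F4_46, c6F4_47]

theorem f4iord_one (R : BRel chevF4 F η) : (1 : GL chevF4.Idx F) = chRootProd R gamF4 (c6F4 0 0 0 0 0 0) := by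
  rw [f4iord_V6]
  simp only [xGL_zero, one_mul]

theorem f4iord_two {G : Type*} [Group G] {g : G} (h2 : g * g = 1) (h1 : g ≠ 1) : orderOf g = 2 := by
  haveI : Fact (Nat.Prime 2) := ⟨Nat.prime_two⟩
  exact orderOf_eq_prime (by rw [pow_two]; exact h2) h1

theorem f4iord_sq2 {G : Type*} [Group G] {a b : G} (ha : a * a = 1) (hb : b * b = 1) (hc : a * b = b * a) :
    (a * b) * (a * b) = 1 := by
  calc (a * b) * (a * b) = a * (b * a) * b := by group
    _ = a * (a * b) * b := by rw [hc]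
    _ = (a * a) * (b * b) := by group
    _ = 1 := by rw [ha, hb, one_mul]

/-- PIECE ORD. -/
theorem f4i_order [CharP F 2] (R : BRel chevF4 F η) :
    orderOf (xGL R.xadd 47 (1 : F)) = 2 ∧ orderOf (xGL R.xadd 44 (1 : F)) = 2 ∧
    orderOf (xGL R.xadd 47 (1 : F) * xGL R.xadd 44 1) = 2 ∧
    orderOf (xGL R.xadd 39 (1 : F) * xGL R.xadd 45 1) = 2 := by
  refine ⟨?_, ?_, ?_, ?_⟩
  · apply f4iord_two (f4iord_sq R 47 1)
    intro h
    have e : chRootProd R gamF4 (c6F4 0 0 0 0 0 1) = chRootProd R gamF4 (c6F4 0 0 0 0 0 0) := by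
      rw [← f4iord_one, f4iord_V6]
      simp only [xGL_zero, one_mul]
      exact h
    have := chF4_V_unique R e 47 (by decide)
    rw [c6F4_47, c6F4_47] at this
    exact one_ne_zero this
  · apply f4iord_two (f4iord_sq R 44 1)
    intro h
    have e : chRootProd R gamF4 (c6F4 0 0 1 0 0 0) = chRootProd R gamF4 (c6F4 0 0 0 0 0 0) := by
      rw [← f4iord_one, f4iord_V6]
      simp only [xGL_zero, one_mul, mul_one]
      exact h
    have := chF4_V_unique R e 44 (by decide)
    rw [c6F4_44, c6F4_44] at this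
    exact one_ne_zero this
  · apply f4iord_two (f4iord_sq2 (f4iord_sq R 47 1) (f4iord_sq R 44 1)
      (chF4_comm R (by decide) (by decide) 1 1))
    intro h
    have e : chRootProd R gamF4 (c6F4 0 0 1 0 0 1) = chRootProd R gamF4 (c6F4 0 0 0 0 0 0) := by
      rw [← f4iord_one, f4iord_V6]
      simp only [xGL_zero, one_mul, mul_one]
      rw [← chF4_comm R (by decide : 47 ∈ gamF4) (by decide : 44 ∈ gamF4) 1 1]
      exact h
    have := chF4_V_unique R e 47 (by decide)
    rw [c6F4_47, c6F4_47] at this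
    exact one_ne_zero this
  · apply f4iord_two (f4iord_sq2 (f4iord_sq R 39 1) (f4iord_sq R 45 1)
      (chF4_comm R (by decide) (by decide) 1 1))
    intro h
    have e : chRootProd R gamF4 (c6F4 1 0 0 1 0 0) = chRootProd R gamF4 (c6F4 0 0 0 0 0 0) := by
      rw [← f4iord_one, f4iord_V6]
      simp only [xGL_zero, one_mul, mul_one]
      exact h
    have := chF4_V_unique R e 39 (by decide)
    rw [c6F4_39, c6F4_39] at this
    exact one_ne_zero this

end F4IORD

end Cfsg.Agent.Helper38
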