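import Mathlib
import Cfsg.Agent.Helper9.BRDefs
import Cfsg.Agent.Helper75.BRT3
import Cfsg.Agent.Helper75.BRT4
import Cfsg.Agent.Helper67.BRK1

/-!
# Helper17: piece CC1 of helper79's CALL S0997 (class-algebra constant for two elements of `P#`).
-/

set_option autoImplicit false
open Cfsg
open scoped ComplexConjugate

universe u

namespace Cfsg.Agent.Helper17

/-- A sum over all irreducible characters of a function vanishing outside the principal block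
is the block sum. -/
theorem s997_finsum_block {G : Type u} [Group G] [Fintype G] (M : Ideal Cfsg.AlgInt)
    (f : Cfsg.IrrCharacter G → ℂ)
    (h : ∀ χ : Cfsg.IrrCharacter G, χ ∉ Cfsg.principalBlock M G → f χ = 0) :
    ∑ᶠ χ : Cfsg.IrrCharacter G, f χ = ∑ᶠ χ ∈ Cfsg.principalBlock M G, f χ := by
  classical
  refine finsum_congr fun χ => ?_
  rw [finsum_eq_if]
  split_ifs with hχ
  · rfl
  · exact h χ hχ

/-- CC1 -/
theorem s997_class_const_pp {G : Type u} [Group G] [Fintype G] {p : ℕ} [Fact p.Prime]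
    {M : Ideal Cfsg.AlgInt} (hM : Cfsg.IsPModular p M) (P : Sylow p G)
    (hP : Nat.card (P : Subgroup G) = p)
    (hC : Nat.card (Subgroup.centralizer ((P : Subgroup G) : Set G)) = p) (e : ℕ)
    (T : Cfsg.Agent.Helper9.BRTab p M P e) (y s : G) (hy : y ∈ (P : Subgroup G)) (hy1 : y ≠ 1)
    (hs : s ∈ (P : Subgroup G)) (hs1 : s ≠ 1) (g : G) :
    (Nat.card {gh : G × G // gh.1 * y * gh.1⁻¹ * (gh.2 * s * gh.2⁻¹) = g} : ℂ)
      = (Nat.card G : ℂ) * (1
          + ∑ ψ ∈ T.X1, conj ((ψ : G → ℂ) g) / (ψ : G → ℂ) 1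
          + ∑ ψ ∈ T.X2, conj ((ψ : G → ℂ) g) / (ψ : G → ℂ) 1
          + ∑ θ ∈ T.Y, (θ : G → ℂ) y * (θ : G → ℂ) s * conj ((θ : G → ℂ) g)
              / (θ : G → ℂ) 1) := by
  classical
  rw [Cfsg.Agent.Helper67.br_class_const y s g]
  congr 1
  rw [s997_finsum_block M _ (fun χ hχ => by
    rw [Cfsg.Agent.Helper75.br_vanish hM P hP hC χ hχ y hy hy1]; simp),
    Cfsg.Agent.Helper75.br_split T]
  have h1 : ∑ χ ∈ T.X1, (χ : G → ℂ) y * (χ : G → ℂ) s * conj ((χ : G → ℂ) g) / (χ : G → ℂ) 1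
      = ∑ ψ ∈ T.X1, conj ((ψ : G → ℂ) g) / (ψ : G → ℂ) 1 := by
    refine Finset.sum_congr rfl fun χ hχ => ?_
    rw [Cfsg.Agent.Helper75.br_X1_val T χ hχ y hy hy1,
      Cfsg.Agent.Helper75.br_X1_val T χ hχ s hs hs1, one_mul, one_mul]
  have h2 : ∑ χ ∈ T.X2, (χ : G → ℂ) y * (χ : G → ℂ) s * conj ((χ : G → ℂ) g) / (χ : G → ℂ) 1
      = ∑ ψ ∈ T.X2, conj ((ψ : G → ℂ) g) / (ψ : G → ℂ) 1 := by
    refine Finset.sum_congr rfl fun χ hχ => ?_
    rw [Cfsg.Agent.Helper75.br_X2_val T χ hχ y hy hy1,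
      Cfsg.Agent.Helper75.br_X2_val T χ hχ s hs hs1, neg_mul_neg, one_mul, one_mul]
  rw [h1, h2]
  simp only [Cfsg.Agent.Helper81.trivIrr_apply, map_one, mul_one, div_one]

end Cfsg.Agent.Helper17
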