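import Mathlib
import Cfsg.Agent.Helper17.S997CC1

/-!
# Helper17: piece CC2 of helper79's CALL S0997 (class-algebra constant `z^G * z^G ∋ y`, `y ∈ P#`).
-/

set_option autoImplicit false
open Cfsg
open scoped ComplexConjugate

universe u

namespace Cfsg.Agent.Helper17

/-- CC2 -/
theorem s997_class_const_zz {G : Type u} [Group G] [Fintype G] {p : ℕ} [Fact p.Prime]
    {M : Ideal Cfsg.AlgInt} (hM : Cfsg.IsPModular p M) (P : Sylow p G)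
    (hP : Nat.card (P : Subgroup G) = p)
    (hC : Nat.card (Subgroup.centralizer ((P : Subgroup G) : Set G)) = p) (e : ℕ)
    (T : Cfsg.Agent.Helper9.BRTab p M P e) (y : G) (hy : y ∈ (P : Subgroup G)) (hy1 : y ≠ 1)
    (z : G) :
    (Nat.card {gh : G × G // gh.1 * z * gh.1⁻¹ * (gh.2 * z * gh.2⁻¹) = y} : ℂ)
      = (Nat.card G : ℂ) * (1
          + ∑ ψ ∈ T.X1, (ψ : G → ℂ) z ^ 2 / (ψ : G → ℂ) 1
          - ∑ ψ ∈ T.X2, (ψ : G → ℂ) z ^ 2 / (ψ : G → ℂ) 1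
          + ∑ θ ∈ T.Y, (θ : G → ℂ) z ^ 2 * conj ((θ : G → ℂ) y) / (θ : G → ℂ) 1) := by
  classical
  rw [Cfsg.Agent.Helper67.br_class_const z z y]
  congr 1
  rw [s997_finsum_block M _ (fun χ hχ => by
    rw [Cfsg.Agent.Helper75.br_vanish hM P hP hC χ hχ y hy hy1]; simp),
    Cfsg.Agent.Helper75.br_split T]
  have h1 : ∑ χ ∈ T.X1, (χ : G → ℂ) z * (χ : G → ℂ) z * conj ((χ : G → ℂ) y) / (χ : G → ℂ) 1
      = ∑ ψ ∈ T.X1, (ψ : G → ℂ) z ^ 2 / (ψ : G → ℂ) 1 := by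
    refine Finset.sum_congr rfl fun χ hχ => ?_
    rw [Cfsg.Agent.Helper75.br_X1_val T χ hχ y hy hy1, map_one, mul_one, pow_two]
  have h2 : ∑ χ ∈ T.X2, (χ : G → ℂ) z * (χ : G → ℂ) z * conj ((χ : G → ℂ) y) / (χ : G → ℂ) 1
      = -∑ ψ ∈ T.X2, (ψ : G → ℂ) z ^ 2 / (ψ : G → ℂ) 1 := by
    rw [← Finset.sum_neg_distrib]
    refine Finset.sum_congr rfl fun χ hχ => ?_
    rw [Cfsg.Agent.Helper75.br_X2_val T χ hχ y hy hy1, map_neg, map_one, pow_two]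
    ring
  have h3 : ∑ θ ∈ T.Y, (θ : G → ℂ) z * (θ : G → ℂ) z * conj ((θ : G → ℂ) y) / (θ : G → ℂ) 1
      = ∑ θ ∈ T.Y, (θ : G → ℂ) z ^ 2 * conj ((θ : G → ℂ) y) / (θ : G → ℂ) 1 := by
    refine Finset.sum_congr rfl fun θ _ => ?_
    rw [pow_two]
  rw [h1, h2, h3]
  simp only [Cfsg.Agent.Helper81.trivIrr_apply, map_one, mul_one, div_one]
  ring

end Cfsg.Agent.Helper17
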