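/-
helper17: the Chevalley data of types `E₆ ⊂ E₇ ⊂ E₈`: the tables of `E₆` (resp. `E₇`) are the restriction of
those of `E₇` (resp. `E₈`) along the inclusion of the roots with last coefficient zero.

`REmb D D' ι`: `ι` maps the roots of `D` to roots of `D'`, injectively, compatibly with `r ↦ -r` and with the
terms of the commutator formula.  `rEmb_E6_E7`, `rEmb_E7_E8`: the two inclusions, by table checks
(`decide +kernel`, in blocks of rows).
-/
import Cfsg.Prelude.Def_ChevStructure
import Cfsg.Prelude.Def_ChevE6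
import Cfsg.Prelude.Def_ChevE7
import Cfsg.Prelude.Def_ChevE8

set_option autoImplicit false
set_option maxRecDepth 1000000

namespace Cfsg.Agent.Helper17

open Cfsg Cfsg.Lie

/-- An inclusion of Chevalley data on the level of the tables. -/
structure REmb (D D' : ChevalleyDatum) (ι : ℕ → ℕ) : Prop where
  lt : ∀ r < D.nroots, ι r < D'.nroots
  out : ∀ r, ¬ r < D.nroots → ¬ ι r < D'.nroots
  neg : ∀ r < D.nroots, D'.neg (ι r) = ι (D.neg r)
  neg_lt : ∀ r < D.nroots, D.neg r < D.nroots
  inj : ∀ r < D.nroots, ∀ s < D.nroots, ι r = ι s → r = s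
  comm : ∀ r < D.nroots, ∀ s < D.nroots, s ≠ r → s ≠ D.neg r →
    D'.commTerms (ι r) (ι s) = (D.commTerms r s).map fun c => (ι c.1, c.2)

/-- The map of root indices given by a list (out of range: out of range). -/
def embI (L : List ℕ) (n' : ℕ) (r : ℕ) : ℕ := L.getD r n'

/-- The check of one row. -/
def embRowOK (D D' : ChevalleyDatum) (L : List ℕ) (r : ℕ) : Bool :=
  decide (embI L D'.nroots r < D'.nroots) && decide (D.neg r < D.nroots) &&
  decide (D'.neg (embI L D'.nroots r) = embI L D'.nroots (D.neg r)) &&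
  (List.range D.nroots).all fun s =>
    (decide (s = r) || decide (embI L D'.nroots r ≠ embI L D'.nroots s)) &&
    (decide (s = r) || decide (s = D.neg r) ||
        decide (D'.commTerms (embI L D'.nroots r) (embI L D'.nroots s) =
          (D.commTerms r s).map fun c => (embI L D'.nroots c.1, c.2)))

/-- The check of a block of rows. -/
def embRowsOK (D D' : ChevalleyDatum) (L : List ℕ) (lo len : ℕ) : Bool :=
  (List.range len).all fun k => embRowOK D D' L (lo + k)

theorem embRowsOK_spec {D D' : ChevalleyDatum} {L : List ℕ} {lo len : ℕ}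
    (h : embRowsOK D D' L lo len = true) (r : ℕ) (h1 : lo ≤ r) (h2 : r < lo + len) :
    embRowOK D D' L r = true := by
  unfold embRowsOK at h
  rw [List.all_eq_true] at h
  have := h (r - lo) (List.mem_range.mpr (by omega))
  have e : lo + (r - lo) = r := by omega
  rw [e] at this
  exact this

theorem rEmb_of_rows {D D' : ChevalleyDatum} {L : List ℕ} (hlen : L.length = D.nroots)
    (h : ∀ r < D.nroots, embRowOK D D' L r = true) : REmb D D' (embI L D'.nroots) := by
  have key : ∀ r < D.nroots, embI L D'.nroots r < D'.nroots ∧ D.neg r < D.nroots ∧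
      D'.neg (embI L D'.nroots r) = embI L D'.nroots (D.neg r) ∧
      ∀ s < D.nroots, (s = r ∨ embI L D'.nroots r ≠ embI L D'.nroots s) ∧
        (s = r ∨ s = D.neg r ∨
          D'.commTerms (embI L D'.nroots r) (embI L D'.nroots s) =
            (D.commTerms r s).map fun c => (embI L D'.nroots c.1, c.2)) := by
    intro r hr
    have h1 := h r hr
    unfold embRowOK at h1
    simp only [Bool.and_eq_true, decide_eq_true_eq, List.all_eq_true, List.mem_range,
      Bool.or_eq_true] at h1
    refine ⟨h1.1.1.1, h1.1.1.2, h1.1.2, ?_⟩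
    intro s hs
    refine ⟨(h1.2 s hs).1, ?_⟩
    rcases (h1.2 s hs).2 with (h2 | h2) | h2
    · exact Or.inl h2
    · exact Or.inr (Or.inl h2)
    · exact Or.inr (Or.inr h2)
  refine ⟨fun r hr => (key r hr).1, ?_, fun r hr => (key r hr).2.2.1, fun r hr => (key r hr).2.1,
    ?_, ?_⟩
  · intro r hr
    unfold embI
    rw [List.getD_eq_default _ _ (by omega)]
    exact lt_irrefl _
  · intro r hr s hs hrs
    rcases ((key r hr).2.2.2 s hs).1 with h2 | h2
    · exact h2.symm
    · exact absurd hrs h2
  · intro r hr s hs h1 h2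
    rcases ((key r hr).2.2.2 s hs).2 with h3 | h3 | h3
    · exact absurd h3 h1
    · exact absurd h3 h2
    · exact h3

/-- The roots of `E₆` among those of `E₇`. -/
def iota67L : List ℕ := [6, 10, 13, 15, 16, 19, 21, 22, 24, 25, 26, 28, 29, 30, 31, 32, 35, 37, 38, 40, 41, 42, 44, 45, 46, 47, 49, 50, 51, 52, 54, 55, 56, 58, 59, 61, 64, 66, 67, 69, 70, 71, 73, 74, 75, 76, 78, 79, 80, 81, 83, 84, 85, 87, 88, 90, 93, 94, 95, 96, 97, 99, 100, 101, 103, 104, 106, 109, 110, 112, 115, 119]

/-- The roots of `E₇` among those of `E₈`. -/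
def iota78L : List ℕ := [13, 20, 25, 29, 32, 34, 35, 39, 42, 44, 45, 48, 50, 51, 53, 54, 55, 58, 60, 61, 63, 64, 65, 67, 68, 69, 70, 72, 73, 74, 75, 76, 77, 80, 82, 83, 85, 86, 87, 89, 90, 91, 92, 94, 95, 96, 97, 98, 100, 101, 102, 103, 104, 106, 107, 108, 109, 111, 112, 113, 115, 116, 118, 121, 123, 124, 126, 127, 128, 130, 131, 132, 133, 135, 136, 137, 138, 139, 141, 142, 143, 144, 145, 147, 148, 149, 150, 152, 153, 154, 156, 157, 159, 162, 163, 164, 165, 166, 167, 169, 170, 171, 172, 174, 175, 176, 178, 179, 181, 184, 185, 186, 188, 189, 191, 194, 195, 197, 200, 204, 205, 207, 210, 214, 219, 226]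

theorem embRows_E6_0 : embRowsOK chevE6 chevE7 iota67L 0 36 = true := by decide +kernel
theorem embRows_E6_36 : embRowsOK chevE6 chevE7 iota67L 36 36 = true := by decide +kernel

theorem rEmb_E6_E7 : REmb chevE6 chevE7 (embI iota67L chevE7.nroots) := by
  apply rEmb_of_rows (by decide)
  intro r hr
  change r < 72 at hr
  by_cases h0 : r < 36
  · exact embRowsOK_spec embRows_E6_0 r (by omega) (by omega)
  · exact embRowsOK_spec embRows_E6_36 r (by omega) (by omega)

end Cfsg.Agent.Helper17
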