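/-
helper17: Steinberg's presented group of a Chevalley datum `D` maps to the Chevalley group of a bigger datum
`D'` along an inclusion of the tables (`REmb D D' ι`): `x̄_r(t) ↦ x_{ι r}(t)`.

* `embHom hD' E : D.SteinbergGroup K →* GL D'.Idx K`, `embHom_stGen`;
* `embHom_hS`, `embHom_hProd`: the images of `h̄_r(t)` and of the products `∏_i h̄_{p_i}(t_i)` (diagonal matrices
  of `D'`).

For `E₆ ⊂ E₇` and `E₇ ⊂ E₈` the adjoint group of the bigger type contains the simply connected group of the
smaller one, which gives the centre of the presented groups of types `E₆`, `E₇`.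
Built on helper36's `StTheta` / `StCenter`.
-/
import Cfsg.Agent.Helper17.StEmbTab
import Cfsg.Agent.Helper36.StCenter
import Cfsg.Agent.Helper36.StTheta

set_option autoImplicit false

namespace Cfsg.Agent.Helper17

open Cfsg Cfsg.Lie Cfsg.Agent.Helper36

section

variable {D D' : ChevalleyDatum} {K : Type*} [Field K] {ι : ℕ → ℕ}

/-- The homomorphism from the free group on the symbols `x̄_r(t)` of `D` to the general linear group of `D'`. -/
noncomputable def embLift (D : ChevalleyDatum) (hX' : XAdd D' K) (ι : ℕ → ℕ) :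
    FreeGroup (Fin D.nroots × K) →* GL D'.Idx K :=
  FreeGroup.lift (fun p => xGL hX' (ι p.1.val) p.2)

theorem embLift_stX (E : REmb D D' ι) (hX' : XAdd D' K) (r : ℕ) (t : K) :
    embLift D hX' ι (D.stX r t) = xGL hX' (ι r) t := by
  unfold ChevalleyDatum.stX
  by_cases h : r < D.nroots
  · rw [dif_pos h]
    unfold embLift
    rw [FreeGroup.lift_apply_of]
  · rw [dif_neg h, map_one]
    exact (Units.ext (Cfsg.Agent.Helper36.x_of_not_lt (E.out r h) t)).symm

theorem embLift_stWord (E : REmb D D' ι) (hX' : XAdd D' K) (w : List (ℕ × K)) :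
    embLift D hX' ι (D.stWord w) = wordGL hX' (w.map fun p => (ι p.1, p.2)) := by
  unfold ChevalleyDatum.stWord wordGL
  rw [map_list_prod, List.map_map, List.map_map]
  congr 1
  apply List.map_congr_left
  intro p _
  exact embLift_stX E hX' p.1 p.2

theorem embLift_rel (hD' : D' ∈ [chevG2, chevB2, chevD4, chevF4, chevE6, chevE7, chevE8])
    (E : REmb D D' ι) (hX' : XAdd D' K) : ∀ g ∈ D.steinbergRels K, embLift D hX' ι g = 1 := by
  have R := bRel_of_mem (F := K) hD'
  have hHD := hDiag_of_mem (F := K) hD'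
  rintro g ((⟨r, t₁, t₂, hr, rfl⟩ | ⟨r, s, t, u, hr, hs, h1, h2, rfl⟩) | ⟨r, t₁, t₂, hr, ht₁, ht₂, rfl⟩)
  · rw [map_mul, map_mul, map_inv, embLift_stX E, embLift_stX E, embLift_stX E, xGL_mul,
      mul_inv_cancel]
  · rw [map_mul, map_mul, map_mul, map_mul, map_inv, map_inv, map_inv, embLift_stX E, embLift_stX E,
      embLift_stWord E]
    have hcw : ((D.commWord K r s t u).map fun p => (ι p.1, p.2)) =
        D'.commWord K (ι r) (ι s) t u := by
      unfold ChevalleyDatum.commWord
      rw [E.comm r hr s hs h1 h2, List.map_map, List.map_map]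
      rfl
    rw [hcw]
    have hne1 : ι s ≠ ι r := fun h => h1 (E.inj s hs r hr h)
    have hne2 : ι s ≠ D'.neg (ι r) := by
      rw [E.neg r hr]
      exact fun h => h2 (E.inj s hs _ (E.neg_lt r hr) h)
    have hcf : xGL hX' (ι s) u * xGL hX' (ι r) t =
        xGL hX' (ι r) t * xGL hX' (ι s) u * wordGL hX' (D'.commWord K (ι r) (ι s) t u) := by
      apply Units.ext
      rw [Units.val_mul, Units.val_mul, Units.val_mul, xGL_val, xGL_val, wordGL_val]
      exact R.cf (ι r) (E.lt r hr) (ι s) (E.lt s hs) hne1 hne2 t u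
    have h3 : wordGL hX' (D'.commWord K (ι r) (ι s) t u) =
        (xGL hX' (ι s) u)⁻¹ * (xGL hX' (ι r) t)⁻¹ * xGL hX' (ι s) u * xGL hX' (ι r) t := by
      have : (xGL hX' (ι s) u)⁻¹ * (xGL hX' (ι r) t)⁻¹ * (xGL hX' (ι s) u * xGL hX' (ι r) t) =
          wordGL hX' (D'.commWord K (ι r) (ι s) t u) := by
        rw [hcf]; group
      rw [← this]; group
    rw [h3]; group
  · unfold ChevalleyDatum.stH
    rw [map_mul, map_mul, map_inv, embLift_stWord E, embLift_stWord E, embLift_stWord E]
    have hw : ∀ c : K, ((D.hWord r c).map fun p => (ι p.1, p.2)) = D'.hWord (ι r) c := by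
      intro c
      unfold ChevalleyDatum.hWord ChevalleyDatum.nWord
      rw [E.neg r hr]
      rfl
    rw [hw, hw, hw]
    have h3 : wordGL hX' (D'.hWord (ι r) t₁) * wordGL hX' (D'.hWord (ι r) t₂) =
        wordGL hX' (D'.hWord (ι r) (t₁ * t₂)) := by
      apply Units.ext
      rw [Units.val_mul, wordGL_val, wordGL_val, wordGL_val]
      change D'.hMat K (ι r) t₁ * D'.hMat K (ι r) t₂ = D'.hMat K (ι r) (t₁ * t₂)
      rw [hHD (ι r) (E.lt r hr) t₁ ht₁, hHD (ι r) (E.lt r hr) t₂ ht₂,
        hHD (ι r) (E.lt r hr) (t₁ * t₂) (mul_ne_zero ht₁ ht₂), Matrix.diagonal_mul_diagonal]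
      congr 1
      funext b
      rcases b with j | s
      · simp
      · simp only [Sum.elim_inr]; rw [mul_zpow]
    rw [h3, mul_inv_cancel]

/-- The homomorphism `x̄_r(t) ↦ x_{ι r}(t)` from Steinberg's presented group of `D` to the general linear
group of `D'`. -/
noncomputable def embHom (hD' : D' ∈ [chevG2, chevB2, chevD4, chevF4, chevE6, chevE7, chevE8])
    (E : REmb D D' ι) : D.SteinbergGroup K →* GL D'.Idx K :=
  PresentedGroup.toGroup (rels := D.steinbergRels K)
    (f := fun p : Fin D.nroots × K => xGL (xAdd_of_mem (F := K) hD') (ι p.1.val) p.2)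
    (fun g hg => embLift_rel hD' E (xAdd_of_mem (F := K) hD') g hg)

theorem embHom_stGen (hD' : D' ∈ [chevG2, chevB2, chevD4, chevF4, chevE6, chevE7, chevE8])
    (E : REmb D D' ι) (r : ℕ) (t : K) :
    embHom hD' E (D.stGen K r t) = xGL (xAdd_of_mem (F := K) hD') (ι r) t := by
  unfold embHom ChevalleyDatum.stGen
  exact embLift_stX E (xAdd_of_mem (F := K) hD') r t

theorem embHom_nS (hD' : D' ∈ [chevG2, chevB2, chevD4, chevF4, chevE6, chevE7, chevE8])
    (E : REmb D D' ι) {r : ℕ} (hr : r < D.nroots) (t : K) :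
    embHom hD' E (nS D (D.stGen K) r t) = nGL (xAdd_of_mem (F := K) hD') (ι r) t := by
  rw [nS, map_mul, map_mul, embHom_stGen, embHom_stGen, nGL_eq, E.neg r hr]

theorem embHom_hS (hD' : D' ∈ [chevG2, chevB2, chevD4, chevF4, chevE6, chevE7, chevE8])
    (E : REmb D D' ι) {r : ℕ} (hr : r < D.nroots) (t : K) :
    embHom hD' E (hS D (D.stGen K) r t) = hGL (xAdd_of_mem (F := K) hD') (ι r) t := by
  rw [hS, map_mul, embHom_nS hD' E hr, embHom_nS hD' E hr, hGL_eq]

/-- The image of `∏_i h̄_{p_i}(t_i)` is a diagonal matrix of `D'`. -/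
theorem embHom_hProd (hD' : D' ∈ [chevG2, chevB2, chevD4, chevF4, chevE6, chevE7, chevE8])
    (E : REmb D D' ι) (hs : ∀ i < D.rank, D.simple i < D.nroots) (t : ℕ → Kˣ) :
    ∀ L : List ℕ, (∀ i ∈ L, i < D.rank) →
      ((embHom hD' E (hProd D (D.stGen K) L t) : GL D'.Idx K) : Matrix D'.Idx D'.Idx K) =
        Matrix.diagonal (Sum.elim (fun _ => (1 : K)) (fun s : Fin D'.nroots =>
          (((L.map fun i => t i ^ D'.pairing (ι (D.simple i)) s.val).prod : Kˣ) : K))) := by
  have hHD := hDiag_of_mem (F := K) hD'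
  intro L
  induction L with
  | nil =>
    intro _
    rw [hProd_nil, map_one, Units.val_one, ← Matrix.diagonal_one]
    congr 1
    funext b
    rcases b with j | s
    · rfl
    · simp
  | cons i L ih =>
    intro hL
    rw [hProd_cons, map_mul, Units.val_mul, ih (fun j hj => hL j (List.mem_cons_of_mem _ hj)),
      embHom_hS hD' E (hs i (hL i List.mem_cons_self)), hGL_val,
      hHD _ (E.lt _ (hs i (hL i List.mem_cons_self))) _ (Units.ne_zero _),
      Matrix.diagonal_mul_diagonal]
    congr 1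
    funext b
    rcases b with j | s
    · simp
    · simp only [Sum.elim_inr, List.map_cons, List.prod_cons, Units.val_mul,
        Units.val_zpow_eq_zpow_val]

end

end Cfsg.Agent.Helper17
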