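/-
helper17: the inclusion of the tables of `E₇` in those of `E₈`: rows 0 to 41.
-/
import Cfsg.Agent.Helper17.StEmbTab

set_option autoImplicit false
set_option maxRecDepth 1000000

namespace Cfsg.Agent.Helper17

open Cfsg Cfsg.Lie

theorem embRows_E7_0 : embRowsOK chevE7 chevE8 iota78L 0 14 = true := by decide +kernel
theorem embRows_E7_14 : embRowsOK chevE7 chevE8 iota78L 14 14 = true := by decide +kernel
theorem embRows_E7_28 : embRowsOK chevE7 chevE8 iota78L 28 14 = true := by decide +kernel

end Cfsg.Agent.Helper17
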