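/-
helper17: the inclusion of the tables of `E₇` in those of `E₈` (`rEmb_E7_E8`).
-/
import Cfsg.Agent.Helper17.StEmbTabA
import Cfsg.Agent.Helper17.StEmbTabB
import Cfsg.Agent.Helper17.StEmbTabC

set_option autoImplicit false
set_option maxRecDepth 1000000

namespace Cfsg.Agent.Helper17

open Cfsg Cfsg.Lie

theorem rEmb_E7_E8 : REmb chevE7 chevE8 (embI iota78L chevE8.nroots) := by
  apply rEmb_of_rows (by decide)
  intro r hr
  change r < 126 at hr
  by_cases h0 : r < 14
  · exact embRowsOK_spec embRows_E7_0 r (by omega) (by omega)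
  by_cases h1 : r < 28
  · exact embRowsOK_spec embRows_E7_14 r (by omega) (by omega)
  by_cases h2 : r < 42
  · exact embRowsOK_spec embRows_E7_28 r (by omega) (by omega)
  by_cases h3 : r < 56
  · exact embRowsOK_spec embRows_E7_42 r (by omega) (by omega)
  by_cases h4 : r < 70
  · exact embRowsOK_spec embRows_E7_56 r (by omega) (by omega)
  by_cases h5 : r < 84
  · exact embRowsOK_spec embRows_E7_70 r (by omega) (by omega)
  by_cases h6 : r < 98
  · exact embRowsOK_spec embRows_E7_84 r (by omega) (by omega)
  by_cases h7 : r < 112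
  · exact embRowsOK_spec embRows_E7_98 r (by omega) (by omega)
  · exact embRowsOK_spec embRows_E7_112 r (by omega) (by omega)

end Cfsg.Agent.Helper17
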