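/-
helper17: the centre of Steinberg's presented group when the datum embeds in a bigger one.

For a datum `D` with an inclusion `REmb D D' ι` and the table facts `cenChk` (the Cartan matrix `A` of `D`
has `A · B = M`, the columns of `M` being `e_k - c_k e_{i₀}` for `k ≠ i₀` and `d e_{i₀}`; the vector `c` pairs to
multiples of `d` with all the roots of `D`) and `cenChk2` (it pairs to an integer prime to `d` with a root of
`D'`), the centre of the presented group of `D` over a finite field `K` is
`{∏_i h̄_{p_i}(ζ^{c_i}) : ζ^d = 1}`, of order `gcd(d, |K| - 1)`.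
`st_center_card_E6`, `st_center_card_E7`: the cases `E₆ ⊂ E₇` (`d = 3`) and `E₇ ⊂ E₈` (`d = 2`).
Built on helper36's `StCenter` / `StTheta` (the kernel of `θ` is the centre and lies in `H̄`).
-/
import Cfsg.Agent.Helper17.StEmb
import Cfsg.Agent.Helper17.StEmbTab8

set_option autoImplicit false
set_option maxRecDepth 100000

namespace Cfsg.Agent.Helper17

open Cfsg Cfsg.Lie Cfsg.Agent.Helper36

theorem cen_aux {G : Type*} [CommGroup G] (n : ℕ) (A B : ℕ → ℕ → ℤ) (t : ℕ → G)
    (h : ∀ j < n, ∏ i ∈ Finset.range n, t i ^ A i j = 1) (k : ℕ) :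
    ∏ i ∈ Finset.range n, t i ^ (∑ j ∈ Finset.range n, A i j * B j k) = 1 := by
  have h2 : ∀ i ∈ Finset.range n, t i ^ (∑ j ∈ Finset.range n, A i j * B j k) =
      ∏ j ∈ Finset.range n, (t i ^ A i j) ^ B j k := by
    intro i _
    rw [zpow_range_sum]
    apply Finset.prod_congr rfl
    intro j _
    rw [zpow_mul]
  rw [Finset.prod_congr rfl h2, Finset.prod_comm]
  apply Finset.prod_eq_one
  intro j hj
  rw [Finset.prod_zpow, h j (Finset.mem_range.mp hj), one_zpow]

/-- The table check for the centre: see the module docstring. -/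
def cenChk (D : ChevalleyDatum) (d : ℕ) (c : List ℕ) (i₀ : ℕ) (B : List (List ℤ)) : Bool :=
  decide (c.getD i₀ 0 = 1) && decide (i₀ < D.rank) &&
  ((List.range D.rank).all fun i => (List.range D.rank).all fun k =>
    decide (((List.range D.rank).map fun j =>
      D.pairing (D.simple i) (D.simple j) * ((B.getD j []).getD k 0)).sum =
        if k = i₀ then (if i = i₀ then (d : ℤ) else 0)
        else (if i = k then 1 else 0) - (if i = i₀ then (c.getD k 0 : ℤ) else 0))) &&
  ((List.range D.nroots).all fun s =>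
    decide (((List.range D.rank).map fun i =>
      (c.getD i 0 : ℤ) * D.pairing (D.simple i) s).sum % (d : ℤ) = 0))

/-- The second table check: the vector `c` pairs with the root `s₀` of `D'` to `e₀` with `a e₀ ≡ 1` mod `d`. -/
def cenChk2 (D D' : ChevalleyDatum) (L : List ℕ) (d : ℕ) (c : List ℕ) (s₀ : ℕ) (a : ℤ) : Bool :=
  decide (s₀ < D'.nroots) &&
  decide ((a * ((List.range D.rank).map fun i =>
    (c.getD i 0 : ℤ) * D'.pairing (embI L D'.nroots (D.simple i)) s₀).sum - 1) % (d : ℤ) = 0)

section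

variable {D D' : ChevalleyDatum} {K : Type*} [Field K]

/-- The centre of Steinberg's presented group: the generic statement. -/
theorem st_center_card_of_emb [Fintype K]
    (hD : D ∈ [chevG2, chevB2, chevD4, chevF4, chevE6, chevE7, chevE8])
    (hD' : D' ∈ [chevG2, chevB2, chevD4, chevF4, chevE6, chevE7, chevE8])
    {L : List ℕ} (E : REmb D D' (embI L D'.nroots)) {d : ℕ} {c : List ℕ} {i₀ : ℕ} {B : List (List ℤ)}
    {s₀ : ℕ} {a : ℤ} (h1 : cenChk D d c i₀ B = true) (h2 : cenChk2 D D' L d c s₀ a = true) :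
    Nat.card (Subgroup.center (D.SteinbergGroup K)) = Nat.gcd d (Fintype.card K - 1) := by
  classical
  -- unpack the checks
  unfold cenChk at h1
  simp only [Bool.and_eq_true, decide_eq_true_eq, List.all_eq_true, List.mem_range] at h1
  obtain ⟨⟨⟨hc0, hi0⟩, hAB⟩, hroot⟩ := h1
  unfold cenChk2 at h2
  simp only [Bool.and_eq_true, decide_eq_true_eq] at h2
  obtain ⟨hs0, ha⟩ := h2
  -- the setting of helper36
  obtain ⟨f₀, g, C⟩ := sCtx_of_mem (F := K) hD
  have S := sRel_steinberg D (stTheta (K := K) D hD) (fun r t _ => stTheta_val D hD r t)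
  have hm := stHMul (K := K) D
  have hHD := hDiag_of_mem (F := K) hD
  have hR : ∀ j ∈ List.range D.rank, j < D.rank := fun j hj => List.mem_range.mp hj
  -- (P1) the elements `z_ζ` are central
  have P1 : ∀ ζ : Kˣ, ζ ^ d = 1 →
      hProd D (D.stGen K) (List.range D.rank) (fun i => ζ ^ c.getD i 0) ∈
        Subgroup.center (D.SteinbergGroup K) := by
    intro ζ hζ
    rw [← stTheta_ker D hD]
    apply Units.ext
    rw [S.map_hProd C.R.xadd hHD C.R.wf.simple_lt _ (List.range D.rank) hR, Units.val_one,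
      ← Matrix.diagonal_one]
    congr 1
    funext b
    rcases b with j | s
    · rfl
    · simp only [Sum.elim_inr]
      have e1 : ((List.range D.rank).map fun i =>
          (ζ ^ c.getD i 0) ^ D.pairing (D.simple i) s.val).prod = 1 := by
        rw [list_prod_range_eq]
        have e : ∀ i ∈ Finset.range D.rank, (ζ ^ c.getD i 0) ^ D.pairing (D.simple i) s.val =
            ζ ^ ((c.getD i 0 : ℤ) * D.pairing (D.simple i) s.val) := by
          intro i _
          rw [← zpow_natCast, ← zpow_mul]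
        rw [Finset.prod_congr rfl e, ← zpow_range_sum]
        have h3 := hroot s.val s.isLt
        rw [list_sum_range_eq] at h3
        obtain ⟨k, hk⟩ := Int.dvd_of_emod_eq_zero h3
        rw [hk, zpow_mul, zpow_natCast, hζ, one_zpow]
      rw [e1, Units.val_one]
  -- (P2) `ζ` is determined by `z_ζ`
  have P2 : ∀ ζ ζ' : Kˣ, ζ ^ d = 1 → ζ' ^ d = 1 →
      hProd D (D.stGen K) (List.range D.rank) (fun i => ζ ^ c.getD i 0) =
        hProd D (D.stGen K) (List.range D.rank) (fun i => ζ' ^ c.getD i 0) → ζ = ζ' := by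
    obtain ⟨b, hb⟩ := Int.dvd_of_emod_eq_zero ha
    rw [list_sum_range_eq] at hb
    have key : ∀ ζ : Kˣ, ζ ^ d = 1 →
        (((List.range D.rank).map fun i =>
          (ζ ^ c.getD i 0) ^ D'.pairing (embI L D'.nroots (D.simple i)) s₀).prod) ^ a = ζ := by
      intro ζ hζ
      rw [list_prod_range_eq]
      have e : ∀ i ∈ Finset.range D.rank,
          (ζ ^ c.getD i 0) ^ D'.pairing (embI L D'.nroots (D.simple i)) s₀ =
            ζ ^ ((c.getD i 0 : ℤ) * D'.pairing (embI L D'.nroots (D.simple i)) s₀) := by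
        intro i _
        rw [← zpow_natCast, ← zpow_mul]
      rw [Finset.prod_congr rfl e, ← zpow_range_sum, ← zpow_mul]
      have e2 : (∑ i ∈ Finset.range D.rank,
          (c.getD i 0 : ℤ) * D'.pairing (embI L D'.nroots (D.simple i)) s₀) * a = 1 + (d : ℤ) * b := by
        linear_combination hb
      rw [e2, zpow_add, zpow_one, zpow_mul, zpow_natCast, hζ, one_zpow, mul_one]
    intro ζ ζ' hζ hζ' heq
    have h3 := embHom_hProd hD' E C.R.wf.simple_lt (fun i => ζ ^ c.getD i 0) (List.range D.rank) hR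
    have h4 := embHom_hProd hD' E C.R.wf.simple_lt (fun i => ζ' ^ c.getD i 0) (List.range D.rank) hR
    rw [heq, h4] at h3
    have h5 := congrFun (congrFun h3 (Sum.inr ⟨s₀, hs0⟩)) (Sum.inr ⟨s₀, hs0⟩)
    rw [Matrix.diagonal_apply_eq, Matrix.diagonal_apply_eq, Sum.elim_inr, Sum.elim_inr] at h5
    have h6 := Units.ext h5
    rw [← key ζ hζ, ← key ζ' hζ', h6]
  -- (P3) every central element is some `z_ζ`
  have P3 : ∀ z ∈ Subgroup.center (D.SteinbergGroup K), ∃ ζ : Kˣ, ζ ^ d = 1 ∧
      z = hProd D (D.stGen K) (List.range D.rank) (fun i => ζ ^ c.getD i 0) := by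
    intro z hz
    have hz1 := (stTheta_ker D hD z).mpr hz
    obtain ⟨t, rfl⟩ := C.HS_eq_hProd S hm z (C.ker_le S z hz1).1
    have h3 := S.map_hProd C.R.xadd hHD C.R.wf.simple_lt t (List.range D.rank) hR
    rw [hz1, Units.val_one] at h3
    have h4 : ∀ j < D.rank, ∏ i ∈ Finset.range D.rank,
        t i ^ D.pairing (D.simple i) (D.simple j) = 1 := by
      intro j hj
      have h5 := congrFun (congrFun h3 (Sum.inr ⟨D.simple j, C.R.wf.simple_lt j hj⟩))
        (Sum.inr ⟨D.simple j, C.R.wf.simple_lt j hj⟩)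
      rw [Matrix.one_apply_eq, Matrix.diagonal_apply_eq, Sum.elim_inr] at h5
      rw [← list_prod_range_eq]
      exact Units.ext h5.symm
    have h6 : ∀ k < D.rank, ∏ i ∈ Finset.range D.rank,
        t i ^ (if k = i₀ then (if i = i₀ then (d : ℤ) else 0)
          else (if i = k then 1 else 0) - (if i = i₀ then (c.getD k 0 : ℤ) else 0)) = 1 := by
      intro k hk
      have h7 := cen_aux D.rank (fun i j => D.pairing (D.simple i) (D.simple j))
        (fun j k => (B.getD j []).getD k 0) t h4 k
      rw [← h7]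
      apply Finset.prod_congr rfl
      intro i hi
      rw [← hAB i (Finset.mem_range.mp hi) k hk, list_sum_range_eq]
    have hd : t i₀ ^ d = 1 := by
      have h7 := h6 i₀ hi0
      simp only [if_true] at h7
      rw [Finset.prod_eq_single i₀] at h7
      · rw [if_pos rfl, zpow_natCast] at h7
        exact h7
      · intro i _ hi
        rw [if_neg hi, zpow_zero]
      · intro hi; exact absurd (Finset.mem_range.mpr hi0) hi
    refine ⟨t i₀, hd, hProd_congr ?_⟩
    intro k hk
    have hk' := hR k hk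
    by_cases hki : k = i₀
    · rw [hki, hc0, pow_one]
    · have h7 := h6 k hk'
      simp only [if_neg hki] at h7
      have h8 : ∀ i ∈ Finset.range D.rank,
          t i ^ ((if i = k then (1 : ℤ) else 0) - (if i = i₀ then (c.getD k 0 : ℤ) else 0)) =
            t i ^ (if i = k then (1 : ℤ) else 0) * (t i ^ (if i = i₀ then (c.getD k 0 : ℤ) else 0))⁻¹ := by
        intro i _
        rw [zpow_sub]
      rw [Finset.prod_congr rfl h8, Finset.prod_mul_distrib, Finset.prod_inv_distrib,
        Finset.prod_eq_single k, Finset.prod_eq_single i₀] at h7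
      · rw [if_pos rfl, if_pos rfl, zpow_one, zpow_natCast] at h7
        exact mul_inv_eq_one.mp h7
      · intro i _ hi
        rw [if_neg hi, zpow_zero]
      · intro hi; exact absurd (Finset.mem_range.mpr hi0) hi
      · intro i _ hi
        rw [if_neg hi, zpow_zero]
      · intro hi; exact absurd (Finset.mem_range.mpr hk') hi
  -- the bijection with the `d`-th roots of unity
  have hker : ∀ ζ : Kˣ, ζ ∈ (powMonoidHom d : Kˣ →* Kˣ).ker ↔ ζ ^ d = 1 := by
    intro ζ
    rw [MonoidHom.mem_ker, powMonoidHom_apply]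
  let φ : (powMonoidHom d : Kˣ →* Kˣ).ker → Subgroup.center (D.SteinbergGroup K) :=
    fun ζ => ⟨hProd D (D.stGen K) (List.range D.rank) (fun i => (ζ : Kˣ) ^ c.getD i 0),
      P1 ζ ((hker ζ).mp ζ.2)⟩
  have hφ : Function.Bijective φ := by
    constructor
    · intro ζ ζ' h
      apply Subtype.ext
      exact P2 ζ ζ' ((hker ζ).mp ζ.2) ((hker ζ').mp ζ'.2) (congrArg Subtype.val h)
    · rintro ⟨z, hz⟩
      obtain ⟨ζ, hζ, rfl⟩ := P3 z hz
      exact ⟨⟨ζ, (hker ζ).mpr hζ⟩, rfl⟩
  rw [← Nat.card_congr (Equiv.ofBijective φ hφ), IsCyclic.card_powMonoidHom_ker,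
    Nat.card_eq_fintype_card, Fintype.card_units, Nat.gcd_comm]

end

theorem cenChk_E6 : cenChk chevE6 3 [1, 0, 2, 0, 1, 2] 0
    [[4, 1, -1, 2, 0, -2], [3, 2, 0, 3, 1, -1], [5, 2, 0, 4, 1, -2], [6, 3, 0, 6, 2, -2],
     [4, 2, 0, 4, 2, -1], [2, 1, 0, 2, 1, 0]] = true := by decide +kernel

theorem cenChk2_E6 : cenChk2 chevE6 chevE7 iota67L 3 [1, 0, 2, 0, 1, 2] 63 1 = true := by
  decide +kernel

theorem cenChk_E7 : cenChk chevE7 2 [0, 1, 0, 0, 1, 0, 1] 1
    [[2, 4, 3, 4, 1, 2, -1], [2, 7, 4, 6, 1, 3, -2], [3, 8, 6, 8, 2, 4, -2], [4, 12, 8, 12, 3, 6, -3],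
     [3, 9, 6, 9, 3, 5, -2], [2, 6, 4, 6, 2, 4, -1], [1, 3, 2, 3, 1, 2, 0]] = true := by decide +kernel

theorem cenChk2_E7 : cenChk2 chevE7 chevE8 iota78L 2 [0, 1, 0, 0, 1, 0, 1] 120 (-1) = true := by
  decide +kernel

/-- The centre of Steinberg's presented group of type `E₆` over a finite field has order `gcd(3, q - 1)`. -/
theorem st_center_card_E6 {K : Type*} [Field K] [Fintype K] :
    Nat.card (Subgroup.center (chevE6.SteinbergGroup K)) = Nat.gcd 3 (Fintype.card K - 1) :=
  st_center_card_of_emb (by simp) (by simp) rEmb_E6_E7 cenChk_E6 cenChk2_E6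

/-- The centre of Steinberg's presented group of type `E₇` over a finite field has order `gcd(2, q - 1)`. -/
theorem st_center_card_E7 {K : Type*} [Field K] [Fintype K] :
    Nat.card (Subgroup.center (chevE7.SteinbergGroup K)) = Nat.gcd 2 (Fintype.card K - 1) :=
  st_center_card_of_emb (by simp) (by simp) rEmb_E7_E8 cenChk_E7 cenChk2_E7

end Cfsg.Agent.Helper17
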