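/-
helper17: the normal core of `B ⊓ G¹` in a twisted group `G¹ = twGroup …` is trivial (`twGroup_core`):
an element `g` all of whose conjugates by `G¹` lie in `B` is `1`.

* with a word `n₀ ∈ G¹` for the longest element (`longOK`), `g ∈ B ⊓ n₀ B n₀⁻¹ = H`;
* for an orbit word `x = ∏ x_{p_i}(1)`, `x⁻¹ g x g⁻¹ ∈ U ⊓ H = 1` is the word `∏ x_{p_i}(χ(p_i) - 1)`, and its
  coefficients are read off its entries (`sw_coeff_zero`), so the character `χ` of `g` is trivial at the
  fundamental roots;
* a root character trivial at the fundamental roots is trivial (`charDeriv`, a table of sums of roots).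
-/
import Cfsg.Agent.Helper17.TwMain

set_option autoImplicit false

namespace Cfsg.Agent.Helper17

open Cfsg Cfsg.Lie Cfsg.Agent.Helper36 Cfsg.Agent.Helper18

section

variable {D : ChevalleyDatum} {F : Type*} [Field F] {η : ℕ → ℕ → ℤ}

/-- The table check: the word `L` maps every positive root to a negative root. -/
def longOK (D : ChevalleyDatum) (L : List ℕ) : Bool :=
  (List.range D.nroots).all fun r => !decide (D.IsPosRoot r) || decide (D.IsNegRoot (wW D L r))

theorem longOK_spec {L : List ℕ} (h : longOK D L = true) {r : ℕ} (hr : D.IsPosRoot r) :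
    D.IsNegRoot (wW D L r) := by
  unfold longOK at h
  rw [List.all_eq_true] at h
  have h1 := h r (List.mem_range.mpr hr.1)
  rw [Bool.or_eq_true, Bool.not_eq_true', decide_eq_false_iff_not, decide_eq_true_eq] at h1
  rcases h1 with h1 | h1
  · exact absurd hr h1
  · exact h1

/-- Conjugation by `n_L`, for a word `L` mapping the positive roots to negative roots, maps `B` into `V H`. -/
theorem nW_conj_borel (R : BRel D F η) {L : List ℕ} (hL : ValidW D L) (hlong : longOK D L = true) :
    ∀ b ∈ D.borelSubgroup F, R.nW L * b * (R.nW L)⁻¹ ∈ D.negUnipotent F ⊔ D.diagonalSubgroup F := by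
  have key : D.borelSubgroup F ≤
      (D.negUnipotent F ⊔ D.diagonalSubgroup F).comap (MulAut.conj (R.nW L)).toMonoidHom := by
    unfold ChevalleyDatum.borelSubgroup
    refine sup_le ?_ ?_
    · unfold ChevalleyDatum.posUnipotent
      rw [Subgroup.closure_le]
      rintro u ⟨r, t, hr, hu⟩
      have e : u = xGL R.xadd r t := Units.ext hu
      show R.nW L * u * (R.nW L)⁻¹ ∈ D.negUnipotent F ⊔ D.diagonalSubgroup F
      rw [e, R.nW_conj_x hL hr.1]
      exact Subgroup.mem_sup_left (xGL_mem_negUnipotent R.xadd (longOK_spec hlong hr) _)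
    · intro h hh
      show R.nW L * h * (R.nW L)⁻¹ ∈ D.negUnipotent F ⊔ D.diagonalSubgroup F
      exact Subgroup.mem_sup_right (R.nW_conj_H hL h hh)
  exact fun b hb => key hb

/-- An element all of whose conjugates by the twisted group lie in `B` lies in `H`. -/
theorem mem_diagonal_of_tw_conj (hD : D ∈ [chevG2, chevB2, chevD4, chevF4, chevE6, chevE7, chevE8])
    (R : BRel D F η) {φ : F →+* F} {e : List ℕ} {orbs : List (List ℕ)}
    (hOK : ∀ o ∈ orbs, orbOK D o = true) (Ls : List ℕ) (hlong : longOK D (flatO orbs Ls) = true)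
    {g : GL D.Idx F} (hg : ∀ b ∈ twGroup R.xadd φ e orbs, b * g * b⁻¹ ∈ D.borelSubgroup F) :
    g ∈ D.diagonalSubgroup F := by
  have hn := nW_flat_mem (φ := φ) (e := e) R hOK Ls
  have hgB : g ∈ D.borelSubgroup F := by
    have := hg 1 (one_mem _)
    rwa [one_mul, inv_one, mul_one] at this
  have h1 := hg _ (inv_mem hn)
  rw [inv_inv] at h1
  have h2 := nW_conj_borel R (validW_flatO hOK Ls) hlong _ h1
  have e1 : R.nW (flatO orbs Ls) * ((R.nW (flatO orbs Ls))⁻¹ * g * R.nW (flatO orbs Ls)) *
      (R.nW (flatO orbs Ls))⁻¹ = g := by group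
  rw [e1] at h2
  have h4 : g ∈ D.borelSubgroup F ⊓ (D.negUnipotent F ⊔ D.diagonalSubgroup F) := ⟨hgB, h2⟩
  rwa [borel_inf_negUnipotent_sup (torusFacts_of_mem hD) (hDiag_of_mem hD)] at h4

/-! ### Root characters trivial at the fundamental roots -/

/-- The table check of a derivation: starting from the list `S`, each step `(a, b, k)` adds the root
`k = a + b` for `a`, `b` already in the list; at the end every root or its opposite is in the list. -/
def charDeriv (D : ChevalleyDatum) : List (ℕ × ℕ × ℕ) → List ℕ → Bool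
  | [], S => (List.range D.nroots).all fun r => decide (r ∈ S) || decide (D.neg r ∈ S)
  | (a, b, k) :: steps, S =>
    decide (a ∈ S) && decide (b ∈ S) && decide (k < D.nroots) && decide (D.chainRoot a b 1 = some k) &&
      charDeriv D steps (k :: S)

theorem charDeriv_spec {χ : ℕ → Fˣ} (hχ : D.IsRootCharacter χ) :
    ∀ (steps : List (ℕ × ℕ × ℕ)) (S : List ℕ), charDeriv D steps S = true →
      (∀ r ∈ S, r < D.nroots ∧ χ r = 1) → ∀ r, r < D.nroots → χ r = 1 := by
  intro steps
  induction steps with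
  | nil =>
    intro S h hS r hr
    have h' : ((List.range D.nroots).all fun r => decide (r ∈ S) || decide (D.neg r ∈ S)) = true := h
    rw [List.all_eq_true] at h'
    have h1 := h' r (List.mem_range.mpr hr)
    rw [Bool.or_eq_true, decide_eq_true_eq, decide_eq_true_eq] at h1
    rcases h1 with h1 | h1
    · exact (hS r h1).2
    · have h2 := (hS _ h1).2
      rw [hχ.1 r hr, inv_eq_one] at h2
      exact h2
  | cons st steps ih =>
    obtain ⟨a, b, k⟩ := st
    intro S h hS
    have h' : (decide (a ∈ S) && decide (b ∈ S) && decide (k < D.nroots) &&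
        decide (D.chainRoot a b 1 = some k) && charDeriv D steps (k :: S)) = true := h
    simp only [Bool.and_eq_true, decide_eq_true_eq] at h'
    obtain ⟨⟨⟨⟨ha, hb⟩, hk⟩, hc⟩, hrest⟩ := h'
    apply ih (k :: S) hrest
    intro r hr
    rcases List.mem_cons.mp hr with rfl | hr
    · refine ⟨hk, ?_⟩
      rw [hχ.2 a b _ (hS a ha).1 (hS b hb).1 hc, (hS a ha).2, (hS b hb).2, one_mul]
    · exact hS r hr

/-! ### The coefficients of an orbit word -/

theorem sw_filter_sum {o : List ℕ} (hnd : o.Nodup)
    (hinj : ∀ i ∈ o, ∀ j ∈ o, D.simple i = D.simple j → i = j) (c : ℕ → F) {i : ℕ} (hi : i ∈ o) :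
    (((sw D o c).filter fun p => p.1 = D.simple i).map Prod.snd).sum = c i := by
  induction o with
  | nil => simp at hi
  | cons j o ih =>
    rw [List.nodup_cons] at hnd
    rw [sw_cons]
    by_cases h : j = i
    · subst h
      have h0 : ((sw D o c).filter fun p => p.1 = D.simple j) = [] := by
        rw [List.filter_eq_nil_iff]
        intro p hp
        obtain ⟨k, hk, rfl⟩ := List.mem_map.mp hp
        simp only [decide_eq_true_eq]
        intro hk'
        have := hinj k (List.mem_cons_of_mem _ hk) j List.mem_cons_self hk'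
        exact hnd.1 (this ▸ hk)
      rw [List.filter_cons_of_pos (by simp), List.map_cons, List.sum_cons, h0]
      simp
    · have hi' : i ∈ o := by
        rcases List.mem_cons.mp hi with h' | h'
        · exact absurd h'.symm h
        · exact h'
      rw [List.filter_cons_of_neg, ih hnd.2
        (fun a ha b hb => hinj a (List.mem_cons_of_mem _ ha) b (List.mem_cons_of_mem _ hb)) hi']
      simp only [decide_eq_true_eq]
      intro h'
      exact h (hinj j List.mem_cons_self i hi h')

/-- The coefficients of a trivial orbit word vanish. -/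
theorem sw_coeff_zero {f g : ℕ → ℤ} (hW : WtFacts D f) (hA : Additive D g) (hX : XAdd D F) {o : List ℕ}
    (hnd : o.Nodup) (hinj : ∀ i ∈ o, ∀ j ∈ o, D.simple i = D.simple j → i = j)
    (hs : ∀ i ∈ o, D.simple i < D.nroots ∧ g (D.simple i) = 1)
    (c : ℕ → F) (h : wordGL hX (sw D o c) = 1) {i : ℕ} (hi : i ∈ o) {j : ℕ} (hj : j < D.rank)
    (hc : D.cartan j (D.simple i) = -1) : c i = 0 := by
  have h1 : D.wordMat F (sw D o c) = 1 := by
    rw [← wordGL_val hX, h, Units.val_one]
  have h2 := word_entry hW hA (m := 1) one_pos (hs i hi).1 (hs i hi).2 ⟨j, hj⟩ (sw D o c) (by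
    intro p hp
    obtain ⟨k, hk, rfl⟩ := List.mem_map.mp hp
    exact ⟨(hs k hk).1, (hs k hk).2.ge⟩)
  rw [h1, sw_filter_sum hnd hinj c hi, hc, Matrix.one_apply_ne (by simp)] at h2
  simpa using h2.symm

/-! ### The core -/

/-- An element all of whose conjugates by the twisted group lie in `B` is trivial. -/
theorem twGroup_core (hD : D ∈ [chevG2, chevB2, chevD4, chevF4, chevE6, chevE7, chevE8])
    (φ : F →+* F) (e : List ℕ) (orbs : List (List ℕ)) (Ws : List ℕ)
    (hC : RootCoords D (fun k r => wt (Ws.getD k 0) r))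
    (hOK : ∀ o ∈ orbs, orbOK D o = true)
    (Ls : List ℕ) (hlong : longOK D (flatO orbs Ls) = true)
    (nb : List ℕ)
    (hsimp : ∀ i, i < D.rank → htW D Ws (D.simple i) = 1 ∧ nb.getD i 0 < D.rank ∧
      D.cartan (nb.getD i 0) (D.simple i) = -1 ∧ ∃ o ∈ orbs, i ∈ o)
    (hinj : ∀ i, i < D.rank → ∀ j, j < D.rank → D.simple i = D.simple j → i = j)
    (steps : List (ℕ × ℕ × ℕ))
    (hsteps : charDeriv D steps ((List.range D.rank).map D.simple) = true)
    (g : GL D.Idx F)
    (hg : ∀ b ∈ twGroup (bRel_of_mem (F := F) hD).xadd φ e orbs, b * g * b⁻¹ ∈ D.borelSubgroup F) :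
    g = 1 := by
  obtain ⟨f, hW⟩ := wtFacts_of_mem hD
  have R := bRel_of_mem (F := F) hD
  have hT := torusFacts_of_mem hD
  have hHD := hDiag_of_mem (F := F) hD
  have hA := htW_additive hC
  have hH : ∀ b ∈ twGroup R.xadd φ e orbs, b * g * b⁻¹ ∈ D.diagonalSubgroup F := by
    intro b hb
    apply mem_diagonal_of_tw_conj hD R hOK Ls hlong
    intro c hc
    have := hg (c * b) (mul_mem hc hb)
    have e1 : c * (b * g * b⁻¹) * c⁻¹ = c * b * g * (c * b)⁻¹ := by group
    rw [e1]; exact this
  have hgH : g ∈ D.diagonalSubgroup F := by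
    have := hH 1 (one_mem _)
    rwa [one_mul, inv_one, mul_one] at this
  obtain ⟨z, hz⟩ := mem_torus.mp (diagonalSubgroup_le_torus hHD hgH)
  have hconj : ∀ r, r < D.nroots → ∀ t : F,
      g * xGL R.xadd r t * g⁻¹ = xGL R.xadd r ((torusChar D z r : F) * t) := by
    intro r hr t
    apply Units.ext
    rw [Units.val_mul, Units.val_mul, xGL_val, xGL_val]
    exact torus_conj_x hT.chain hT.cartan hz r hr t
  have hfund : ∀ i, i < D.rank → torusChar D z (D.simple i) = 1 := by
    intro i hi
    obtain ⟨-, hnb, hcart, o, ho, hio⟩ := hsimp i hi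
    have hoOK := hOK o ho
    obtain ⟨hnd, hlt, -, -⟩ := orbOK_spec hoOK
    have hcomm := orbComm_of_OK R hoOK
    have hx : wordGL R.xadd (sw D o (coef φ e 1)) ∈ twGroup R.xadd φ e orbs :=
      sw_mem_twGroup R.xadd ho fun _ => map_one φ
    generalize hxdef : wordGL R.xadd (sw D o (coef φ e 1)) = x at hx
    have h1 : x⁻¹ * g * x ∈ D.diagonalSubgroup F := by
      have := hH x⁻¹ (inv_mem hx)
      rwa [inv_inv] at this
    have h2 : x⁻¹ * g * x * g⁻¹ ∈ D.diagonalSubgroup F := mul_mem h1 (inv_mem hgH)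
    have h3 : g * x * g⁻¹ =
        wordGL R.xadd (sw D o fun k => (torusChar D z (D.simple k) : F) * coef φ e 1 k) := by
      rw [← hxdef, wordGL_conj_map R.xadd g (fun p => (p.1, (torusChar D z p.1 : F) * p.2))]
      · unfold sw
        rw [List.map_map]
        rfl
      · intro p hp
        obtain ⟨k, hk, rfl⟩ := List.mem_map.mp hp
        exact hconj _ (R.wf.simple_lt k (hlt k hk)) _
    have h4 : x⁻¹ * g * x * g⁻¹ = wordGL R.xadd (sw D o fun k =>
        -coef φ e 1 k + (torusChar D z (D.simple k) : F) * coef φ e 1 k) := by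
      have e1 : x⁻¹ * g * x * g⁻¹ = x⁻¹ * (g * x * g⁻¹) := by group
      rw [e1, h3, ← hxdef, sw_inv R.xadd hcomm hnd, sw_add R.xadd hcomm hnd]
    have h5 : x⁻¹ * g * x * g⁻¹ ∈ D.posUnipotent F := by
      rw [h4]
      apply wordGL_mem
      intro p hp
      obtain ⟨k, hk, rfl⟩ := List.mem_map.mp hp
      exact xGL_mem_posUnipotent R.xadd (R.wf.simple_pos k (hlt k hk)) _
    have h6 : x⁻¹ * g * x * g⁻¹ = 1 := by
      have : x⁻¹ * g * x * g⁻¹ ∈ D.posUnipotent F ⊓ D.diagonalSubgroup F := ⟨h5, h2⟩
      rw [R.uh] at this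
      exact Subgroup.mem_bot.mp this
    rw [h4] at h6
    have h7 := sw_coeff_zero hW hA R.xadd hnd
      (fun a ha b hb => hinj a (hlt a ha) b (hlt b hb))
      (fun k hk => ⟨R.wf.simple_lt k (hlt k hk), (hsimp k (hlt k hk)).1⟩) _ h6 hio hnb hcart
    simp only [coef_one] at h7
    apply Units.ext
    rw [Units.val_one]
    linear_combination h7
  have hchi : ∀ s, s < D.nroots → torusChar D z s = 1 := by
    apply charDeriv_spec (torusChar_isRootCharacter hT.cartan z) steps _ hsteps
    intro r hr
    obtain ⟨i, hi, rfl⟩ := List.mem_map.mp hr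
    rw [List.mem_range] at hi
    exact ⟨R.wf.simple_lt i hi, hfund i hi⟩
  apply Units.ext
  rw [hz, Units.val_one]
  unfold ChevalleyDatum.charDiag
  rw [← Matrix.diagonal_one]
  congr 1
  funext b
  rcases b with j | s
  · rfl
  · show ((torusChar D z s.val : Fˣ) : F) = 1
    rw [hchi s.val s.isLt, Units.val_one]

end

end Cfsg.Agent.Helper17
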