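/-
helper17: the twisted groups `twGroup` (see `TwGen`) are perfect (`twGroup_perfect`), given
* a scalar `c ≠ 0` with `c² ≠ 1` (for the orbits with more than one root: the torus elements
  `∏ h_{p_i}(φ^{e_i} c)` act on `∏ x_{±p_i}(φ^{e_i} t)` by `t ↦ c^{±2} t`), and
* for the orbits `{p_i}` with one root a certificate `fixCertOK`: `±p_i = r + s` with `[x_r, x_s]` a clean
  commutator and `r`, `s` images of such `±p_j` under twisted words in the fundamental reflections.
-/
import Cfsg.Agent.Helper17.TwGen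

set_option autoImplicit false

namespace Cfsg.Agent.Helper17

open Cfsg Cfsg.Lie Cfsg.Agent.Helper36
open scoped commutatorElement

/-- A group generated by elements of its own commutator subgroup is perfect. -/
theorem commutator_eq_top_of_gens {G : Type*} [Group G] (S : Set G)
    (h : ∀ g ∈ S, g ∈ ⁅Subgroup.closure S, Subgroup.closure S⁆) :
    commutator ↥(Subgroup.closure S) = ⊤ := by
  have hle : Subgroup.closure S ≤ ⁅Subgroup.closure S, Subgroup.closure S⁆ :=
    (Subgroup.closure_le _).mpr h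
  rw [eq_top_iff]
  rintro ⟨g, hg⟩ -
  have h1 := hle hg
  rw [← Subgroup.map_subtype_commutator] at h1
  obtain ⟨c, hc, hcg⟩ := h1
  have : c = ⟨g, hg⟩ := Subtype.ext hcg
  rw [← this]
  exact hc

section

variable {D : ChevalleyDatum} {F : Type*} [Field F] {η : ℕ → ℕ → ℤ}

theorem list_prod_eq_single {o : List ℕ} (hnd : o.Nodup) {j : ℕ} (hj : j ∈ o) (f : ℕ → F)
    (h : ∀ i ∈ o, i ≠ j → f i = 1) : (o.map f).prod = f j := by
  induction o with
  | nil => simp at hj
  | cons i o ih =>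
    rw [List.nodup_cons] at hnd
    rw [List.map_cons, List.prod_cons]
    by_cases hij : i = j
    · subst hij
      have h1 : (o.map f).prod = 1 := by
        apply List.prod_eq_one
        intro x hx
        obtain ⟨k, hk, rfl⟩ := List.mem_map.mp hx
        exact h k (List.mem_cons_of_mem _ hk) (fun hki => hnd.1 (hki ▸ hk))
      rw [h1, mul_one]
    · rw [h i List.mem_cons_self hij, one_mul]
      rcases List.mem_cons.mp hj with hj' | hj'
      · exact absurd hj'.symm hij
      · exact ih hnd.2 hj' fun k hk => h k (List.mem_cons_of_mem _ hk)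

theorem hGL_simple_conj (hT : TorusFacts D) (hs : simpleOK D = true) (hH : HDiag D F) (hX : XAdd D F)
    {i s : ℕ} (hi : i < D.rank) (hsn : s < D.nroots) {c : F} (hc : c ≠ 0) (t : F) :
    hGL hX (D.simple i) c * xGL hX s t * (hGL hX (D.simple i) c)⁻¹ = xGL hX s (c ^ (D.cartan i s) * t) := by
  rw [mul_inv_eq_iff_eq_mul]
  apply Units.ext
  rw [Units.val_mul, Units.val_mul, hGL_val, xGL_val, xGL_val]
  exact hMat_simple_mul_x hT hs hH hi hsn hc t

theorem hOrb_conj_x (hT : TorusFacts D) (hs : simpleOK D = true) (hH : HDiag D F) (hX : XAdd D F)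
    {o : List ℕ} (ho : ∀ i ∈ o, i < D.rank) {c : ℕ → F} (hc : ∀ i ∈ o, c i ≠ 0) {s : ℕ}
    (hsn : s < D.nroots) (t : F) :
    hOrb hX o c * xGL hX s t * (hOrb hX o c)⁻¹ =
      xGL hX s ((o.map fun i => c i ^ D.cartan i s).prod * t) := by
  induction o with
  | nil => simp [hOrb]
  | cons i o ih =>
    have e1 : hOrb hX (i :: o) c * xGL hX s t * (hOrb hX (i :: o) c)⁻¹ =
        hGL hX (D.simple i) (c i) * (hOrb hX o c * xGL hX s t * (hOrb hX o c)⁻¹) *
          (hGL hX (D.simple i) (c i))⁻¹ := by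
      rw [hOrb_cons]; group
    rw [e1, ih (fun k hk => ho k (List.mem_cons_of_mem _ hk)) (fun k hk => hc k (List.mem_cons_of_mem _ hk)),
      hGL_simple_conj hT hs hH hX (ho i List.mem_cons_self) hsn (hc i List.mem_cons_self),
      List.map_cons, List.prod_cons, mul_assoc]

/-- `∏ h_{p_i}(c i)` acts on `∏ x_{p_i}(a i)` by `a i ↦ (c i)² a i`. -/
theorem hOrb_conj_sw (R : BRel D F η) (hT : TorusFacts D) (hs : simpleOK D = true) (hH : HDiag D F)
    {o : List ℕ} (hOK : orbOK D o = true) {c : ℕ → F} (hc : ∀ i ∈ o, c i ≠ 0) (a : ℕ → F) :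
    hOrb R.xadd o c * wordGL R.xadd (sw D o a) * (hOrb R.xadd o c)⁻¹ =
      wordGL R.xadd (sw D o fun j => c j ^ 2 * a j) := by
  obtain ⟨hnd, hlt, hdiag, hoff⟩ := orbOK_spec hOK
  have key : ∀ o' : List ℕ, (∀ j ∈ o', j ∈ o) →
      hOrb R.xadd o c * wordGL R.xadd (sw D o' a) * (hOrb R.xadd o c)⁻¹ =
        wordGL R.xadd (sw D o' fun j => c j ^ 2 * a j) := by
    intro o'
    induction o' with
    | nil => intro _; simp [sw, wordGL_nil]
    | cons j o' ih =>
      intro hsub
      have hj : j ∈ o := hsub j List.mem_cons_self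
      have e1 : hOrb R.xadd o c * wordGL R.xadd (sw D (j :: o') a) * (hOrb R.xadd o c)⁻¹ =
          (hOrb R.xadd o c * xGL R.xadd (D.simple j) (a j) * (hOrb R.xadd o c)⁻¹) *
            (hOrb R.xadd o c * wordGL R.xadd (sw D o' a) * (hOrb R.xadd o c)⁻¹) := by
        rw [sw_cons, wordGL_cons]; group
      rw [e1, ih fun k hk => hsub k (List.mem_cons_of_mem _ hk),
        hOrb_conj_x hT hs hH R.xadd hlt hc (R.wf.simple_lt j (hlt j hj)), sw_cons, wordGL_cons]
      congr 2
      rw [list_prod_eq_single hnd hj (fun i => c i ^ D.cartan i (D.simple j))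
        (fun i hi hij => by rw [(hoff i hi j hj hij).2.2.2.2.1, zpow_zero]), (hdiag j hj).1]
      norm_cast
  exact key o fun j hj => hj

/-- `∏ h_{p_i}(c i)` acts on `∏ x_{-p_i}(a i)` by `a i ↦ (c i)⁻² a i`. -/
theorem hOrb_conj_swN (R : BRel D F η) (hT : TorusFacts D) (hs : simpleOK D = true) (hH : HDiag D F)
    {o : List ℕ} (hOK : orbOK D o = true) {c : ℕ → F} (hc : ∀ i ∈ o, c i ≠ 0) (a : ℕ → F) :
    hOrb R.xadd o c * wordGL R.xadd (swN D o a) * (hOrb R.xadd o c)⁻¹ =
      wordGL R.xadd (swN D o fun j => (c j ^ 2)⁻¹ * a j) := by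
  obtain ⟨hnd, hlt, hdiag, hoff⟩ := orbOK_spec hOK
  have key : ∀ o' : List ℕ, (∀ j ∈ o', j ∈ o) →
      hOrb R.xadd o c * wordGL R.xadd (swN D o' a) * (hOrb R.xadd o c)⁻¹ =
        wordGL R.xadd (swN D o' fun j => (c j ^ 2)⁻¹ * a j) := by
    intro o'
    induction o' with
    | nil => intro _; simp [swN, wordGL_nil]
    | cons j o' ih =>
      intro hsub
      have hj : j ∈ o := hsub j List.mem_cons_self
      have e1 : hOrb R.xadd o c * wordGL R.xadd (swN D (j :: o') a) * (hOrb R.xadd o c)⁻¹ =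
          (hOrb R.xadd o c * xGL R.xadd (D.neg (D.simple j)) (a j) * (hOrb R.xadd o c)⁻¹) *
            (hOrb R.xadd o c * wordGL R.xadd (swN D o' a) * (hOrb R.xadd o c)⁻¹) := by
        rw [swN_cons, wordGL_cons]; group
      rw [e1, ih fun k hk => hsub k (List.mem_cons_of_mem _ hk),
        hOrb_conj_x hT hs hH R.xadd hlt hc (R.wf.neg_lt _ (R.wf.simple_lt j (hlt j hj))), swN_cons, wordGL_cons]
      congr 2
      rw [list_prod_eq_single hnd hj (fun i => c i ^ D.cartan i (D.neg (D.simple j)))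
        (fun i hi hij => by rw [(hoff i hi j hj hij).2.2.2.2.2, zpow_zero]), (hdiag j hj).2,
        zpow_neg]
      norm_cast
  exact key o fun j hj => hj

theorem comm_hOrb_sw (R : BRel D F η) (hT : TorusFacts D) (hs : simpleOK D = true) (hH : HDiag D F)
    {o : List ℕ} (hOK : orbOK D o = true) {c : ℕ → F} (hc : ∀ i ∈ o, c i ≠ 0) (a : ℕ → F) :
    ⁅hOrb R.xadd o c, wordGL R.xadd (sw D o a)⁆ = wordGL R.xadd (sw D o fun j => (c j ^ 2 - 1) * a j) := by
  have hcm := orbComm_of_OK R hOK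
  have hnd := (orbOK_spec hOK).1
  rw [commutatorElement_def, hOrb_conj_sw R hT hs hH hOK hc, sw_inv R.xadd hcm hnd, sw_add R.xadd hcm hnd]
  exact sw_congr R.xadd o fun i _ => by ring

theorem comm_hOrb_swN (R : BRel D F η) (hT : TorusFacts D) (hs : simpleOK D = true) (hH : HDiag D F)
    {o : List ℕ} (hOK : orbOK D o = true) {c : ℕ → F} (hc : ∀ i ∈ o, c i ≠ 0) (a : ℕ → F) :
    ⁅hOrb R.xadd o c, wordGL R.xadd (swN D o a)⁆ =
      wordGL R.xadd (swN D o fun j => ((c j ^ 2)⁻¹ - 1) * a j) := by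
  have hcm := orbComm_of_OK R hOK
  have hnd := (orbOK_spec hOK).1
  rw [commutatorElement_def, hOrb_conj_swN R hT hs hH hOK hc, swN_inv R.xadd hcm hnd,
    swN_add R.xadd hcm hnd]
  exact swN_congr R.xadd o fun i _ => by ring

/-- A clean target of the commutator formula is an explicit commutator. -/
theorem xGL_eq_comm_of_clean (R : BRel D F η) {k r s : ℕ} {c : ℤ} (h : cleanAt D k r s c = true)
    (hc : c = 1 ∨ c = -1) (t0 : F) :
    xGL R.xadd k t0 = ⁅(xGL R.xadd s 1)⁻¹, (xGL R.xadd r (-t0 / (c : F)))⁻¹⁆ := by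
  obtain ⟨hr, hs, h1, h2, hct⟩ := cleanAt_spec h
  have hc0 : (c : F) ≠ 0 := by
    rcases hc with rfl | rfl <;> simp
  have hcf := R.cf r hr s hs h1 h2 (-t0 / (c : F)) 1
  have hw : D.wordMat F (D.commWord F r s (-t0 / (c : F)) 1) = D.x F k t0 := by
    unfold ChevalleyDatum.commWord
    rw [hct, List.map_cons, List.map_nil, wordMat_cons, wordMat_nil, mul_one]
    congr 1
    simp only [pow_one, mul_one]
    field_simp
  rw [hw] at hcf
  set Xr := xGL R.xadd r (-t0 / (c : F))
  set Xs := xGL R.xadd s (1 : F)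
  set Xk := xGL R.xadd k t0
  have hgrp : Xs * Xr = Xr * Xs * Xk := Units.ext (by
    rw [Units.val_mul, Units.val_mul, Units.val_mul]; exact hcf)
  rw [commutatorElement_def, inv_inv, inv_inv]
  have : Xk = (Xr * Xs)⁻¹ * (Xs * Xr) := by rw [hgrp]; group
  rw [this]; group

variable {φ : F →+* F} {e : List ℕ} {orbs : List (List ℕ)}

/-- Root elements over the fixed field at the roots `w(±p_j)`, for an orbit `{p_j}` and a twisted word `w`, are
in the twisted group. -/
theorem xGL_reach_mem (R : BRel D F η) (hOK : ∀ o ∈ orbs, orbOK D o = true) {j : ℕ} (hj : [j] ∈ orbs)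
    (Ls : List ℕ) (ng : Bool) {u : F} (hu : φ u = u) :
    xGL R.xadd (wW D (flatO orbs Ls) (if ng = true then D.neg (D.simple j) else D.simple j)) u ∈
      twGroup R.xadd φ e orbs := by
  have hL := validW_flatO hOK Ls
  have hjr : j < D.rank := (orbOK_spec (hOK _ hj)).2.1 j List.mem_cons_self
  have hsj := R.wf.simple_lt j hjr
  have key : ∀ s0 : ℕ, s0 < D.nroots →
      (∀ v : F, φ v = v → xGL R.xadd s0 v ∈ twGroup R.xadd φ e orbs) →
      xGL R.xadd (wW D (flatO orbs Ls) s0) u ∈ twGroup R.xadd φ e orbs := by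
    intro s0 hs0 hmem
    have e1 := R.nW_conj_x hL hs0 ((eW D η (flatO orbs Ls) s0 : F) * u)
    rw [← mul_assoc, R.eW_mul_self hL hs0, one_mul] at e1
    rw [← e1]
    exact mul_mem (mul_mem (nW_flat_mem R hOK Ls) (hmem _ (by rw [map_mul, hu, map_intCast])))
      (inv_mem (nW_flat_mem R hOK Ls))
  cases ng with
  | false =>
    simp only [Bool.false_eq_true, if_false]
    refine key _ hsj fun v hv => ?_
    have := sw_mem_twGroup (e := e) R.xadd hj (t := v) (fun _ => hv)
    simpa [sw, wordGL_cons, wordGL_nil, coef_fixed e hv] using this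
  | true =>
    simp only [if_true]
    refine key _ (R.wf.neg_lt _ hsj) fun v hv => ?_
    have := swN_mem_twGroup (e := e) R.xadd hj (t := v) (fun _ => hv)
    simpa [swN, wordGL_cons, wordGL_nil, coef_fixed e hv] using this

/-- The certificate for a root `k = ±p_i` with `{p_i}` an orbit: `(r, s, c, (Lr, jr, ngr), (Ls, js, ngs))` with
`[x_r, x_s]` clean with target `k` and `r = w_{Lr}(±p_{jr})`, `s = w_{Ls}(±p_{js})`. -/
def fixCertOK (D : ChevalleyDatum) (orbs : List (List ℕ)) (k : ℕ)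
    (cert : ℕ × ℕ × ℤ × (List ℕ × ℕ × Bool) × (List ℕ × ℕ × Bool)) : Bool :=
  cleanAt D k cert.1 cert.2.1 cert.2.2.1 && (decide (cert.2.2.1 = 1) || decide (cert.2.2.1 = -1)) &&
    decide ([cert.2.2.2.1.2.1] ∈ orbs) && decide ([cert.2.2.2.2.2.1] ∈ orbs) &&
    decide (wW D (flatO orbs cert.2.2.2.1.1)
      (if cert.2.2.2.1.2.2 = true then D.neg (D.simple cert.2.2.2.1.2.1) else D.simple cert.2.2.2.1.2.1) =
        cert.1) &&
    decide (wW D (flatO orbs cert.2.2.2.2.1)
      (if cert.2.2.2.2.2.2 = true then D.neg (D.simple cert.2.2.2.2.2.1) else D.simple cert.2.2.2.2.2.1) =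
        cert.2.1)

theorem xGL_mem_comm_of_cert (R : BRel D F η) (hOK : ∀ o ∈ orbs, orbOK D o = true) {k : ℕ}
    {cert : ℕ × ℕ × ℤ × (List ℕ × ℕ × Bool) × (List ℕ × ℕ × Bool)}
    (h : fixCertOK D orbs k cert = true) {t : F} (ht : φ t = t) :
    xGL R.xadd k t ∈ ⁅twGroup R.xadd φ e orbs, twGroup R.xadd φ e orbs⁆ := by
  obtain ⟨r, s, c, ⟨Lr, jr, ngr⟩, ⟨Ls, js, ngs⟩⟩ := cert
  unfold fixCertOK at h
  simp only [Bool.and_eq_true, Bool.or_eq_true, decide_eq_true_eq] at h
  obtain ⟨⟨⟨⟨⟨h1, h2⟩, h3⟩, h4⟩, h5⟩, h6⟩ := h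
  rw [xGL_eq_comm_of_clean R h1 h2 t]
  apply Subgroup.commutator_mem_commutator
  · apply inv_mem
    rw [← h6]
    exact xGL_reach_mem R hOK h4 Ls ngs (map_one φ)
  · apply inv_mem
    rw [← h5]
    refine xGL_reach_mem R hOK h3 Lr ngr ?_
    rw [map_div₀, map_neg, ht, map_intCast]

/-- The twisted group is perfect. -/
theorem twGroup_perfect (R : BRel D F η) (hT : TorusFacts D) (hs : simpleOK D = true) (hH : HDiag D F)
    (φ : F →+* F) (e : List ℕ) (orbs : List (List ℕ))
    (hOK : ∀ o ∈ orbs, orbOK D o = true)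
    (hfix : ∀ o ∈ orbs, o.length = 1 → ∀ i ∈ o,
      (∃ cert, fixCertOK D orbs (D.simple i) cert = true) ∧
      (∃ cert, fixCertOK D orbs (D.neg (D.simple i)) cert = true))
    (hc : ∃ c : F, c ≠ 0 ∧ c ^ 2 ≠ 1) :
    commutator ↥(twGroup R.xadd φ e orbs) = ⊤ := by
  apply commutator_eq_top_of_gens
  rintro g ⟨o, ho, t, ht, hg⟩
  show g ∈ ⁅twGroup R.xadd φ e orbs, twGroup R.xadd φ e orbs⁆
  by_cases hlen : o.length = 1
  · obtain ⟨i, rfl⟩ := List.length_eq_one_iff.mp hlen
    obtain ⟨⟨c1, hc1⟩, ⟨c2, hc2⟩⟩ := hfix _ ho hlen i List.mem_cons_self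
    have htf := ht hlen
    rcases hg with rfl | rfl
    · rw [sw, List.map_cons, List.map_nil, wordGL_cons, wordGL_nil, mul_one, coef_fixed e htf]
      exact xGL_mem_comm_of_cert R hOK hc1 htf
    · rw [swN, List.map_cons, List.map_nil, wordGL_cons, wordGL_nil, mul_one, coef_fixed e htf]
      exact xGL_mem_comm_of_cert R hOK hc2 htf
  · obtain ⟨c, hc0, hc1⟩ := hc
    have hcoef : ∀ i ∈ o, coef φ e c i ≠ 0 := fun i _ => coef_ne_zero φ e hc0 i
    have hH' := hOrb_mem (φ := φ) (e := e) R ho (hOK o ho) (t := c) (fun h => absurd h hlen)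
    rcases hg with rfl | rfl
    · have hne : c ^ 2 - 1 ≠ 0 := sub_ne_zero.mpr hc1
      have e1 := comm_hOrb_sw R hT hs hH (hOK o ho) hcoef (coef φ e (t / (c ^ 2 - 1)))
      have e2 : (fun j => (coef φ e c j ^ 2 - 1) * coef φ e (t / (c ^ 2 - 1)) j) = coef φ e t := by
        funext j
        have e3 : coef φ e t j = coef φ e ((c ^ 2 - 1) * (t / (c ^ 2 - 1))) j := by
          rw [mul_div_cancel₀ _ hne]
        rw [e3, coef_mul, coef_sub, coef_pow, coef_one]
      rw [e2] at e1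
      rw [← e1]
      exact Subgroup.commutator_mem_commutator hH'
        (sw_mem_twGroup R.xadd ho fun h => absurd h hlen)
    · have hne : (c ^ 2)⁻¹ - 1 ≠ 0 := by
        rw [sub_ne_zero]
        intro h
        exact hc1 (inv_eq_one.mp h)
      have e1 := comm_hOrb_swN R hT hs hH (hOK o ho) hcoef (coef φ e (t / ((c ^ 2)⁻¹ - 1)))
      have e2 : (fun j => ((coef φ e c j ^ 2)⁻¹ - 1) * coef φ e (t / ((c ^ 2)⁻¹ - 1)) j) = coef φ e t := by
        funext j
        have e3 : coef φ e t j = coef φ e (((c ^ 2)⁻¹ - 1) * (t / ((c ^ 2)⁻¹ - 1))) j := by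
          rw [mul_div_cancel₀ _ hne]
        rw [e3, coef_mul, coef_sub, coef_inv, coef_pow, coef_one]
      rw [e2] at e1
      rw [← e1]
      exact Subgroup.commutator_mem_commutator hH'
        (swN_mem_twGroup R.xadd ho fun h => absurd h hlen)

end

end Cfsg.Agent.Helper17
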