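/-
helper17: group-theoretic lemmas for Steinberg's pairs of generators of the groups of Lie type.

* `two_gen_core`: if `h` acts on the one-parameter group `X` through a scalar `v` whose powers, multiplied by
  `(v - 1)(1 - v')`, are all the non-zero scalars (`v'` the scalar of the conjugate `n h n⁻¹`, which commutes with
  `h`), then the subgroup generated by `h` and `X 1 * n` contains `X` and `n`;
* `triple_comm`: the commutator of two products of three elements which commute except in pairs;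
* `closure_pair_subtype_top`: two elements generating a subgroup, inside the subgroup.
-/
import Mathlib

set_option autoImplicit false

namespace Cfsg.Agent.Helper17

theorem two_gen_core {G : Type*} [Group G] {K : Type*} [Field K] (X : K → G) (h n : G) (v v' : K)
    (hadd : ∀ s t, X (s + t) = X s * X t)
    (hh : ∀ t, h * X t * h⁻¹ = X (v * t))
    (hh' : ∀ t, (n * h * n⁻¹) * X t * (n * h * n⁻¹)⁻¹ = X (v' * t))
    (hcomm : Commute h (n * h * n⁻¹))
    (hgen : ∀ t : K, t ≠ 0 → ∃ i : ℕ, t = v ^ i * ((v - 1) * (1 - v'))) :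
    (∀ t, X t ∈ Subgroup.closure ({h, X 1 * n} : Set G)) ∧ n ∈ Subgroup.closure ({h, X 1 * n} : Set G) := by
  have hhS : h ∈ Subgroup.closure ({h, X 1 * n} : Set G) := Subgroup.subset_closure (by simp)
  have hxS : X 1 * n ∈ Subgroup.closure ({h, X 1 * n} : Set G) := Subgroup.subset_closure (by simp)
  have h0 : X 0 = 1 := by
    have := hadd 0 0
    rw [add_zero] at this
    exact left_eq_mul.mp this
  have hneg : ∀ t, X (-t) = (X t)⁻¹ := fun t =>
    eq_inv_of_mul_eq_one_left (by rw [← hadd, neg_add_cancel, h0])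
  -- `x h x⁻¹ = X (1 - v') h'`
  have hy : (X 1 * n) * h * (X 1 * n)⁻¹ = X (1 - v') * (n * h * n⁻¹) := by
    have e1 : (X 1 * n) * h * (X 1 * n)⁻¹ = X 1 * ((n * h * n⁻¹) * (X 1)⁻¹) := by group
    have e2 : (n * h * n⁻¹) * (X 1)⁻¹ = X (-v') * (n * h * n⁻¹) := by
      have := hh' (-1)
      rw [mul_neg, mul_one] at this
      rw [← hneg 1, ← this]
      group
    rw [e1, e2, ← mul_assoc, ← hadd, sub_eq_add_neg]
  have hyS : X (1 - v') * (n * h * n⁻¹) ∈ Subgroup.closure ({h, X 1 * n} : Set G) := by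
    rw [← hy]
    exact mul_mem (mul_mem hxS hhS) (inv_mem hxS)
  have hc : h * (X (1 - v') * (n * h * n⁻¹)) * h⁻¹ * (X (1 - v') * (n * h * n⁻¹))⁻¹ =
      X ((v - 1) * (1 - v')) := by
    have e1 : h * (X (1 - v') * (n * h * n⁻¹)) * h⁻¹ * (X (1 - v') * (n * h * n⁻¹))⁻¹ =
        (h * X (1 - v') * h⁻¹) * (h * (n * h * n⁻¹) * h⁻¹ * (n * h * n⁻¹)⁻¹) * (X (1 - v'))⁻¹ := by
      group
    have e2 : h * (n * h * n⁻¹) * h⁻¹ * (n * h * n⁻¹)⁻¹ = 1 := by
      rw [hcomm.eq]
      group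
    rw [e1, e2, mul_one, hh, ← hneg, ← hadd]
    congr 1
    ring
  have hl : X ((v - 1) * (1 - v')) ∈ Subgroup.closure ({h, X 1 * n} : Set G) := by
    rw [← hc]
    exact mul_mem (mul_mem (mul_mem hhS hyS) (inv_mem hhS)) (inv_mem hyS)
  have hpow : ∀ i : ℕ, ∀ t, X t ∈ Subgroup.closure ({h, X 1 * n} : Set G) →
      X (v ^ i * t) ∈ Subgroup.closure ({h, X 1 * n} : Set G) := by
    intro i
    induction i with
    | zero => intro t ht; simpa using ht
    | succ i ih =>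
      intro t ht
      rw [pow_succ', mul_assoc, ← hh]
      exact mul_mem (mul_mem hhS (ih t ht)) (inv_mem hhS)
  have hX : ∀ t, X t ∈ Subgroup.closure ({h, X 1 * n} : Set G) := by
    intro t
    by_cases ht : t = 0
    · rw [ht, h0]
      exact one_mem _
    · obtain ⟨i, hi⟩ := hgen t ht
      rw [hi]
      exact hpow i _ hl
  refine ⟨hX, ?_⟩
  have e : (X 1)⁻¹ * (X 1 * n) = n := by group
  have hm : (X 1)⁻¹ * (X 1 * n) ∈ Subgroup.closure ({h, X 1 * n} : Set G) := mul_mem (inv_mem (hX 1)) hxS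
  rw [e] at hm
  exact hm

/-- Moving one factor through a product of three: `s r₁ r₂ r₃ = r₁ r₂ r₃ s z` when `s` commutes with two of
the `rᵢ`, `s rₖ = rₖ s z` for the third, and `s`, `z` commute with the `rᵢ` to the right. -/
theorem triple_comm {G : Type*} [Group G] {r1 r2 r3 s1 s2 s3 z1 z2 z3 : G}
    (h12 : Commute s1 r2) (h13 : Commute s1 r3) (h21 : Commute s2 r1) (h23 : Commute s2 r3)
    (h31 : Commute s3 r1) (h32 : Commute s3 r2)
    (e1 : s1 * r1 = r1 * s1 * z1) (e2 : s2 * r2 = r2 * s2 * z2) (e3 : s3 * r3 = r3 * s3 * z3)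
    (hz1r2 : Commute z1 r2) (hz1r3 : Commute z1 r3) (hz2r3 : Commute z2 r3)
    (hz1s2 : Commute z1 s2) (hz1s3 : Commute z1 s3) (hz2s3 : Commute z2 s3) :
    (s1 * (s2 * (s3 * 1))) * (r1 * (r2 * (r3 * 1))) =
      (r1 * (r2 * (r3 * 1))) * (s1 * (s2 * (s3 * 1))) * (z1 * z2 * z3) := by
  have a3 : s3 * (r1 * (r2 * r3)) = (r1 * (r2 * r3)) * (s3 * z3) := by
    calc s3 * (r1 * (r2 * r3)) = (s3 * r1) * (r2 * r3) := by rw [mul_assoc]
      _ = r1 * ((s3 * r2) * r3) := by rw [h31.eq]; simp only [mul_assoc]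
      _ = r1 * (r2 * (s3 * r3)) := by rw [h32.eq]; simp only [mul_assoc]
      _ = (r1 * (r2 * r3)) * (s3 * z3) := by rw [e3]; simp only [mul_assoc]
  have a2 : s2 * (r1 * (r2 * r3)) = (r1 * (r2 * r3)) * (s2 * z2) := by
    calc s2 * (r1 * (r2 * r3)) = (s2 * r1) * (r2 * r3) := by rw [mul_assoc]
      _ = r1 * ((s2 * r2) * r3) := by rw [h21.eq]; simp only [mul_assoc]
      _ = r1 * (r2 * (s2 * (z2 * r3))) := by rw [e2]; simp only [mul_assoc]
      _ = r1 * (r2 * ((s2 * r3) * z2)) := by rw [hz2r3.eq]; simp only [mul_assoc]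
      _ = (r1 * (r2 * r3)) * (s2 * z2) := by rw [h23.eq]; simp only [mul_assoc]
  have a1 : s1 * (r1 * (r2 * r3)) = (r1 * (r2 * r3)) * (s1 * z1) := by
    calc s1 * (r1 * (r2 * r3)) = (s1 * r1) * (r2 * r3) := by rw [mul_assoc]
      _ = r1 * (s1 * ((z1 * r2) * r3)) := by rw [e1]; simp only [mul_assoc]
      _ = r1 * ((s1 * r2) * (z1 * r3)) := by rw [hz1r2.eq]; simp only [mul_assoc]
      _ = r1 * (r2 * ((s1 * r3) * z1)) := by rw [h12.eq, hz1r3.eq]; simp only [mul_assoc]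
      _ = (r1 * (r2 * r3)) * (s1 * z1) := by rw [h13.eq]; simp only [mul_assoc]
  simp only [mul_one]
  calc (s1 * (s2 * s3)) * (r1 * (r2 * r3)) = s1 * (s2 * (s3 * (r1 * (r2 * r3)))) := by
        simp only [mul_assoc]
    _ = s1 * ((s2 * (r1 * (r2 * r3))) * (s3 * z3)) := by rw [a3]; simp only [mul_assoc]
    _ = (s1 * (r1 * (r2 * r3))) * (s2 * z2 * (s3 * z3)) := by rw [a2]; simp only [mul_assoc]
    _ = (r1 * (r2 * r3)) * (s1 * ((z1 * s2) * ((z2 * s3) * z3))) := by rw [a1]; simp only [mul_assoc]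
    _ = (r1 * (r2 * r3)) * (s1 * (s2 * ((z1 * s3) * (z2 * z3)))) := by
        rw [hz1s2.eq, hz2s3.eq]; simp only [mul_assoc]
    _ = (r1 * (r2 * r3)) * (s1 * (s2 * s3)) * (z1 * z2 * z3) := by
        rw [hz1s3.eq]; simp only [mul_assoc]

/-- Two elements of a subgroup `H` which generate `H` generate the group `H`. -/
theorem closure_pair_subtype_top {G : Type*} [Group G] (H : Subgroup G) (a b : G) (ha : a ∈ H) (hb : b ∈ H)
    (h : H ≤ Subgroup.closure ({a, b} : Set G)) :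
    Subgroup.closure ({⟨a, ha⟩, ⟨b, hb⟩} : Set H) = ⊤ := by
  rw [eq_top_iff]
  rintro ⟨g, hg⟩ -
  have e : (Subgroup.closure ({⟨a, ha⟩, ⟨b, hb⟩} : Set H)).map H.subtype =
      Subgroup.closure ({a, b} : Set G) := by
    rw [MonoidHom.map_closure]
    congr 1
    ext x
    simp only [Set.mem_image, Set.mem_insert_iff, Set.mem_singleton_iff]
    constructor
    · rintro ⟨y, rfl | rfl, rfl⟩
      · exact Or.inl rfl
      · exact Or.inr rfl
    · rintro (rfl | rfl)
      · exact ⟨⟨x, ha⟩, Or.inl rfl, rfl⟩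
      · exact ⟨⟨x, hb⟩, Or.inr rfl, rfl⟩
  have hg' := h hg
  rw [← e] at hg'
  obtain ⟨y, hy, hyg⟩ := hg'
  have : y = ⟨g, hg⟩ := Subtype.ext hyg
  rw [← this]
  exact hy

end Cfsg.Agent.Helper17
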