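/-
helper17: `³D₄(q)` is generated by two elements: Steinberg's pair `h`, `x_a(1) n_a n_b`, with `h` in the torus,
`a = {p₁, p₃, p₄}` and `b = {p₂}` the orbits of the fundamental roots.
-/
import Cfsg.Agent.Helper17.TwoGen
import Cfsg.Agent.Helper17.TwD4
import Cfsg.Agent.Helper17.TwPerfect
import Cfsg.Agent.Helper17.ChevDiagCard
import Cfsg.Agent.Helper17.ChevUniMem
import Cfsg.Agent.Helper18.TwD

set_option autoImplicit false

namespace Cfsg.Agent.Helper17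

open Cfsg Cfsg.Lie Cfsg.Agent.Helper36

section generic

variable {D : ChevalleyDatum} {F : Type*} [Field F] {η : ℕ → ℕ → ℤ}

/-- The diagonal subgroup is commutative. -/
theorem diag_commute (hD : D ∈ [chevG2, chevB2, chevD4, chevF4, chevE6, chevE7, chevE8]) {x y : GL D.Idx F}
    (hx : x ∈ D.diagonalSubgroup F) (hy : y ∈ D.diagonalSubgroup F) : Commute x y := by
  rw [diagonalSubgroup_eq_torus (simpleOK_of_mem hD) (hDiag_of_mem hD) (rootElts_of_mem hD),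
    ← range_torusHom] at hx hy
  obtain ⟨u, rfl⟩ := hx
  obtain ⟨v, rfl⟩ := hy
  show _ * _ = _ * _
  rw [← map_mul, ← map_mul, mul_comm]

theorem hOrb_mem_diag (R : NRel D F η) {o : List ℕ} (ho : ∀ i ∈ o, i < D.rank) {c : ℕ → F}
    (hc : ∀ i ∈ o, c i ≠ 0) : hOrb R.xadd o c ∈ D.diagonalSubgroup F := by
  induction o with
  | nil => exact one_mem _
  | cons i o ih =>
    rw [hOrb_cons]
    exact mul_mem (hGL_mem R.xadd (R.wf.simple_lt i (ho i List.mem_cons_self)) (hc i List.mem_cons_self))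
      (ih (fun k hk => ho k (List.mem_cons_of_mem _ hk)) fun k hk => hc k (List.mem_cons_of_mem _ hk))

/-- The commutator formula at a pair of roots with one term. -/
theorem xGL_comm_clean (R : BRel D F η) {k r s : ℕ} {c : ℤ} (h : cleanAt D k r s c = true) (t u : F) :
    xGL R.xadd s u * xGL R.xadd r t =
      xGL R.xadd r t * xGL R.xadd s u * xGL R.xadd k (-((c : F) * t * u)) := by
  obtain ⟨hr, hs, h1, h2, hct⟩ := cleanAt_spec h
  have hcf := R.cf r hr s hs h1 h2 t u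
  have hw : D.wordMat F (D.commWord F r s t u) = D.x F k (-((c : F) * t * u)) := by
    unfold ChevalleyDatum.commWord
    rw [hct, List.map_cons, List.map_nil, wordMat_cons, wordMat_nil, mul_one]
    congr 1
    simp only [pow_one]
    ring
  rw [hw] at hcf
  exact Units.ext (by rw [Units.val_mul, Units.val_mul, Units.val_mul]; exact hcf)

/-- The commutator of two orbit elements of three roots whose roots add up, in pairs, to the root `k`. -/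
theorem trace_comm (R : BRel D F η) {k r1 r2 r3 s1 s2 s3 : ℕ} {c1 c2 c3 : ℤ}
    (h1 : cleanAt D k r1 s1 c1 = true) (h2 : cleanAt D k r2 s2 c2 = true)
    (h3 : cleanAt D k r3 s3 c3 = true)
    (e12 : commEmpty D s1 r2 = true) (e13 : commEmpty D s1 r3 = true) (e21 : commEmpty D s2 r1 = true)
    (e23 : commEmpty D s2 r3 = true) (e31 : commEmpty D s3 r1 = true) (e32 : commEmpty D s3 r2 = true)
    (k2 : commEmpty D k r2 = true) (k3 : commEmpty D k r3 = true) (k2' : commEmpty D k s2 = true)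
    (k3' : commEmpty D k s3 = true) (t1 t2 t3 u1 u2 u3 : F) :
    wordGL R.xadd [(s1, u1), (s2, u2), (s3, u3)] * wordGL R.xadd [(r1, t1), (r2, t2), (r3, t3)] =
      wordGL R.xadd [(r1, t1), (r2, t2), (r3, t3)] * wordGL R.xadd [(s1, u1), (s2, u2), (s3, u3)] *
        xGL R.xadd k (-((c1 : F) * t1 * u1) + -((c2 : F) * t2 * u2) + -((c3 : F) * t3 * u3)) := by
  simp only [wordGL_cons, wordGL_nil]
  rw [← xGL_mul, ← xGL_mul]
  exact triple_comm (commute_of_commEmpty R e12 u1 t2) (commute_of_commEmpty R e13 u1 t3)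
    (commute_of_commEmpty R e21 u2 t1) (commute_of_commEmpty R e23 u2 t3)
    (commute_of_commEmpty R e31 u3 t1) (commute_of_commEmpty R e32 u3 t2)
    (xGL_comm_clean R h1 t1 u1) (xGL_comm_clean R h2 t2 u2) (xGL_comm_clean R h3 t3 u3)
    (commute_of_commEmpty R k2 _ t2) (commute_of_commEmpty R k3 _ t3) (commute_of_commEmpty R k3 _ t3)
    (commute_of_commEmpty R k2' _ u2) (commute_of_commEmpty R k3' _ u3) (commute_of_commEmpty R k3' _ u3)

end generic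

/-! ### Tables for `D₄` -/

section d4

open Cfsg.Agent.Helper18

/-- The word `w_a w_b` of `D₄`: `a = {p₁, p₃, p₄}`, `b = {p₂}`. -/
def d4L : List ℕ := [0, 2, 3, 1]

theorem d4L_valid : ValidW chevD4 d4L := by unfold ValidW; decide

theorem d4L2_valid : ValidW chevD4 (d4L ++ d4L) := d4L_valid.append d4L_valid

theorem d4L3_valid : ValidW chevD4 (d4L ++ d4L ++ d4L) := d4L2_valid.append d4L_valid

theorem d4L5_valid : ValidW chevD4 (d4L ++ d4L ++ d4L ++ d4L ++ d4L) :=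
  ((d4L3_valid.append d4L_valid).append d4L_valid)

/-- The Cartan integers of the roots `p₁, p₃, p₄` and of their images under `(w_a w_b)⁻¹`. -/
theorem d4_cartan_tab :
    (chevD4.cartan 0 18 = 2 ∧ chevD4.cartan 1 18 = -1 ∧ chevD4.cartan 2 18 = 0 ∧ chevD4.cartan 3 18 = 0) ∧
    (chevD4.cartan 0 13 = 0 ∧ chevD4.cartan 1 13 = -1 ∧ chevD4.cartan 2 13 = 2 ∧ chevD4.cartan 3 13 = 0) ∧
    (chevD4.cartan 0 12 = 0 ∧ chevD4.cartan 1 12 = -1 ∧ chevD4.cartan 2 12 = 0 ∧ chevD4.cartan 3 12 = 2) ∧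
    (chevD4.cartan 0 4 = -1 ∧ chevD4.cartan 1 4 = -1 ∧ chevD4.cartan 2 4 = 1 ∧ chevD4.cartan 3 4 = 1) ∧
    (chevD4.cartan 0 7 = 1 ∧ chevD4.cartan 1 7 = -1 ∧ chevD4.cartan 2 7 = -1 ∧ chevD4.cartan 3 7 = 1) ∧
    (chevD4.cartan 0 8 = 1 ∧ chevD4.cartan 1 8 = -1 ∧ chevD4.cartan 2 8 = 1 ∧ chevD4.cartan 3 8 = -1) := by
  decide +kernel

theorem d4_w1_tab : wW chevD4 d4L 4 = 18 ∧ wW chevD4 d4L 7 = 13 ∧ wW chevD4 d4L 8 = 12 := by decide +kernel

theorem d4_w2_tab : wW chevD4 (d4L ++ d4L) 18 = 19 ∧ wW chevD4 (d4L ++ d4L) 13 = 16 ∧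
    wW chevD4 (d4L ++ d4L) 12 = 15 ∧ eW chevD4 (etaN chevD4) (d4L ++ d4L) 18 = -1 ∧
    eW chevD4 (etaN chevD4) (d4L ++ d4L) 13 = 1 ∧ eW chevD4 (etaN chevD4) (d4L ++ d4L) 12 = 1 := by
  decide +kernel

theorem d4_w3_tab : wW chevD4 (d4L ++ d4L ++ d4L) 18 = 5 ∧ wW chevD4 (d4L ++ d4L ++ d4L) 13 = 10 ∧
    wW chevD4 (d4L ++ d4L ++ d4L) 12 = 11 ∧ eW chevD4 (etaN chevD4) (d4L ++ d4L ++ d4L) 18 = -1 ∧
    eW chevD4 (etaN chevD4) (d4L ++ d4L ++ d4L) 13 = -1 ∧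
    eW chevD4 (etaN chevD4) (d4L ++ d4L ++ d4L) 12 = -1 := by
  decide +kernel

theorem d4_w5_tab : wW chevD4 (d4L ++ d4L ++ d4L ++ d4L ++ d4L) 18 = 4 ∧
    wW chevD4 (d4L ++ d4L ++ d4L ++ d4L ++ d4L) 13 = 7 ∧
    wW chevD4 (d4L ++ d4L ++ d4L ++ d4L ++ d4L) 12 = 8 ∧
    eW chevD4 (etaN chevD4) (d4L ++ d4L ++ d4L ++ d4L ++ d4L) 18 = 1 ∧
    eW chevD4 (etaN chevD4) (d4L ++ d4L ++ d4L ++ d4L ++ d4L) 13 = -1 ∧
    eW chevD4 (etaN chevD4) (d4L ++ d4L ++ d4L ++ d4L ++ d4L) 12 = -1 := by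
  decide +kernel

/-- The commutator formula between the orbits `w² a` and `-a`: target `p₂`. -/
theorem d4_comm_pos : cleanAt chevD4 14 19 5 1 = true ∧ cleanAt chevD4 14 16 10 (-1) = true ∧
    cleanAt chevD4 14 15 11 (-1) = true ∧
    commEmpty chevD4 5 16 = true ∧ commEmpty chevD4 5 15 = true ∧ commEmpty chevD4 10 19 = true ∧
    commEmpty chevD4 10 15 = true ∧ commEmpty chevD4 11 19 = true ∧ commEmpty chevD4 11 16 = true ∧
    commEmpty chevD4 14 16 = true ∧ commEmpty chevD4 14 15 = true ∧ commEmpty chevD4 14 10 = true ∧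
    commEmpty chevD4 14 11 = true := by
  decide +kernel

/-- The commutator formula between the orbits `w⁵ a` and `a`: target `-p₂`. -/
theorem d4_comm_neg : cleanAt chevD4 9 4 18 (-1) = true ∧ cleanAt chevD4 9 7 13 1 = true ∧
    cleanAt chevD4 9 8 12 1 = true ∧
    commEmpty chevD4 18 7 = true ∧ commEmpty chevD4 18 8 = true ∧ commEmpty chevD4 13 4 = true ∧
    commEmpty chevD4 13 8 = true ∧ commEmpty chevD4 12 4 = true ∧ commEmpty chevD4 12 7 = true ∧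
    commEmpty chevD4 9 7 = true ∧ commEmpty chevD4 9 8 = true ∧ commEmpty chevD4 9 13 = true ∧
    commEmpty chevD4 9 12 = true := by
  decide +kernel

end d4

/-! ### The two generators of `³D₄` -/

theorem conj3 {G : Type*} [Group G] (g a b c : G) :
    g * (a * (b * (c * 1))) * g⁻¹ = (g * a * g⁻¹) * ((g * b * g⁻¹) * ((g * c * g⁻¹) * 1)) := by group

section d4main

open Cfsg.Agent.Helper18

variable {K : Type*} [Field K] (R : BRel chevD4 K (etaN chevD4)) (φ : K →+* K)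

/-- The root element of the orbit `a`. -/
noncomputable def d4X (t : K) : GL chevD4.Idx K := wordGL R.xadd (sw chevD4 [0, 2, 3] (coef φ eD4 t))

/-- The root element of the orbit `-a`. -/
noncomputable def d4Y (t : K) : GL chevD4.Idx K := wordGL R.xadd (swN chevD4 [0, 2, 3] (coef φ eD4 t))

/-- The torus element `h_a(A) h_b(B)`. -/
noncomputable def d4H (A B : K) : GL chevD4.Idx K :=
  hOrb R.xadd [0, 2, 3] (coef φ eD4 A) * hOrb R.xadd [1] (coef φ eD4 B)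

/-- Its character. -/
noncomputable def d4chi (A B : K) (s : ℕ) : K :=
  A ^ chevD4.cartan 0 s * (φ A) ^ chevD4.cartan 2 s * (φ (φ A)) ^ chevD4.cartan 3 s * B ^ chevD4.cartan 1 s

theorem d4X_eq (t : K) : d4X R φ t = wordGL R.xadd [(18, t), (13, φ t), (12, φ (φ t))] := by
  rw [d4X, sw_D4_023]; rfl

theorem d4Y_eq (t : K) : d4Y R φ t = wordGL R.xadd [(5, t), (10, φ t), (11, φ (φ t))] := by
  rw [d4Y, swN_D4_023]; rfl

theorem d4X_add (s t : K) : d4X R φ (s + t) = d4X R φ s * d4X R φ t := by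
  have hOK : orbOK chevD4 [0, 2, 3] = true := orbOK_D4 _ (by simp [orbsD4])
  rw [d4X, d4X, d4X, sw_add R.xadd (orbComm_of_OK R hOK) (orbOK_spec hOK).1]
  exact sw_congr R.xadd _ fun i _ => coef_add φ eD4 s t i

theorem d4H_mem_diag {A B : K} (hA : A ≠ 0) (hB : B ≠ 0) : d4H R φ A B ∈ chevD4.diagonalSubgroup K := by
  refine mul_mem (hOrb_mem_diag R.toNRel ?_ fun i _ => coef_ne_zero φ eD4 hA i)
    (hOrb_mem_diag R.toNRel ?_ fun i _ => coef_ne_zero φ eD4 hB i)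
  · decide
  · decide

theorem d4H_conj {A B : K} (hA : A ≠ 0) (hB : B ≠ 0) {s : ℕ} (hs : s < chevD4.nroots) (t : K) :
    d4H R φ A B * xGL R.xadd s t * (d4H R φ A B)⁻¹ = xGL R.xadd s (d4chi φ A B s * t) := by
  have hT := torusFacts_of_mem hD_D4
  have hsO := simpleOK_of_mem hD_D4
  have hH := hDiag_of_mem (F := K) hD_D4
  have e1 : d4H R φ A B * xGL R.xadd s t * (d4H R φ A B)⁻¹ =
      hOrb R.xadd [0, 2, 3] (coef φ eD4 A) * (hOrb R.xadd [1] (coef φ eD4 B) * xGL R.xadd s t *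
        (hOrb R.xadd [1] (coef φ eD4 B))⁻¹) * (hOrb R.xadd [0, 2, 3] (coef φ eD4 A))⁻¹ := by
    rw [d4H]; group
  rw [e1, hOrb_conj_x hT hsO hH R.xadd (by decide) (fun i _ => coef_ne_zero φ eD4 hB i) hs,
    hOrb_conj_x hT hsO hH R.xadd (by decide) (fun i _ => coef_ne_zero φ eD4 hA i) hs]
  congr 1
  simp only [List.map_cons, List.map_nil, List.prod_cons, List.prod_nil, d4chi]
  have c0 : coef φ eD4 A 0 = A := rfl
  have c2 : coef φ eD4 A 2 = φ A := rfl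
  have c3 : coef φ eD4 A 3 = φ (φ A) := rfl
  have c1 : coef φ eD4 B 1 = B := rfl
  rw [c0, c1, c2, c3]
  ring

theorem d4chi_vals (A B : K) :
    d4chi φ A B 18 = A ^ 2 * B⁻¹ ∧ d4chi φ A B 13 = (φ A) ^ 2 * B⁻¹ ∧
    d4chi φ A B 12 = (φ (φ A)) ^ 2 * B⁻¹ ∧
    d4chi φ A B 4 = A⁻¹ * φ A * φ (φ A) * B⁻¹ ∧ d4chi φ A B 7 = A * (φ A)⁻¹ * φ (φ A) * B⁻¹ ∧
    d4chi φ A B 8 = A * φ A * (φ (φ A))⁻¹ * B⁻¹ := by
  obtain ⟨⟨a1, a2, a3, a4⟩, ⟨b1, b2, b3, b4⟩, ⟨c1, c2, c3, c4⟩, ⟨d1, d2, d3, d4⟩, ⟨e1, e2, e3, e4⟩,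
    ⟨f1, f2, f3, f4⟩⟩ := d4_cartan_tab
  unfold d4chi
  rw [a1, a2, a3, a4, b1, b2, b3, b4, c1, c2, c3, c4, d1, d2, d3, d4, e1, e2, e3, e4, f1, f2, f3, f4]
  simp only [zpow_zero, zpow_one, zpow_neg_one, mul_one, one_mul]
  refine ⟨?_, ?_, ?_, ?_, ?_, ?_⟩ <;> first | rfl | (norm_cast)

/-- `h x_a(t) h⁻¹ = x_a(A² B⁻¹ t)`. -/
theorem d4X_conjH {A B : K} (hA : A ≠ 0) (hB : B ≠ 0) (hBf : φ B = B) (t : K) :
    d4H R φ A B * d4X R φ t * (d4H R φ A B)⁻¹ = d4X R φ (A ^ 2 * B⁻¹ * t) := by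
  obtain ⟨v1, v2, v3, -, -, -⟩ := d4chi_vals φ A B
  have a := d4H_conj R φ hA hB (by decide : 18 < chevD4.nroots) t
  have b := d4H_conj R φ hA hB (by decide : 13 < chevD4.nroots) (φ t)
  have c := d4H_conj R φ hA hB (by decide : 12 < chevD4.nroots) (φ (φ t))
  rw [v1] at a
  rw [v2] at b
  rw [v3] at c
  have e13 : φ (A ^ 2 * B⁻¹ * t) = φ A ^ 2 * B⁻¹ * φ t := by
    simp only [map_mul, map_pow, map_inv₀, hBf]
  have e12 : φ (φ (A ^ 2 * B⁻¹ * t)) = φ (φ A) ^ 2 * B⁻¹ * φ (φ t) := by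
    simp only [map_mul, map_pow, map_inv₀, hBf]
  rw [d4X_eq, d4X_eq]
  simp only [wordGL_cons, wordGL_nil]
  rw [conj3, a, b, c, e12, e13]

/-- The conjugate `n h n⁻¹` acts on `x_s` through the character at `w⁻¹ s`. -/
theorem d4H'_conj {A B : K} (hA : A ≠ 0) (hB : B ≠ 0) {s s' : ℕ} (hs' : s' < chevD4.nroots)
    (hw : wW chevD4 d4L s' = s) (t : K) :
    (R.nW d4L * d4H R φ A B * (R.nW d4L)⁻¹) * xGL R.xadd s t *
        (R.nW d4L * d4H R φ A B * (R.nW d4L)⁻¹)⁻¹ =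
      xGL R.xadd s (d4chi φ A B s' * t) := by
  have hee := R.eW_mul_self (F := K) d4L_valid hs'
  have e1 := R.nW_conj_x d4L_valid hs' ((eW chevD4 (etaN chevD4) d4L s' : K) * t)
  rw [← mul_assoc, hee, one_mul, hw] at e1
  have e2 : (R.nW d4L * d4H R φ A B * (R.nW d4L)⁻¹) * xGL R.xadd s t *
      (R.nW d4L * d4H R φ A B * (R.nW d4L)⁻¹)⁻¹ =
      R.nW d4L * (d4H R φ A B * xGL R.xadd s' ((eW chevD4 (etaN chevD4) d4L s' : K) * t) *
        (d4H R φ A B)⁻¹) * (R.nW d4L)⁻¹ := by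
    rw [← e1]; group
  rw [e2, d4H_conj R φ hA hB hs', R.nW_conj_x d4L_valid hs', hw]
  congr 1
  linear_combination (d4chi φ A B s' * t) * hee

/-- `(n h n⁻¹) x_a(t) (n h n⁻¹)⁻¹ = x_a(A⁻¹ φ(A) φ²(A) B⁻¹ t)`. -/
theorem d4X_conjH' {A B : K} (hA : A ≠ 0) (hB : B ≠ 0) (hBf : φ B = B) (h3 : ∀ t, φ (φ (φ t)) = t) (t : K) :
    (R.nW d4L * d4H R φ A B * (R.nW d4L)⁻¹) * d4X R φ t * (R.nW d4L * d4H R φ A B * (R.nW d4L)⁻¹)⁻¹ =
      d4X R φ (A⁻¹ * φ A * φ (φ A) * B⁻¹ * t) := by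
  obtain ⟨-, -, -, v4, v7, v8⟩ := d4chi_vals φ A B
  obtain ⟨w4, w7, w8⟩ := d4_w1_tab
  have a := d4H'_conj R φ hA hB (by decide : 4 < chevD4.nroots) w4 t
  have b := d4H'_conj R φ hA hB (by decide : 7 < chevD4.nroots) w7 (φ t)
  have c := d4H'_conj R φ hA hB (by decide : 8 < chevD4.nroots) w8 (φ (φ t))
  rw [v4] at a
  rw [v7] at b
  rw [v8] at c
  have e13 : φ (A⁻¹ * φ A * φ (φ A) * B⁻¹ * t) = A * (φ A)⁻¹ * φ (φ A) * B⁻¹ * φ t := by
    simp only [map_mul, map_inv₀, hBf, h3]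
    ring
  have e12 : φ (φ (A⁻¹ * φ A * φ (φ A) * B⁻¹ * t)) = A * φ A * (φ (φ A))⁻¹ * B⁻¹ * φ (φ t) := by
    simp only [map_mul, map_inv₀, hBf, h3]
    ring
  rw [d4X_eq, d4X_eq]
  simp only [wordGL_cons, wordGL_nil]
  rw [conj3, a, b, c, e12, e13]

theorem mem3_lt {a b c : ℕ} (ha : a < chevD4.nroots) (hb : b < chevD4.nroots) (hc : c < chevD4.nroots)
    (x y z : K) : ∀ p ∈ [(a, x), (b, y), (c, z)], p.1 < chevD4.nroots := by
  intro p hp
  simp only [List.mem_cons, List.not_mem_nil, or_false] at hp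
  rcases hp with rfl | rfl | rfl
  · exact ha
  · exact hb
  · exact hc

/-- `n² x_a(t) n⁻²`. -/
theorem d4_conj2 (t : K) :
    R.nW (d4L ++ d4L) * d4X R φ t * (R.nW (d4L ++ d4L))⁻¹ =
      wordGL R.xadd [(19, -t), (16, φ t), (15, φ (φ t))] := by
  obtain ⟨w1, w2, w3, s1, s2, s3⟩ := d4_w2_tab
  rw [d4X_eq, nW_conj_wordGL R.toNRel d4L2_valid _ (mem3_lt (by decide) (by decide) (by decide) _ _ _)]
  simp only [List.map_cons, List.map_nil, w1, w2, w3, s1, s2, s3, Int.cast_neg, Int.cast_one, neg_mul,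
    one_mul]

/-- `n³ x_a(t) n⁻³ = x_{-a}(-t)`. -/
theorem d4_conj3 (t : K) :
    R.nW (d4L ++ d4L ++ d4L) * d4X R φ t * (R.nW (d4L ++ d4L ++ d4L))⁻¹ = d4Y R φ (-t) := by
  obtain ⟨w1, w2, w3, s1, s2, s3⟩ := d4_w3_tab
  rw [d4X_eq, d4Y_eq, nW_conj_wordGL R.toNRel d4L3_valid _ (mem3_lt (by decide) (by decide) (by decide) _ _ _)]
  simp only [List.map_cons, List.map_nil, w1, w2, w3, s1, s2, s3, Int.cast_neg, Int.cast_one, neg_mul,
    one_mul, map_neg]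

/-- `n⁵ x_a(t) n⁻⁵`. -/
theorem d4_conj5 (t : K) :
    R.nW (d4L ++ d4L ++ d4L ++ d4L ++ d4L) * d4X R φ t * (R.nW (d4L ++ d4L ++ d4L ++ d4L ++ d4L))⁻¹ =
      wordGL R.xadd [(4, t), (7, -φ t), (8, -φ (φ t))] := by
  obtain ⟨w1, w2, w3, s1, s2, s3⟩ := d4_w5_tab
  rw [d4X_eq, nW_conj_wordGL R.toNRel d4L5_valid _ (mem3_lt (by decide) (by decide) (by decide) _ _ _)]
  simp only [List.map_cons, List.map_nil, w1, w2, w3, s1, s2, s3, Int.cast_neg, Int.cast_one, neg_mul,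
    one_mul]

/-- `x_{p₂}(t + φ t + φ² t)` as a commutator. -/
theorem d4_trace_pos (t : K) :
    d4Y R φ 1 * wordGL R.xadd [(19, -t), (16, φ t), (15, φ (φ t))] =
      wordGL R.xadd [(19, -t), (16, φ t), (15, φ (φ t))] * d4Y R φ 1 *
        xGL R.xadd 14 (t + φ t + φ (φ t)) := by
  obtain ⟨c1, c2, c3, e12, e13, e21, e23, e31, e32, k2, k3, k2', k3'⟩ := d4_comm_pos
  rw [d4Y_eq, trace_comm R c1 c2 c3 e12 e13 e21 e23 e31 e32 k2 k3 k2' k3']
  congr 2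
  simp only [map_one]
  push_cast
  ring

/-- `x_{-p₂}(t + φ t + φ² t)` as a commutator. -/
theorem d4_trace_neg (t : K) :
    d4X R φ 1 * wordGL R.xadd [(4, t), (7, -φ t), (8, -φ (φ t))] =
      wordGL R.xadd [(4, t), (7, -φ t), (8, -φ (φ t))] * d4X R φ 1 *
        xGL R.xadd 9 (t + φ t + φ (φ t)) := by
  obtain ⟨c1, c2, c3, e12, e13, e21, e23, e31, e32, k2, k3, k2', k3'⟩ := d4_comm_neg
  rw [d4X_eq, trace_comm R c1 c2 c3 e12 e13 e21 e23 e31 e32 k2 k3 k2' k3']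
  congr 2
  simp only [map_one]
  push_cast
  ring

/-- A subgroup containing the `x_a(t)` and `n_a n_b` contains `³D₄`. -/
theorem d4_gens_le (S : Subgroup (GL chevD4.Idx K)) (hXS : ∀ t, d4X R φ t ∈ S) (hnS : R.nW d4L ∈ S)
    (htr : ∀ s : K, φ s = s → ∃ t : K, t + φ t + φ (φ t) = s) :
    twGroup R.xadd φ eD4 orbsD4 ≤ S := by
  have hn2 : R.nW (d4L ++ d4L) ∈ S := by rw [R.nW_append]; exact mul_mem hnS hnS
  have hn3 : R.nW (d4L ++ d4L ++ d4L) ∈ S := by rw [R.nW_append]; exact mul_mem hn2 hnS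
  have hn5 : R.nW (d4L ++ d4L ++ d4L ++ d4L ++ d4L) ∈ S := by
    rw [R.nW_append, R.nW_append]; exact mul_mem (mul_mem hn3 hnS) hnS
  have hYS : ∀ t, d4Y R φ t ∈ S := by
    intro t
    have e := d4_conj3 R φ (-t)
    rw [neg_neg] at e
    rw [← e]
    exact mul_mem (mul_mem hn3 (hXS _)) (inv_mem hn3)
  have hpS : ∀ s, φ s = s → xGL R.xadd 14 s ∈ S := by
    intro s hs
    obtain ⟨t, rfl⟩ := htr s hs
    have hY2 : wordGL R.xadd [(19, -t), (16, φ t), (15, φ (φ t))] ∈ S := by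
      rw [← d4_conj2 R φ t]
      exact mul_mem (mul_mem hn2 (hXS _)) (inv_mem hn2)
    have e := d4_trace_pos R φ t
    have e' : xGL R.xadd 14 (t + φ t + φ (φ t)) =
        (wordGL R.xadd [(19, -t), (16, φ t), (15, φ (φ t))] * d4Y R φ 1)⁻¹ *
          (d4Y R φ 1 * wordGL R.xadd [(19, -t), (16, φ t), (15, φ (φ t))]) := by
      rw [e]; group
    rw [e']
    exact mul_mem (inv_mem (mul_mem hY2 (hYS 1))) (mul_mem (hYS 1) hY2)
  have hmS : ∀ s, φ s = s → xGL R.xadd 9 s ∈ S := by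
    intro s hs
    obtain ⟨t, rfl⟩ := htr s hs
    have hY5 : wordGL R.xadd [(4, t), (7, -φ t), (8, -φ (φ t))] ∈ S := by
      rw [← d4_conj5 R φ t]
      exact mul_mem (mul_mem hn5 (hXS _)) (inv_mem hn5)
    have e := d4_trace_neg R φ t
    have e' : xGL R.xadd 9 (t + φ t + φ (φ t)) =
        (wordGL R.xadd [(4, t), (7, -φ t), (8, -φ (φ t))] * d4X R φ 1)⁻¹ *
          (d4X R φ 1 * wordGL R.xadd [(4, t), (7, -φ t), (8, -φ (φ t))]) := by
      rw [e]; group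
    rw [e']
    exact mul_mem (inv_mem (mul_mem hY5 (hXS 1))) (mul_mem (hXS 1) hY5)
  unfold twGroup
  rw [Subgroup.closure_le]
  rintro g ⟨o, ho, t, ht, hg⟩
  simp only [orbsD4, List.mem_cons, List.not_mem_nil, or_false] at ho
  rcases ho with rfl | rfl
  · have htf : φ t = t := ht rfl
    rcases hg with rfl | rfl
    · rw [sw_D4_1, wordGL_cons, wordGL_nil, mul_one]
      exact hpS t htf
    · rw [swN_D4_1, wordGL_cons, wordGL_nil, mul_one]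
      exact hmS t htf
  · rcases hg with rfl | rfl
    · exact hXS t
    · exact hYS t

/-- `³D₄` is generated by two elements. -/
theorem d4_two_gen (h3 : ∀ t, φ (φ (φ t)) = t) {A B : K} (hA : A ≠ 0) (hB : B ≠ 0) (hBf : φ B = B)
    (hv : φ (A ^ 2 * B⁻¹) ≠ A ^ 2 * B⁻¹) (hgen : ∀ t : K, t ≠ 0 → ∃ i : ℕ, t = (A ^ 2 * B⁻¹) ^ i)
    (htr : ∀ s : K, φ s = s → ∃ t : K, t + φ t + φ (φ t) = s) :
    ∃ a b : ↥(twGroup R.xadd φ eD4 orbsD4),
      Subgroup.closure ({a, b} : Set ↥(twGroup R.xadd φ eD4 orbsD4)) = ⊤ := by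
  have hOKa : orbOK chevD4 [0, 2, 3] = true := orbOK_D4 _ (by simp [orbsD4])
  have hOKb : orbOK chevD4 [1] = true := orbOK_D4 _ (by simp [orbsD4])
  have hma : [0, 2, 3] ∈ orbsD4 := by simp [orbsD4]
  have hmb : [1] ∈ orbsD4 := by simp [orbsD4]
  have hhG : d4H R φ A B ∈ twGroup R.xadd φ eD4 orbsD4 :=
    mul_mem (hOrb_mem R hma hOKa (fun h => absurd h (by decide))) (hOrb_mem R hmb hOKb fun _ => hBf)
  have hnG : R.nW d4L ∈ twGroup R.xadd φ eD4 orbsD4 := by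
    have : d4L = [0, 2, 3] ++ [1] := rfl
    rw [this, R.nW_append]
    exact mul_mem (nW_orb_mem R hma hOKa) (nW_orb_mem R hmb hOKb)
  have hXG : ∀ t, d4X R φ t ∈ twGroup R.xadd φ eD4 orbsD4 := fun t =>
    sw_mem_twGroup R.xadd hma (fun h => absurd h (by decide))
  have hv1 : A ^ 2 * B⁻¹ ≠ 1 := by
    intro h
    apply hv
    rw [h, map_one]
  have hv' : A⁻¹ * φ A * φ (φ A) * B⁻¹ ≠ 1 := by
    intro h
    apply hv
    have hφA : φ A ≠ 0 := (map_ne_zero φ).mpr hA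
    have hφφA : φ (φ A) ≠ 0 := (map_ne_zero φ).mpr hφA
    have e : A ^ 2 * B⁻¹ = A ^ 2 * B⁻¹ * (A⁻¹ * φ A * φ (φ A) * B⁻¹) := by rw [h, mul_one]
    rw [e]
    simp only [map_mul, map_pow, map_inv₀, hBf, h3]
    field_simp
  obtain ⟨hXS, hnS⟩ := two_gen_core (d4X R φ) (d4H R φ A B) (R.nW d4L) (A ^ 2 * B⁻¹)
    (A⁻¹ * φ A * φ (φ A) * B⁻¹)
    (d4X_add R φ) (d4X_conjH R φ hA hB hBf) (d4X_conjH' R φ hA hB hBf h3)
    (diag_commute hD_D4 (d4H_mem_diag R φ hA hB) (R.nW_conj_H d4L_valid _ (d4H_mem_diag R φ hA hB)))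
    (by
      intro t ht
      have hne : (A ^ 2 * B⁻¹ - 1) * (1 - A⁻¹ * φ A * φ (φ A) * B⁻¹) ≠ 0 :=
        mul_ne_zero (sub_ne_zero.mpr hv1) (sub_ne_zero.mpr (Ne.symm hv'))
      obtain ⟨i, hi⟩ := hgen (t / ((A ^ 2 * B⁻¹ - 1) * (1 - A⁻¹ * φ A * φ (φ A) * B⁻¹)))
        (div_ne_zero ht hne)
      exact ⟨i, by rw [← hi, div_mul_cancel₀ _ hne]⟩)
  exact ⟨⟨d4H R φ A B, hhG⟩, ⟨d4X R φ 1 * R.nW d4L, mul_mem (hXG 1) hnG⟩,
    closure_pair_subtype_top _ _ _ hhG (mul_mem (hXG 1) hnG) (d4_gens_le R φ _ hXS hnS htr)⟩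

end d4main

end Cfsg.Agent.Helper17
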