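/-
helper17: `²E₆(q)` is generated by two elements: Steinberg's pair `h`, `x_a(1) n_w`, with `h = h_{a'}(C)` in the
torus, `a = {p₁, p₆}`, `a' = {p₃, p₅}` and `w` the product of the reflections in the four orbits of the
fundamental roots.  The twelve images of `a` under the powers of `w` contain `±a`, `±a'`, and the root elements
of `±p₄`, `±p₂` are commutators of the root elements of two of them.
-/
import Cfsg.Agent.Helper17.TwoGenD4
import Cfsg.Agent.Helper17.TwE6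

set_option autoImplicit false

namespace Cfsg.Agent.Helper17

open Cfsg Cfsg.Lie Cfsg.Agent.Helper36

/-- Two products of two elements which commute except crosswise. -/
theorem pair_comm_cross {G : Type*} [Group G] {r1 r2 s1 s2 z1 z2 : G} (h11 : Commute s1 r1)
    (h22 : Commute s2 r2) (e1 : s1 * r2 = r2 * s1 * z1) (e2 : s2 * r1 = r1 * s2 * z2)
    (hz2r2 : Commute z2 r2) (hz1s2 : Commute z1 s2) :
    (s1 * (s2 * 1)) * (r1 * (r2 * 1)) = (r1 * (r2 * 1)) * (s1 * (s2 * 1)) * (z1 * z2) := by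
  simp only [mul_one]
  calc (s1 * s2) * (r1 * r2) = s1 * ((s2 * r1) * r2) := by simp only [mul_assoc]
    _ = (s1 * r1) * (s2 * (z2 * r2)) := by rw [e2]; simp only [mul_assoc]
    _ = r1 * (s1 * ((s2 * r2) * z2)) := by rw [h11.eq, hz2r2.eq]; simp only [mul_assoc]
    _ = r1 * ((s1 * r2) * (s2 * z2)) := by rw [h22.eq]; simp only [mul_assoc]
    _ = r1 * (r2 * (s1 * ((z1 * s2) * z2))) := by rw [e1]; simp only [mul_assoc]
    _ = (r1 * r2) * (s1 * s2) * (z1 * z2) := by rw [hz1s2.eq]; simp only [mul_assoc]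

theorem conj2 {G : Type*} [Group G] (g a b : G) :
    g * (a * (b * 1)) * g⁻¹ = (g * a * g⁻¹) * ((g * b * g⁻¹) * 1) := by group

section generic

variable {D : ChevalleyDatum} {F : Type*} [Field F] {η : ℕ → ℕ → ℤ}

/-- The commutator of two orbit elements of two roots whose roots add up, crosswise, to the root `k`. -/
theorem trace_comm2 (R : BRel D F η) {k r1 r2 s1 s2 : ℕ} {c1 c2 : ℤ}
    (h1 : cleanAt D k r2 s1 c1 = true) (h2 : cleanAt D k r1 s2 c2 = true)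
    (e11 : commEmpty D s1 r1 = true) (e22 : commEmpty D s2 r2 = true)
    (k2 : commEmpty D k r2 = true) (k2' : commEmpty D k s2 = true) (t1 t2 u1 u2 : F) :
    wordGL R.xadd [(s1, u1), (s2, u2)] * wordGL R.xadd [(r1, t1), (r2, t2)] =
      wordGL R.xadd [(r1, t1), (r2, t2)] * wordGL R.xadd [(s1, u1), (s2, u2)] *
        xGL R.xadd k (-((c1 : F) * t2 * u1) + -((c2 : F) * t1 * u2)) := by
  simp only [wordGL_cons, wordGL_nil]
  rw [← xGL_mul]
  exact pair_comm_cross (commute_of_commEmpty R e11 u1 t1) (commute_of_commEmpty R e22 u2 t2)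
    (xGL_comm_clean R h1 t2 u1) (xGL_comm_clean R h2 t1 u2)
    (commute_of_commEmpty R k2 _ t2) (commute_of_commEmpty R k2' _ u2)

theorem word2_swap (R : BRel D F η) {a b : ℕ} (h : commEmpty D a b = true) (x y : F) :
    wordGL R.xadd [(a, x), (b, y)] = wordGL R.xadd [(b, y), (a, x)] := by
  simp only [wordGL_cons, wordGL_nil, mul_one]
  exact (commute_of_commEmpty R h x y).eq

theorem mem2_lt {a b : ℕ} (ha : a < D.nroots) (hb : b < D.nroots) (x y : F) :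
    ∀ p ∈ [(a, x), (b, y)], p.1 < D.nroots := by
  intro p hp
  simp only [List.mem_cons, List.not_mem_nil, or_false] at hp
  rcases hp with rfl | rfl
  · exact ha
  · exact hb

end generic

/-! ### Tables for `E₆` -/

section e6

open Cfsg.Agent.Helper18

/-- The word `w_a w_{a'} w_{p₄} w_{p₂}` of `E₆`. -/
def e6L : List ℕ := [0, 5, 2, 4, 3, 1]

theorem e6L_valid : ValidW chevE6 e6L := by unfold ValidW; decide

/-- The images of `(p₁, p₆)` under the powers of `w`, with the signs of the conjugation by the powers of `n_w`. -/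
def e6Orb : List (ℕ × ℕ × ℤ × ℤ) :=
  [(56, 36, 1, 1), (42, 37, 1, 1), (41, 58, 1, 1), (62, 52, -1, 1), (43, 40, -1, 1), (49, 61, 1, -1),
    (35, 15, -1, -1), (34, 29, -1, -1), (13, 30, -1, -1), (19, 9, -1, 1), (31, 28, -1, 1), (10, 22, 1, -1)]

theorem e6Orb_tab : ∀ k < 11,
    (e6Orb.getD k (0, 0, 0, 0)).1 < chevE6.nroots ∧ (e6Orb.getD k (0, 0, 0, 0)).2.1 < chevE6.nroots ∧
    wW chevE6 e6L (e6Orb.getD k (0, 0, 0, 0)).1 = (e6Orb.getD (k + 1) (0, 0, 0, 0)).1 ∧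
    wW chevE6 e6L (e6Orb.getD k (0, 0, 0, 0)).2.1 = (e6Orb.getD (k + 1) (0, 0, 0, 0)).2.1 ∧
    eW chevE6 (etaN chevE6) e6L (e6Orb.getD k (0, 0, 0, 0)).1 * (e6Orb.getD k (0, 0, 0, 0)).2.2.1 =
      (e6Orb.getD (k + 1) (0, 0, 0, 0)).2.2.1 ∧
    eW chevE6 (etaN chevE6) e6L (e6Orb.getD k (0, 0, 0, 0)).2.1 * (e6Orb.getD k (0, 0, 0, 0)).2.2.2 =
      (e6Orb.getD (k + 1) (0, 0, 0, 0)).2.2.2 := by
  decide +kernel

theorem e6_cartan_tab : chevE6.cartan 2 56 = -1 ∧ chevE6.cartan 4 56 = 0 ∧ chevE6.cartan 2 36 = 0 ∧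
    chevE6.cartan 4 36 = -1 ∧ chevE6.cartan 2 10 = 0 ∧ chevE6.cartan 4 10 = 1 ∧ chevE6.cartan 2 22 = 1 ∧
    chevE6.cartan 4 22 = 0 := by
  decide +kernel

theorem e6_w1_tab : wW chevE6 e6L 10 = 56 ∧ wW chevE6 e6L 22 = 36 := by decide +kernel

/-- The commutator formula for `p₄`, `-p₄`, `p₂`, `-p₂`. -/
theorem e6_long_tab :
    (cleanAt chevE6 39 29 43 (-1) = true ∧ cleanAt chevE6 39 34 40 1 = true ∧
      commEmpty chevE6 43 34 = true ∧ commEmpty chevE6 40 29 = true ∧ commEmpty chevE6 39 29 = true ∧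
      commEmpty chevE6 39 40 = true) ∧
    (cleanAt chevE6 32 28 42 (-1) = true ∧ cleanAt chevE6 32 31 37 1 = true ∧
      commEmpty chevE6 42 31 = true ∧ commEmpty chevE6 37 28 = true ∧ commEmpty chevE6 32 28 = true ∧
      commEmpty chevE6 32 37 = true) ∧
    (cleanAt chevE6 46 30 49 1 = true ∧ cleanAt chevE6 46 13 61 (-1) = true ∧
      commEmpty chevE6 49 13 = true ∧ commEmpty chevE6 61 30 = true ∧ commEmpty chevE6 46 30 = true ∧
      commEmpty chevE6 46 61 = true) ∧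
    (cleanAt chevE6 25 22 41 1 = true ∧ cleanAt chevE6 25 10 58 (-1) = true ∧
      commEmpty chevE6 41 10 = true ∧ commEmpty chevE6 58 22 = true ∧ commEmpty chevE6 25 22 = true ∧
      commEmpty chevE6 25 58 = true) := by
  decide +kernel

theorem e6_swap_tab : commEmpty chevE6 35 15 = true ∧ commEmpty chevE6 34 29 = true := by decide +kernel

end e6

/-! ### The two generators of `²E₆` -/

section e6main

open Cfsg.Agent.Helper18

variable {K : Type*} [Field K] (R : BRel chevE6 K (etaN chevE6)) (φ : K →+* K)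

/-- The root element of the orbit `a = {p₁, p₆}`. -/
noncomputable def e6X (t : K) : GL chevE6.Idx K := wordGL R.xadd (sw chevE6 [0, 5] (coef φ eE6 t))

/-- The torus element `h_{a'}(C)`, `a' = {p₃, p₅}`. -/
noncomputable def e6H (C : K) : GL chevE6.Idx K := hOrb R.xadd [2, 4] (coef φ eE6 C)

/-- Its character. -/
noncomputable def e6chi (C : K) (s : ℕ) : K := C ^ chevE6.cartan 2 s * (φ C) ^ chevE6.cartan 4 s

/-- The conjugate of `x_a(t)` by the `k`-th power of `n_w`. -/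
noncomputable def e6ZG (k : ℕ) (t : K) : GL chevE6.Idx K :=
  wordGL R.xadd [((e6Orb.getD k (0, 0, 0, 0)).1, ((e6Orb.getD k (0, 0, 0, 0)).2.2.1 : K) * t),
    ((e6Orb.getD k (0, 0, 0, 0)).2.1, ((e6Orb.getD k (0, 0, 0, 0)).2.2.2 : K) * φ t)]

theorem e6X_eq (t : K) : e6X R φ t = wordGL R.xadd [(56, t), (36, φ t)] := by
  rw [e6X, sw_E6_05]; rfl

theorem e6X_add (s t : K) : e6X R φ (s + t) = e6X R φ s * e6X R φ t := by
  have hOK : orbOK chevE6 [0, 5] = true := orbOK_E6 _ (by simp [orbsE6])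
  rw [e6X, e6X, e6X, sw_add R.xadd (orbComm_of_OK R hOK) (orbOK_spec hOK).1]
  exact sw_congr R.xadd _ fun i _ => coef_add φ eE6 s t i

theorem e6H_mem_diag {C : K} (hC : C ≠ 0) : e6H R φ C ∈ chevE6.diagonalSubgroup K :=
  hOrb_mem_diag R.toNRel (by decide) fun i _ => coef_ne_zero φ eE6 hC i

theorem e6H_conj {C : K} (hC : C ≠ 0) {s : ℕ} (hs : s < chevE6.nroots) (t : K) :
    e6H R φ C * xGL R.xadd s t * (e6H R φ C)⁻¹ = xGL R.xadd s (e6chi φ C s * t) := by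
  have hT := torusFacts_of_mem hD_E6
  have hsO := simpleOK_of_mem hD_E6
  have hH := hDiag_of_mem (F := K) hD_E6
  rw [e6H, hOrb_conj_x hT hsO hH R.xadd (by decide) (fun i _ => coef_ne_zero φ eE6 hC i) hs]
  congr 1
  simp only [List.map_cons, List.map_nil, List.prod_cons, List.prod_nil, e6chi]
  have c2 : coef φ eE6 C 2 = C := rfl
  have c4 : coef φ eE6 C 4 = φ C := rfl
  rw [c2, c4]
  ring

theorem e6chi_vals (C : K) :
    e6chi φ C 56 = C⁻¹ ∧ e6chi φ C 36 = (φ C)⁻¹ ∧ e6chi φ C 10 = φ C ∧ e6chi φ C 22 = C := by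
  obtain ⟨a1, a2, a3, a4, a5, a6, a7, a8⟩ := e6_cartan_tab
  unfold e6chi
  rw [a1, a2, a3, a4, a5, a6, a7, a8]
  simp only [zpow_zero, zpow_one, zpow_neg_one, mul_one, one_mul, and_self]

/-- `h x_a(t) h⁻¹ = x_a(C⁻¹ t)`. -/
theorem e6X_conjH {C : K} (hC : C ≠ 0) (t : K) :
    e6H R φ C * e6X R φ t * (e6H R φ C)⁻¹ = e6X R φ (C⁻¹ * t) := by
  obtain ⟨v1, v2, -, -⟩ := e6chi_vals φ C
  have a := e6H_conj R φ hC (by decide : 56 < chevE6.nroots) t
  have b := e6H_conj R φ hC (by decide : 36 < chevE6.nroots) (φ t)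
  rw [v1] at a
  rw [v2] at b
  have e36 : φ (C⁻¹ * t) = (φ C)⁻¹ * φ t := by simp only [map_mul, map_inv₀]
  rw [e6X_eq, e6X_eq]
  simp only [wordGL_cons, wordGL_nil]
  rw [conj2, a, b, e36]

/-- The conjugate `n h n⁻¹` acts on `x_s` through the character at `w⁻¹ s`. -/
theorem e6H'_conj {C : K} (hC : C ≠ 0) {s s' : ℕ} (hs' : s' < chevE6.nroots)
    (hw : wW chevE6 e6L s' = s) (t : K) :
    (R.nW e6L * e6H R φ C * (R.nW e6L)⁻¹) * xGL R.xadd s t * (R.nW e6L * e6H R φ C * (R.nW e6L)⁻¹)⁻¹ =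
      xGL R.xadd s (e6chi φ C s' * t) := by
  have hee := R.eW_mul_self (F := K) e6L_valid hs'
  have e1 := R.nW_conj_x e6L_valid hs' ((eW chevE6 (etaN chevE6) e6L s' : K) * t)
  rw [← mul_assoc, hee, one_mul, hw] at e1
  have e2 : (R.nW e6L * e6H R φ C * (R.nW e6L)⁻¹) * xGL R.xadd s t *
      (R.nW e6L * e6H R φ C * (R.nW e6L)⁻¹)⁻¹ =
      R.nW e6L * (e6H R φ C * xGL R.xadd s' ((eW chevE6 (etaN chevE6) e6L s' : K) * t) *
        (e6H R φ C)⁻¹) * (R.nW e6L)⁻¹ := by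
    rw [← e1]; group
  rw [e2, e6H_conj R φ hC hs', R.nW_conj_x e6L_valid hs', hw]
  congr 1
  linear_combination (e6chi φ C s' * t) * hee

/-- `(n h n⁻¹) x_a(t) (n h n⁻¹)⁻¹ = x_a(φ(C) t)`. -/
theorem e6X_conjH' {C : K} (hC : C ≠ 0) (h2 : ∀ t, φ (φ t) = t) (t : K) :
    (R.nW e6L * e6H R φ C * (R.nW e6L)⁻¹) * e6X R φ t * (R.nW e6L * e6H R φ C * (R.nW e6L)⁻¹)⁻¹ =
      e6X R φ (φ C * t) := by
  obtain ⟨-, -, v10, v22⟩ := e6chi_vals φ C
  obtain ⟨w10, w22⟩ := e6_w1_tab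
  have a := e6H'_conj R φ hC (by decide : 10 < chevE6.nroots) w10 t
  have b := e6H'_conj R φ hC (by decide : 22 < chevE6.nroots) w22 (φ t)
  rw [v10] at a
  rw [v22] at b
  have e36 : φ (φ C * t) = C * φ t := by simp only [map_mul, h2]
  rw [e6X_eq, e6X_eq]
  simp only [wordGL_cons, wordGL_nil]
  rw [conj2, a, b, e36]

theorem e6ZG_zero (t : K) : e6ZG R φ 0 t = e6X R φ t := by
  rw [e6X_eq]
  show wordGL R.xadd [(56, ((1 : ℤ) : K) * t), (36, ((1 : ℤ) : K) * φ t)] = _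
  simp only [Int.cast_one, one_mul]

theorem e6ZG_step {k : ℕ} (hk : k < 11) (t : K) :
    R.nW e6L * e6ZG R φ k t * (R.nW e6L)⁻¹ = e6ZG R φ (k + 1) t := by
  obtain ⟨h1, h2, w1, w2, s1, s2⟩ := e6Orb_tab k hk
  unfold e6ZG
  rw [nW_conj_wordGL R.toNRel e6L_valid _ (mem2_lt h1 h2 _ _)]
  simp only [List.map_cons, List.map_nil, w1, w2]
  rw [← s1, ← s2]
  push_cast
  simp only [mul_assoc]

theorem e6ZG_1 (t : K) : e6ZG R φ 1 t = wordGL R.xadd [(42, t), (37, φ t)] := by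
  show wordGL R.xadd [(42, ((1 : ℤ) : K) * t), (37, ((1 : ℤ) : K) * φ t)] = _
  simp only [Int.cast_one, one_mul]

theorem e6ZG_2 (t : K) : e6ZG R φ 2 t = wordGL R.xadd [(41, t), (58, φ t)] := by
  show wordGL R.xadd [(41, ((1 : ℤ) : K) * t), (58, ((1 : ℤ) : K) * φ t)] = _
  simp only [Int.cast_one, one_mul]

theorem e6ZG_4 (t : K) : e6ZG R φ 4 t = wordGL R.xadd [(43, -t), (40, φ t)] := by
  show wordGL R.xadd [(43, ((-1 : ℤ) : K) * t), (40, ((1 : ℤ) : K) * φ t)] = _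
  simp only [Int.cast_neg, Int.cast_one, neg_mul, one_mul]

theorem e6ZG_5 (t : K) : e6ZG R φ 5 t = wordGL R.xadd [(49, t), (61, -φ t)] := by
  show wordGL R.xadd [(49, ((1 : ℤ) : K) * t), (61, ((-1 : ℤ) : K) * φ t)] = _
  simp only [Int.cast_neg, Int.cast_one, neg_mul, one_mul]

theorem e6ZG_6 (t : K) : e6ZG R φ 6 t = wordGL R.xadd [(35, -t), (15, -φ t)] := by
  show wordGL R.xadd [(35, ((-1 : ℤ) : K) * t), (15, ((-1 : ℤ) : K) * φ t)] = _
  simp only [Int.cast_neg, Int.cast_one, neg_mul, one_mul]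

theorem e6ZG_7 (t : K) : e6ZG R φ 7 t = wordGL R.xadd [(34, -t), (29, -φ t)] := by
  show wordGL R.xadd [(34, ((-1 : ℤ) : K) * t), (29, ((-1 : ℤ) : K) * φ t)] = _
  simp only [Int.cast_neg, Int.cast_one, neg_mul, one_mul]

theorem e6ZG_8 (t : K) : e6ZG R φ 8 t = wordGL R.xadd [(13, -t), (30, -φ t)] := by
  show wordGL R.xadd [(13, ((-1 : ℤ) : K) * t), (30, ((-1 : ℤ) : K) * φ t)] = _
  simp only [Int.cast_neg, Int.cast_one, neg_mul, one_mul]

theorem e6ZG_10 (t : K) : e6ZG R φ 10 t = wordGL R.xadd [(31, -t), (28, φ t)] := by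
  show wordGL R.xadd [(31, ((-1 : ℤ) : K) * t), (28, ((1 : ℤ) : K) * φ t)] = _
  simp only [Int.cast_neg, Int.cast_one, neg_mul, one_mul]

theorem e6ZG_11 (t : K) : e6ZG R φ 11 t = wordGL R.xadd [(10, t), (22, -φ t)] := by
  show wordGL R.xadd [(10, ((1 : ℤ) : K) * t), (22, ((-1 : ℤ) : K) * φ t)] = _
  simp only [Int.cast_neg, Int.cast_one, neg_mul, one_mul]

/-- `x_{p₄}(t + φ t)` as a commutator. -/
theorem e6_trace_b1 (t : K) :
    e6ZG R φ 4 1 * e6ZG R φ 7 t = e6ZG R φ 7 t * e6ZG R φ 4 1 * xGL R.xadd 39 (t + φ t) := by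
  obtain ⟨⟨c1, c2, e11, e22, k2, k2'⟩, -, -, -⟩ := e6_long_tab
  rw [e6ZG_4, e6ZG_7, trace_comm2 R c1 c2 e11 e22 k2 k2']
  congr 2
  simp only [map_one]
  push_cast
  ring

/-- `x_{-p₄}(t + φ t)` as a commutator. -/
theorem e6_trace_b1' (t : K) :
    e6ZG R φ 1 1 * e6ZG R φ 10 t = e6ZG R φ 10 t * e6ZG R φ 1 1 * xGL R.xadd 32 (t + φ t) := by
  obtain ⟨-, ⟨c1, c2, e11, e22, k2, k2'⟩, -, -⟩ := e6_long_tab
  rw [e6ZG_1, e6ZG_10, trace_comm2 R c1 c2 e11 e22 k2 k2']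
  congr 2
  simp only [map_one]
  push_cast
  ring

/-- `x_{p₂}(t + φ t)` as a commutator. -/
theorem e6_trace_b2 (t : K) :
    e6ZG R φ 5 1 * e6ZG R φ 8 t = e6ZG R φ 8 t * e6ZG R φ 5 1 * xGL R.xadd 46 (t + φ t) := by
  obtain ⟨-, -, ⟨c1, c2, e11, e22, k2, k2'⟩, -⟩ := e6_long_tab
  rw [e6ZG_5, e6ZG_8, trace_comm2 R c1 c2 e11 e22 k2 k2']
  congr 2
  simp only [map_one]
  push_cast
  ring

/-- `x_{-p₂}(t + φ t)` as a commutator. -/
theorem e6_trace_b2' (t : K) :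
    e6ZG R φ 2 1 * e6ZG R φ 11 t = e6ZG R φ 11 t * e6ZG R φ 2 1 * xGL R.xadd 25 (t + φ t) := by
  obtain ⟨-, -, -, ⟨c1, c2, e11, e22, k2, k2'⟩⟩ := e6_long_tab
  rw [e6ZG_2, e6ZG_11, trace_comm2 R c1 c2 e11 e22 k2 k2']
  congr 2
  simp only [map_one]
  push_cast
  ring

/-- A subgroup containing the `x_a(t)` and `n_w` contains `²E₆`. -/
theorem e6_gens_le (S : Subgroup (GL chevE6.Idx K)) (hXS : ∀ t, e6X R φ t ∈ S) (hnS : R.nW e6L ∈ S)
    (h2 : ∀ t, φ (φ t) = t) (htr : ∀ s : K, φ s = s → ∃ t : K, t + φ t = s) :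
    twGroup R.xadd φ eE6 orbsE6 ≤ S := by
  have hZ : ∀ k, k ≤ 11 → ∀ t, e6ZG R φ k t ∈ S := by
    intro k
    induction k with
    | zero => intro _ t; rw [e6ZG_zero]; exact hXS t
    | succ k ih =>
      intro hk t
      rw [← e6ZG_step R φ (by omega : k < 11) t]
      exact mul_mem (mul_mem hnS (ih (by omega) t)) (inv_mem hnS)
  have key : ∀ (i j k : ℕ), i ≤ 11 → j ≤ 11 →
      (∀ t, e6ZG R φ i 1 * e6ZG R φ j t = e6ZG R φ j t * e6ZG R φ i 1 * xGL R.xadd k (t + φ t)) →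
      ∀ s, φ s = s → xGL R.xadd k s ∈ S := by
    intro i j k hi hj hcomm s hs
    obtain ⟨t, rfl⟩ := htr s hs
    have e' : xGL R.xadd k (t + φ t) = (e6ZG R φ j t * e6ZG R φ i 1)⁻¹ * (e6ZG R φ i 1 * e6ZG R φ j t) := by
      rw [hcomm t]; group
    rw [e']
    exact mul_mem (inv_mem (mul_mem (hZ j hj t) (hZ i hi 1))) (mul_mem (hZ i hi 1) (hZ j hj t))
  have hb1 := key 4 7 39 (by omega) (by omega) (e6_trace_b1 R φ)
  have hb1' := key 1 10 32 (by omega) (by omega) (e6_trace_b1' R φ)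
  have hb2 := key 5 8 46 (by omega) (by omega) (e6_trace_b2 R φ)
  have hb2' := key 2 11 25 (by omega) (by omega) (e6_trace_b2' R φ)
  obtain ⟨sw1, sw2⟩ := e6_swap_tab
  unfold twGroup
  rw [Subgroup.closure_le]
  rintro g ⟨o, ho, t, ht, hg⟩
  simp only [orbsE6, List.mem_cons, List.not_mem_nil, or_false] at ho
  rcases ho with rfl | rfl | rfl | rfl
  · have htf : φ t = t := ht rfl
    rcases hg with rfl | rfl
    · rw [sw_E6_1, wordGL_cons, wordGL_nil, mul_one]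
      exact hb2 t htf
    · rw [swN_E6_1, wordGL_cons, wordGL_nil, mul_one]
      exact hb2' t htf
  · have htf : φ t = t := ht rfl
    rcases hg with rfl | rfl
    · rw [sw_E6_3, wordGL_cons, wordGL_nil, mul_one]
      exact hb1 t htf
    · rw [swN_E6_3, wordGL_cons, wordGL_nil, mul_one]
      exact hb1' t htf
  · rcases hg with rfl | rfl
    · exact hXS t
    · have e : wordGL R.xadd (swN chevE6 [0, 5] (coef φ eE6 t)) = e6ZG R φ 6 (-φ t) := by
        rw [swN_E6_05, e6ZG_6, word2_swap R sw1, map_neg, h2, neg_neg, neg_neg]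
        rfl
      rw [SetLike.mem_coe, e]
      exact hZ 6 (by omega) _
  · rcases hg with rfl | rfl
    · have e : wordGL R.xadd (sw chevE6 [2, 4] (coef φ eE6 t)) = e6ZG R φ 1 t := by
        rw [sw_E6_24, e6ZG_1]
        rfl
      rw [SetLike.mem_coe, e]
      exact hZ 1 (by omega) _
    · have e : wordGL R.xadd (swN chevE6 [2, 4] (coef φ eE6 t)) = e6ZG R φ 7 (-φ t) := by
        rw [swN_E6_24, e6ZG_7, word2_swap R sw2, map_neg, h2, neg_neg, neg_neg]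
        rfl
      rw [SetLike.mem_coe, e]
      exact hZ 7 (by omega) _

/-- `²E₆` is generated by two elements. -/
theorem e6_two_gen (h2 : ∀ t, φ (φ t) = t) {C : K} (hC : C ≠ 0) (hC1 : C ≠ 1)
    (hgen : ∀ t : K, t ≠ 0 → ∃ i : ℕ, t = C⁻¹ ^ i)
    (htr : ∀ s : K, φ s = s → ∃ t : K, t + φ t = s) :
    ∃ a b : ↥(twGroup R.xadd φ eE6 orbsE6),
      Subgroup.closure ({a, b} : Set ↥(twGroup R.xadd φ eE6 orbsE6)) = ⊤ := by
  have hOK : ∀ o ∈ orbsE6, orbOK chevE6 o = true := orbOK_E6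
  have hm05 : [0, 5] ∈ orbsE6 := by simp [orbsE6]
  have hm24 : [2, 4] ∈ orbsE6 := by simp [orbsE6]
  have hm3 : [3] ∈ orbsE6 := by simp [orbsE6]
  have hm1 : [1] ∈ orbsE6 := by simp [orbsE6]
  have hhG : e6H R φ C ∈ twGroup R.xadd φ eE6 orbsE6 :=
    hOrb_mem R hm24 (hOK _ hm24) (fun h => absurd h (by decide))
  have hnG : R.nW e6L ∈ twGroup R.xadd φ eE6 orbsE6 := by
    have : e6L = [0, 5] ++ ([2, 4] ++ ([3] ++ [1])) := rfl
    rw [this, R.nW_append, R.nW_append, R.nW_append]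
    exact mul_mem (nW_orb_mem R hm05 (hOK _ hm05)) (mul_mem (nW_orb_mem R hm24 (hOK _ hm24))
      (mul_mem (nW_orb_mem R hm3 (hOK _ hm3)) (nW_orb_mem R hm1 (hOK _ hm1))))
  have hXG : ∀ t, e6X R φ t ∈ twGroup R.xadd φ eE6 orbsE6 := fun t =>
    sw_mem_twGroup R.xadd hm05 (fun h => absurd h (by decide))
  have hv1 : C⁻¹ ≠ 1 := fun h => hC1 (inv_eq_one.mp h)
  have hv' : φ C ≠ 1 := by
    intro h
    apply hC1
    apply φ.injective
    rw [h, map_one]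
  obtain ⟨hXS, hnS⟩ := two_gen_core (e6X R φ) (e6H R φ C) (R.nW e6L) C⁻¹ (φ C)
    (e6X_add R φ) (e6X_conjH R φ hC) (e6X_conjH' R φ hC h2)
    (diag_commute hD_E6 (e6H_mem_diag R φ hC) (R.nW_conj_H e6L_valid _ (e6H_mem_diag R φ hC)))
    (by
      intro t ht
      have hne : (C⁻¹ - 1) * (1 - φ C) ≠ 0 :=
        mul_ne_zero (sub_ne_zero.mpr hv1) (sub_ne_zero.mpr (Ne.symm hv'))
      obtain ⟨i, hi⟩ := hgen (t / ((C⁻¹ - 1) * (1 - φ C))) (div_ne_zero ht hne)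
      exact ⟨i, by rw [← hi, div_mul_cancel₀ _ hne]⟩)
  exact ⟨⟨e6H R φ C, hhG⟩, ⟨e6X R φ 1 * R.nW e6L, mul_mem (hXG 1) hnG⟩,
    closure_pair_subtype_top _ _ _ hhG (mul_mem (hXG 1) hnG) (e6_gens_le R φ _ hXS hnS h2 htr)⟩

end e6main

end Cfsg.Agent.Helper17
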