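/-
helper17: the group-theoretic core of the two-generation of the large Ree groups.

`tf_two_gen_core`: in characteristic 2 let `P` be a one-parameter group and `B` a group of Suzuki type
(`B t u * B t' u' = B (t + t') (u + u' + θ t * t')`) commuting with `P`, let `h` act on `P` through `v = g + 1`
and on `B` through `(g, ω)`, and let `n h n⁻¹` commute with `h` and act on `P`, `B` through scalars.  If the
additive subgroups of the field stable under `g` (resp. `ω`) are trivial or everything, then `h` and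
`P 1 * B 1 0 * n` generate a subgroup containing `P`, `B` and `n`.  The two parameters are separated by the
absolute trace: `Tr (g + 1) = Tr g + 1` in a field of odd degree over the prime field.
-/
import Mathlib

set_option autoImplicit false

namespace Cfsg.Agent.Helper17

theorem tf_trace_idem {K : Type*} [Field K] [CharP K 2] (g : K) (N : ℕ) (hfrob : g ^ 2 ^ N = g) :
    (∑ j ∈ Finset.range N, g ^ 2 ^ j) = 0 ∨ (∑ j ∈ Finset.range N, g ^ 2 ^ j) = 1 := by
  haveI : Fact (Nat.Prime 2) := ⟨Nat.prime_two⟩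
  have h1 : (∑ j ∈ Finset.range N, g ^ 2 ^ j) ^ 2 = ∑ j ∈ Finset.range N, g ^ 2 ^ (j + 1) := by
    rw [sum_pow_char]
    refine Finset.sum_congr rfl fun j _ => ?_
    rw [← pow_mul, ← pow_succ]
  have h2 : (∑ j ∈ Finset.range N, g ^ 2 ^ (j + 1)) + g ^ 2 ^ 0 =
      (∑ j ∈ Finset.range N, g ^ 2 ^ j) + g ^ 2 ^ N := by
    rw [← Finset.sum_range_succ' (fun j => g ^ 2 ^ j) N, Finset.sum_range_succ]
  rw [hfrob, pow_zero, pow_one] at h2
  have h3 : (∑ j ∈ Finset.range N, g ^ 2 ^ (j + 1)) = ∑ j ∈ Finset.range N, g ^ 2 ^ j :=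
    add_right_cancel h2
  rw [h3] at h1
  have h4 : (∑ j ∈ Finset.range N, g ^ 2 ^ j) * ((∑ j ∈ Finset.range N, g ^ 2 ^ j) - 1) = 0 := by
    linear_combination h1
  rcases mul_eq_zero.mp h4 with h5 | h5
  · exact Or.inl h5
  · exact Or.inr (sub_eq_zero.mp h5)

theorem tf_trace_add_one {K : Type*} [Field K] [CharP K 2] (g : K) (N : ℕ) (hN : Odd N) :
    (∑ j ∈ Finset.range N, (g + 1) ^ 2 ^ j) = (∑ j ∈ Finset.range N, g ^ 2 ^ j) + 1 := by
  haveI : Fact (Nat.Prime 2) := ⟨Nat.prime_two⟩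
  have h1 : ∀ j : ℕ, (g + 1) ^ 2 ^ j = g ^ 2 ^ j + 1 := by
    intro j
    rw [add_pow_char_pow, one_pow]
  simp only [h1]
  rw [Finset.sum_add_distrib, Finset.sum_const, Finset.card_range, nsmul_one]
  obtain ⟨k, rfl⟩ := hN
  congr 1
  push_cast
  linear_combination (k : K) * (CharTwo.two_eq_zero : (2 : K) = 0)

theorem tf_two_gen_core {G : Type*} [Group G] {K : Type*} [Field K] [CharP K 2]
    (P : K → G) (B : K → K → G) (θ : K →+* K) (h n : G) (v g ω v' g' ω' : K) (N : ℕ)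
    (hP : ∀ s t, P (s + t) = P s * P t)
    (hB : ∀ t u t' u', B t u * B t' u' = B (t + t') (u + u' + θ t * t'))
    (hPB : ∀ s t u, Commute (P s) (B t u))
    (hhP : ∀ t, h * P t * h⁻¹ = P (v * t))
    (hhB : ∀ t u, h * B t u * h⁻¹ = B (g * t) (ω * u))
    (hh'P : ∀ t, (n * h * n⁻¹) * P t * (n * h * n⁻¹)⁻¹ = P (v' * t))
    (hh'B : ∀ t u, (n * h * n⁻¹) * B t u * (n * h * n⁻¹)⁻¹ = B (g' * t) (ω' * u))
    (hcomm : Commute h (n * h * n⁻¹))
    (hv : v = g + 1) (hα : (v + 1) * (v' + 1) ≠ 0) (hβ : (g + 1) * (g' + 1) ≠ 0)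
    (hN : Odd N) (hfrob : ∀ x : K, x ^ 2 ^ N = x)
    (hgen : ∀ M : AddSubgroup K, (∀ x ∈ M, g * x ∈ M) → (∃ c ∈ M, c ≠ 0) → M = ⊤)
    (hgenω : ∀ M : AddSubgroup K, (∀ x ∈ M, ω * x ∈ M) → (∃ c ∈ M, c ≠ 0) → M = ⊤) :
    (∀ t, P t ∈ Subgroup.closure ({h, P 1 * B 1 0 * n} : Set G)) ∧
    (∀ t u, B t u ∈ Subgroup.closure ({h, P 1 * B 1 0 * n} : Set G)) ∧
    n ∈ Subgroup.closure ({h, P 1 * B 1 0 * n} : Set G) := by
  obtain ⟨S, hS⟩ : ∃ S : Subgroup G, S = Subgroup.closure ({h, P 1 * B 1 0 * n} : Set G) := ⟨_, rfl⟩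
  rw [← hS]
  have hhS : h ∈ S := by rw [hS]; exact Subgroup.subset_closure (by simp)
  have hxS : P 1 * B 1 0 * n ∈ S := by rw [hS]; exact Subgroup.subset_closure (by simp)
  obtain ⟨h', hh'⟩ : ∃ h' : G, h' = n * h * n⁻¹ := ⟨_, rfl⟩
  rw [← hh'] at hh'P hh'B hcomm
  have two : (2 : K) = 0 := CharTwo.two_eq_zero
  have P0 : P 0 = 1 := by
    have := hP 0 0
    rw [add_zero] at this
    exact left_eq_mul.mp this
  have B0 : B 0 0 = 1 := by
    have := hB 0 0 0 0
    simp only [add_zero, map_zero, zero_mul] at this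
    exact left_eq_mul.mp this.symm
  have Pinv : ∀ t, (P t)⁻¹ = P t := by
    intro t
    apply inv_eq_of_mul_eq_one_right
    rw [← hP, CharTwo.add_self_eq_zero, P0]
  have Binv : ∀ t u, (B t u)⁻¹ = B t (u + θ t * t) := by
    intro t u
    apply inv_eq_of_mul_eq_one_right
    rw [hB, CharTwo.add_self_eq_zero]
    have e : u + (u + θ t * t) + θ t * t = 0 := by
      linear_combination (u + θ t * t) * two
    rw [e, B0]
  -- the rules for the products `P a * B b c`
  have PBmul : ∀ a b c a' b' c', (P a * B b c) * (P a' * B b' c') =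
      P (a + a') * B (b + b') (c + c' + θ b * b') := by
    intro a b c a' b' c'
    rw [hP, ← hB]
    calc P a * B b c * (P a' * B b' c') = P a * (B b c * P a') * B b' c' := by
          simp only [mul_assoc]
      _ = P a * (P a' * B b c) * B b' c' := by rw [(hPB a' b c).eq]
      _ = _ := by simp only [mul_assoc]
  have PBinv : ∀ a b c, (P a * B b c)⁻¹ = P a * B b (c + θ b * b) := by
    intro a b c
    rw [mul_inv_rev, Pinv, Binv, (hPB a b _).eq]
  have conj_mul : ∀ k a b : G, k * (a * b) * k⁻¹ = (k * a * k⁻¹) * (k * b * k⁻¹) := by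
    intros; group
  have PBh : ∀ a b c, h * (P a * B b c) * h⁻¹ = P (v * a) * B (g * b) (ω * c) := by
    intro a b c
    rw [conj_mul, hhP, hhB]
  have PBh' : ∀ a b c, h' * (P a * B b c) * h'⁻¹ = P (v' * a) * B (g' * b) (ω' * c) := by
    intro a b c
    rw [conj_mul, hh'P, hh'B]
  -- the element `[h, x h x⁻¹]`
  have hyS : (P 1 * B 1 0) * h' * (P 1 * B 1 0)⁻¹ ∈ S := by
    have e : (P 1 * B 1 0) * h' * (P 1 * B 1 0)⁻¹ =
        (P 1 * B 1 0 * n) * h * (P 1 * B 1 0 * n)⁻¹ := by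
      rw [hh']; group
    rw [e]
    exact mul_mem (mul_mem hxS hhS) (inv_mem hxS)
  have hzS : h * ((P 1 * B 1 0) * h' * (P 1 * B 1 0)⁻¹) * h⁻¹ *
      ((P 1 * B 1 0) * h' * (P 1 * B 1 0)⁻¹)⁻¹ ∈ S :=
    mul_mem (mul_mem (mul_mem hhS hyS) (inv_mem hhS)) (inv_mem hyS)
  obtain ⟨γ, hcS⟩ : ∃ γ : K, P ((v + 1) * (v' + 1)) * B ((g + 1) * (g' + 1)) γ ∈ S := by
    have key : ∀ A Bt C : K, P A * B Bt C ∈ S → A = (v + 1) * (v' + 1) → Bt = (g + 1) * (g' + 1) →
        ∃ γ : K, P ((v + 1) * (v' + 1)) * B ((g + 1) * (g' + 1)) γ ∈ S := by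
      rintro A Bt C hm rfl rfl
      exact ⟨C, hm⟩
    have e1 : ∀ u : G, h * (u * h' * u⁻¹) * h⁻¹ * (u * h' * u⁻¹)⁻¹ =
        (h * u * h⁻¹) * (h * h' * h⁻¹) * (h * u * h⁻¹)⁻¹ * u * h'⁻¹ * u⁻¹ := by
      intro u; group
    have e2 : h * h' * h⁻¹ = h' := by rw [hcomm.eq]; group
    have e3 : ∀ u a : G, a * h' * a⁻¹ * u * h'⁻¹ * u⁻¹ =
        a * (h' * a * h'⁻¹)⁻¹ * (h' * u * h'⁻¹) * u⁻¹ := by
      intro u a; group
    rw [e1, e2, e3, PBh, PBh', PBh', PBinv, PBinv, PBmul, PBmul, PBmul] at hzS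
    refine key _ _ _ hzS ?_ ?_
    · ring
    · ring
  -- the additive group of the pairs `(a, b)` with `P a * B b c` in `S` for some `c`
  let M : AddSubgroup (K × K) :=
    { carrier := {p | ∃ c : K, P p.1 * B p.2 c ∈ S}
      zero_mem' := ⟨0, by
        show P 0 * B 0 0 ∈ S
        rw [P0, B0, one_mul]; exact one_mem _⟩
      add_mem' := by
        rintro ⟨a, b⟩ ⟨a', b'⟩ ⟨c, hc⟩ ⟨c', hc'⟩
        refine ⟨c + c' + θ b * b', ?_⟩
        have := mul_mem hc hc'
        rw [PBmul] at this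
        exact this
      neg_mem' := by
        rintro ⟨a, b⟩ ⟨c, hc⟩
        refine ⟨c, ?_⟩
        show P (-a) * B (-b) c ∈ S
        rw [CharTwo.neg_eq, CharTwo.neg_eq]
        exact hc }
  have hMmem : ∀ a b : K, (a, b) ∈ M ↔ ∃ c : K, P a * B b c ∈ S := fun a b => Iff.rfl
  have hT : ∀ a b : K, (a, b) ∈ M → (v * a, g * b) ∈ M := by
    intro a b hab
    obtain ⟨c, hc⟩ := (hMmem a b).mp hab
    refine (hMmem _ _).mpr ⟨ω * c, ?_⟩
    rw [← PBh]
    exact mul_mem (mul_mem hhS hc) (inv_mem hhS)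
  have hTi : ∀ i : ℕ, ∀ a b : K, (a, b) ∈ M → (v ^ i * a, g ^ i * b) ∈ M := by
    intro i
    induction i with
    | zero => intro a b hab; simpa using hab
    | succ i ih =>
      intro a b hab
      have := hT _ _ (ih a b hab)
      rw [← mul_assoc, ← mul_assoc, ← pow_succ', ← pow_succ'] at this
      exact this
  -- splitting by the trace
  have hsplit : ∀ a b : K, (a, b) ∈ M → (a, (0 : K)) ∈ M ∧ ((0 : K), b) ∈ M := by
    intro a b hab
    have hsum : (∑ j ∈ Finset.range N, (v ^ 2 ^ j * a, g ^ 2 ^ j * b)) ∈ M :=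
      sum_mem fun j _ => hTi (2 ^ j) a b hab
    have e : (∑ j ∈ Finset.range N, (v ^ 2 ^ j * a, g ^ 2 ^ j * b)) =
        ((∑ j ∈ Finset.range N, v ^ 2 ^ j) * a, (∑ j ∈ Finset.range N, g ^ 2 ^ j) * b) := by
      apply Prod.ext
      · simp only [Prod.fst_sum, Finset.sum_mul]
      · simp only [Prod.snd_sum, Finset.sum_mul]
    rw [e, hv, tf_trace_add_one g N hN] at hsum
    rcases tf_trace_idem g N (hfrob g) with h0 | h1
    · rw [h0, zero_add, one_mul, zero_mul] at hsum
      refine ⟨hsum, ?_⟩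
      have := sub_mem hab hsum
      simpa using this
    · rw [h1, one_mul] at hsum
      have e1 : (1 + 1 : K) * a = 0 := by
        linear_combination a * two
      rw [e1] at hsum
      refine ⟨?_, hsum⟩
      have := sub_mem hab hsum
      simpa using this
  have hαβ : ((v + 1) * (v' + 1), (g + 1) * (g' + 1)) ∈ M := (hMmem _ _).mpr ⟨γ, hcS⟩
  -- the first coordinates
  have hM1 : ∀ a : K, (a, (0 : K)) ∈ M := by
    let M1 : AddSubgroup K := M.comap (AddMonoidHom.inl K K)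
    have hmem1 : ∀ a : K, a ∈ M1 ↔ (a, (0 : K)) ∈ M := fun a => Iff.rfl
    have h1 : M1 = ⊤ := by
      apply hgen M1
      · intro x hx
        have h2 := hT x 0 ((hmem1 x).mp hx)
        rw [mul_zero] at h2
        have h3 : v * x - x ∈ M1 := sub_mem ((hmem1 _).mpr h2) hx
        have e : v * x - x = g * x := by rw [hv]; ring
        rw [e] at h3
        exact h3
      · exact ⟨_, (hmem1 _).mpr (hsplit _ _ hαβ).1, hα⟩
    intro a
    have : a ∈ M1 := by rw [h1]; exact AddSubgroup.mem_top a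
    exact (hmem1 a).mp this
  have hM2 : ∀ b : K, ((0 : K), b) ∈ M := by
    let M2 : AddSubgroup K := M.comap (AddMonoidHom.inr K K)
    have hmem2 : ∀ b : K, b ∈ M2 ↔ ((0 : K), b) ∈ M := fun b => Iff.rfl
    have h1 : M2 = ⊤ := by
      apply hgen M2
      · intro x hx
        have h2 := hT 0 x ((hmem2 x).mp hx)
        rw [mul_zero] at h2
        exact (hmem2 _).mpr h2
      · exact ⟨_, (hmem2 _).mpr (hsplit _ _ hαβ).2, hβ⟩
    intro b
    have : b ∈ M2 := by rw [h1]; exact AddSubgroup.mem_top b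
    exact (hmem2 b).mp this
  -- the centre of `B`
  have hZ : ∀ c : K, B 0 c ∈ S := by
    let Z : AddSubgroup K :=
      { carrier := {c | B 0 c ∈ S}
        zero_mem' := by
          show B 0 0 ∈ S
          rw [B0]; exact one_mem _
        add_mem' := by
          intro c c' hc hc'
          show B 0 (c + c') ∈ S
          have hc1 : B 0 c ∈ S := hc
          have hc2 : B 0 c' ∈ S := hc'
          have := mul_mem hc1 hc2
          rw [hB, add_zero, map_zero, zero_mul, add_zero] at this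
          exact this
        neg_mem' := by
          intro c hc
          show B 0 (-c) ∈ S
          have hc1 : B 0 c ∈ S := hc
          rw [CharTwo.neg_eq]
          exact hc1 }
    have hmemZ : ∀ c : K, c ∈ Z ↔ B 0 c ∈ S := fun c => Iff.rfl
    have h1 : Z = ⊤ := by
      apply hgenω Z
      · intro x hx
        have := mul_mem (mul_mem hhS ((hmemZ x).mp hx)) (inv_mem hhS)
        rw [hhB, mul_zero] at this
        exact (hmemZ _).mpr this
      · refine ⟨1, ?_, one_ne_zero⟩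
        obtain ⟨c, hc⟩ := (hMmem _ _).mp (hM2 1)
        rw [P0, one_mul] at hc
        have := mul_mem hc hc
        rw [hB, CharTwo.add_self_eq_zero, CharTwo.add_self_eq_zero, map_one, mul_one, zero_add] at this
        exact (hmemZ 1).mpr this
    intro c
    have : c ∈ Z := by rw [h1]; exact AddSubgroup.mem_top c
    exact (hmemZ c).mp this
  have hBS : ∀ t u : K, B t u ∈ S := by
    intro t u
    obtain ⟨c, hc⟩ := (hMmem _ _).mp (hM2 t)
    rw [P0, one_mul] at hc
    have := mul_mem hc (hZ (c + u))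
    rw [hB, add_zero, mul_zero, add_zero] at this
    have e : c + (c + u) = u := by linear_combination c * two
    rw [e] at this
    exact this
  have hPS : ∀ t : K, P t ∈ S := by
    intro t
    obtain ⟨c, hc⟩ := (hMmem _ _).mp (hM1 t)
    have := mul_mem hc (inv_mem (hBS 0 c))
    rw [mul_inv_cancel_right] at this
    exact this
  refine ⟨hPS, hBS, ?_⟩
  have e : (P 1 * B 1 0)⁻¹ * (P 1 * B 1 0 * n) = n := by group
  rw [← e]
  exact mul_mem (inv_mem (mul_mem (hPS 1) (hBS 1 0))) hxS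

end Cfsg.Agent.Helper17
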