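/-
helper17: the large Ree groups `²F₄(2^(2m+1))`, `m ≥ 1`, are generated by two elements.

The generators are a torus element `h = h_{p₁}(z^θ) h_{p₄}(z) h_{p₂}(w^θ) h_{p₃}(w)` and
`x = x₋(1) y₊(1, 0) n₀`, where `x₋` is the pair class of `(-p₁, -p₄)`, `y₊` the `B₂`-class of
`(p₂, p₃, p₂ + p₃, 2p₂ + p₃)` (they commute) and `n₀` represents the longest element of the Weyl group.
The parameters `z`, `w` are chosen so that `h` acts on `y₊` through a generator `g` of the multiplicative group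
of the field and on `x₋` through `g + 1`; see `tf_two_gen_core`.
Built on helper36's library for `²F₄` (`Tz1`–`Tz20`) and helper39's `addSubgroup_eq_top_of_mul_stable`.
-/
import Cfsg.Agent.Helper17.TwoGen
import Cfsg.Agent.Helper17.TwoGenF4Core
import Cfsg.Agent.Helper36.Tz20
import Cfsg.Agent.Helper39.ReeAdd

set_option autoImplicit false
set_option maxRecDepth 100000

namespace Cfsg.Agent.Helper17

open Cfsg Cfsg.Lie Cfsg.Agent.Helper36

section tfg

variable {K : Type*} [Field K]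

/-- The action of `h_{r₁}(a) h_{r₂}(z)` on a root element. -/
theorem tfg_h2_conj_x (hX : XAdd chevF4 K) {r1 r2 : ℕ} (h1 : r1 < 48) (h2 : r2 < 48) {a z : K}
    (ha : a ≠ 0) (hz : z ≠ 0) {s : ℕ} (hs : s < 48) (t : K) :
    (hGL hX r1 a * hGL hX r2 z) * xGL hX s t * (hGL hX r1 a * hGL hX r2 z)⁻¹ =
      xGL hX s (a ^ chevF4.pairing r1 s * (z ^ chevF4.pairing r2 s * t)) := by
  have e : (hGL hX r1 a * hGL hX r2 z) * xGL hX s t * (hGL hX r1 a * hGL hX r2 z)⁻¹ =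
      hGL hX r1 a * (hGL hX r2 z * xGL hX s t * (hGL hX r2 z)⁻¹) * (hGL hX r1 a)⁻¹ := by group
  rw [e, f4_hGL_conj_x hX h2 hs hz, f4_hGL_conj_x hX h1 hs ha]

/-- The word of the longest element of the Weyl group of `F₄`, in twisted blocks. -/
def tfgL0 : List ℕ := tfW [true, false, true, false, true, false, true, false]

theorem tfgL0_valid : ValidW chevF4 tfgL0 := by unfold ValidW; decide

theorem tfgL0_act : [14, 23, 27, 25, 28, 30, 33, 24].map (wW chevF4 tfgL0) =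
    [33, 24, 20, 22, 19, 17, 14, 23] := by decide

theorem tfg_pairings :
    ([33, 24, 27, 25, 14, 23, 20, 22].map fun r =>
      [14, 23, 27, 25, 28, 30].map fun s => chevF4.pairing r s) =
    [[-2, 0, -1, 0, -1, -2], [0, -2, 0, -1, -1, -1], [1, 0, 2, -2, 0, 2], [0, 1, -1, 2, 1, 0],
     [2, 0, 1, 0, 1, 2], [0, 2, 0, 1, 1, 1], [-1, 0, -2, 2, 0, -2], [0, -1, 1, -2, -1, 0]] := by
  decide

variable [CharP K 2]

/-- The pair class of `(-p₁, -p₄)` is a one-parameter group. -/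
theorem tfg_P_add (hX : XAdd chevF4 K) (m : ℕ) (a b : K) :
    tfP hX m 14 23 (a + b) = tfP hX m 14 23 a * tfP hX m 14 23 b := by
  unfold tfP
  rw [map_add, ← xGL_mul, ← xGL_mul]
  have hc := ((tfPair_neg hX).comm (tfT K m b) a).eq
  calc xGL hX 14 (tfT K m a) * xGL hX 14 (tfT K m b) * (xGL hX 23 a * xGL hX 23 b)
      = xGL hX 14 (tfT K m a) * (xGL hX 14 (tfT K m b) * xGL hX 23 a) * xGL hX 23 b := by
        simp only [mul_assoc]
    _ = xGL hX 14 (tfT K m a) * (xGL hX 23 a * xGL hX 14 (tfT K m b)) * xGL hX 23 b := by rw [hc]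
    _ = _ := by simp only [mul_assoc]

/-- The pair class of `(-p₁, -p₄)` commutes with the `B₂`-class of `(p₂, p₃)`. -/
theorem tfg_P_B_comm (hX : XAdd chevF4 K) (m : ℕ) (s t u : K) :
    Commute (tfP hX m 14 23 s) (tfB hX m 27 25 28 30 t u) := by
  have R := bRel_of_mem (F := K) f4_mem
  have c1 : ∀ a b : K, Commute (xGL hX 14 a) (xGL hX 27 b) :=
    tz_comm_of_nil hX (R.cf 14 (by decide) 27 (by decide) (by decide) (by decide)) (by decide)
  have c2 : ∀ a b : K, Commute (xGL hX 14 a) (xGL hX 25 b) :=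
    tz_comm_of_nil hX (R.cf 14 (by decide) 25 (by decide) (by decide) (by decide)) (by decide)
  have c3 : ∀ a b : K, Commute (xGL hX 14 a) (xGL hX 28 b) :=
    tz_comm_of_nil hX (R.cf 14 (by decide) 28 (by decide) (by decide) (by decide)) (by decide)
  have c4 : ∀ a b : K, Commute (xGL hX 14 a) (xGL hX 30 b) :=
    tz_comm_of_nil hX (R.cf 14 (by decide) 30 (by decide) (by decide) (by decide)) (by decide)
  have d1 : ∀ a b : K, Commute (xGL hX 23 a) (xGL hX 27 b) :=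
    tz_comm_of_nil hX (R.cf 23 (by decide) 27 (by decide) (by decide) (by decide)) (by decide)
  have d2 : ∀ a b : K, Commute (xGL hX 23 a) (xGL hX 25 b) :=
    tz_comm_of_nil hX (R.cf 23 (by decide) 25 (by decide) (by decide) (by decide)) (by decide)
  have d3 : ∀ a b : K, Commute (xGL hX 23 a) (xGL hX 28 b) :=
    tz_comm_of_nil hX (R.cf 23 (by decide) 28 (by decide) (by decide) (by decide)) (by decide)
  have d4 : ∀ a b : K, Commute (xGL hX 23 a) (xGL hX 30 b) :=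
    tz_comm_of_nil hX (R.cf 23 (by decide) 30 (by decide) (by decide) (by decide)) (by decide)
  unfold tfP tfB
  exact Commute.mul_left
    ((((c1 _ _).mul_right (c2 _ _)).mul_right (c3 _ _)).mul_right (c4 _ _))
    ((((d1 _ _).mul_right (d2 _ _)).mul_right (d3 _ _)).mul_right (d4 _ _))

/-- The action of a torus element `h_{r₁}(z^θ) h_{r₂}(z)` on the pair class of `(-p₁, -p₄)`. -/
theorem tfg_P_conj (hX : XAdd chevF4 K) (m : ℕ) {r1 r2 : ℕ} (h1 : r1 < 48) (h2 : r2 < 48) {z : K}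
    (hz : z ≠ 0) (c : K)
    (e14 : ∀ t : K, tfT K m z ^ chevF4.pairing r1 14 * (z ^ chevF4.pairing r2 14 * tfT K m t) =
      tfT K m (c * t))
    (e23 : ∀ t : K, tfT K m z ^ chevF4.pairing r1 23 * (z ^ chevF4.pairing r2 23 * t) = c * t)
    (t : K) :
    (hGL hX r1 (tfT K m z) * hGL hX r2 z) * tfP hX m 14 23 t *
        (hGL hX r1 (tfT K m z) * hGL hX r2 z)⁻¹ = tfP hX m 14 23 (c * t) := by
  have ha : tfT K m z ≠ 0 := (map_ne_zero _).mpr hz
  unfold tfP
  have e1 : ∀ n a b : GL chevF4.Idx K, n * (a * b) * n⁻¹ = (n * a * n⁻¹) * (n * b * n⁻¹) := by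
    intros; group
  rw [e1, tfg_h2_conj_x hX h1 h2 ha hz (by decide), tfg_h2_conj_x hX h1 h2 ha hz (by decide),
    e14, e23]

/-- The action of a torus element `h_{r₁}(z^θ) h_{r₂}(z)` on the `B₂`-class of `(p₂, p₃)`. -/
theorem tfg_B_conj (hX : XAdd chevF4 K) (m : ℕ) {r1 r2 : ℕ} (h1 : r1 < 48) (h2 : r2 < 48) {z : K}
    (hz : z ≠ 0) (g : K)
    (e27 : ∀ t : K, tfT K m z ^ chevF4.pairing r1 27 * (z ^ chevF4.pairing r2 27 * tfT K m t) =
      tfT K m (g * t))
    (e25 : ∀ t : K, tfT K m z ^ chevF4.pairing r1 25 * (z ^ chevF4.pairing r2 25 * t) = g * t)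
    (e28 : ∀ t : K, tfT K m z ^ chevF4.pairing r1 28 * (z ^ chevF4.pairing r2 28 * t) =
      tfT K m g * g * t)
    (e30 : ∀ u : K, tfT K m z ^ chevF4.pairing r1 30 * (z ^ chevF4.pairing r2 30 * tfL K m u) =
      tfL K m (tfT K m g * g * u))
    (t u : K) :
    (hGL hX r1 (tfT K m z) * hGL hX r2 z) * tfB hX m 27 25 28 30 t u *
        (hGL hX r1 (tfT K m z) * hGL hX r2 z)⁻¹ =
      tfB hX m 27 25 28 30 (g * t) (tfT K m g * g * u) := by
  have ha : tfT K m z ≠ 0 := (map_ne_zero _).mpr hz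
  unfold tfB
  have e1 : ∀ n a b c d : GL chevF4.Idx K,
      n * (a * b * c * d) * n⁻¹ = (n * a * n⁻¹) * (n * b * n⁻¹) * (n * c * n⁻¹) * (n * d * n⁻¹) := by
    intros; group
  rw [e1, tfg_h2_conj_x hX h1 h2 ha hz (by decide), tfg_h2_conj_x hX h1 h2 ha hz (by decide),
    tfg_h2_conj_x hX h1 h2 ha hz (by decide), tfg_h2_conj_x hX h1 h2 ha hz (by decide),
    e27, e25, e28, e30]
  have e : tfT K m g * g * (tfT K m t * t + u) =
      tfT K m (g * t) * (g * t) + tfT K m g * g * u := by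
    rw [map_mul]; ring
  rw [e]

/-- `h_{p₁}(z^θ) h_{p₄}(z)` on the pair class of `(-p₁, -p₄)`. -/
theorem tfg_T1_P (hX : XAdd chevF4 K) (m : ℕ) {z : K} (hz : z ≠ 0) (t : K) :
    (hGL hX 33 (tfT K m z) * hGL hX 24 z) * tfP hX m 14 23 t *
        (hGL hX 33 (tfT K m z) * hGL hX 24 z)⁻¹ = tfP hX m 14 23 ((z ^ 2)⁻¹ * t) := by
  have p1 : chevF4.pairing 33 14 = -2 := by decide
  have p2 : chevF4.pairing 24 14 = 0 := by decide
  have p3 : chevF4.pairing 33 23 = 0 := by decide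
  have p4 : chevF4.pairing 24 23 = -2 := by decide
  refine tfg_P_conj hX m (by decide) (by decide) hz _ ?_ ?_ t
  · intro t
    rw [p1, p2]
    simp only [zpow_neg, zpow_zero, zpow_ofNat, pow_zero, pow_one, one_mul, map_mul, map_inv₀, map_pow]
  · intro t
    rw [p3, p4]
    simp only [zpow_neg, zpow_zero, zpow_ofNat, pow_zero, pow_one, one_mul]

/-- `h_{p₂}(w^θ) h_{p₃}(w)` on the pair class of `(-p₁, -p₄)`. -/
theorem tfg_T2_P (hX : XAdd chevF4 K) (m : ℕ) {w : K} (hw : w ≠ 0) (t : K) :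
    (hGL hX 27 (tfT K m w) * hGL hX 25 w) * tfP hX m 14 23 t *
        (hGL hX 27 (tfT K m w) * hGL hX 25 w)⁻¹ = tfP hX m 14 23 (w * t) := by
  have p1 : chevF4.pairing 27 14 = 1 := by decide
  have p2 : chevF4.pairing 25 14 = 0 := by decide
  have p3 : chevF4.pairing 27 23 = 0 := by decide
  have p4 : chevF4.pairing 25 23 = 1 := by decide
  refine tfg_P_conj hX m (by decide) (by decide) hw _ ?_ ?_ t
  · intro t
    rw [p1, p2]
    simp only [zpow_zero, zpow_one, zpow_ofNat, pow_zero, pow_one, one_mul, map_mul]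
  · intro t
    rw [p3, p4]
    simp only [zpow_zero, zpow_one, zpow_ofNat, pow_zero, pow_one, one_mul]

/-- `h_{-p₁}(z^θ) h_{-p₄}(z)` on the pair class of `(-p₁, -p₄)`. -/
theorem tfg_T1n_P (hX : XAdd chevF4 K) (m : ℕ) {z : K} (hz : z ≠ 0) (t : K) :
    (hGL hX 14 (tfT K m z) * hGL hX 23 z) * tfP hX m 14 23 t *
        (hGL hX 14 (tfT K m z) * hGL hX 23 z)⁻¹ = tfP hX m 14 23 (z ^ 2 * t) := by
  have p1 : chevF4.pairing 14 14 = 2 := by decide
  have p2 : chevF4.pairing 23 14 = 0 := by decide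
  have p3 : chevF4.pairing 14 23 = 0 := by decide
  have p4 : chevF4.pairing 23 23 = 2 := by decide
  refine tfg_P_conj hX m (by decide) (by decide) hz _ ?_ ?_ t
  · intro t
    rw [p1, p2]
    simp only [zpow_zero, zpow_ofNat, pow_zero, pow_one, one_mul, map_mul, map_pow]
  · intro t
    rw [p3, p4]
    simp only [zpow_zero, zpow_ofNat, pow_zero, pow_one, one_mul]

/-- `h_{-p₂}(w^θ) h_{-p₃}(w)` on the pair class of `(-p₁, -p₄)`. -/
theorem tfg_T2n_P (hX : XAdd chevF4 K) (m : ℕ) {w : K} (hw : w ≠ 0) (t : K) :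
    (hGL hX 20 (tfT K m w) * hGL hX 22 w) * tfP hX m 14 23 t *
        (hGL hX 20 (tfT K m w) * hGL hX 22 w)⁻¹ = tfP hX m 14 23 (w⁻¹ * t) := by
  have p1 : chevF4.pairing 20 14 = -1 := by decide
  have p2 : chevF4.pairing 22 14 = 0 := by decide
  have p3 : chevF4.pairing 20 23 = 0 := by decide
  have p4 : chevF4.pairing 22 23 = -1 := by decide
  refine tfg_P_conj hX m (by decide) (by decide) hw _ ?_ ?_ t
  · intro t
    rw [p1, p2]
    simp only [zpow_neg, zpow_zero, zpow_one, zpow_ofNat, pow_zero, pow_one, one_mul, map_mul, map_inv₀]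
  · intro t
    rw [p3, p4]
    simp only [zpow_neg, zpow_zero, zpow_one, zpow_ofNat, pow_zero, pow_one, one_mul]

variable [Fintype K] {m : ℕ}

/-- `h_{p₂}(w^θ) h_{p₃}(w)` on the `B₂`-class of `(p₂, p₃)`. -/
theorem tfg_T2_B (hK : Fintype.card K = 2 ^ (2 * m + 1)) (hX : XAdd chevF4 K) {w : K} (hw : w ≠ 0)
    (t u : K) :
    (hGL hX 27 (tfT K m w) * hGL hX 25 w) * tfB hX m 27 25 28 30 t u *
        (hGL hX 27 (tfT K m w) * hGL hX 25 w)⁻¹ =
      tfB hX m 27 25 28 30 (w ^ 2 * (tfL K m w)⁻¹ * t)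
        (tfT K m (w ^ 2 * (tfL K m w)⁻¹) * (w ^ 2 * (tfL K m w)⁻¹) * u) := by
  have p1 : chevF4.pairing 27 27 = 2 := by decide
  have p2 : chevF4.pairing 25 27 = -1 := by decide
  have p3 : chevF4.pairing 27 25 = -2 := by decide
  have p4 : chevF4.pairing 25 25 = 2 := by decide
  have p5 : chevF4.pairing 27 28 = 0 := by decide
  have p6 : chevF4.pairing 25 28 = 1 := by decide
  have p7 : chevF4.pairing 27 30 = 2 := by decide
  have p8 : chevF4.pairing 25 30 = 0 := by decide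
  have hT : tfT K m w ≠ 0 := (map_ne_zero _).mpr hw
  have hL : tfL K m w = tfT K m w ^ 2 := (tfT_sq m w).symm
  have hgg : tfT K m (w ^ 2 * (tfL K m w)⁻¹) * (w ^ 2 * (tfL K m w)⁻¹) = w := by
    rw [map_mul, map_pow, map_inv₀, tfT_tfL hK, hL]
    field_simp
  refine tfg_B_conj hX m (by decide) (by decide) hw _ ?_ ?_ ?_ ?_ t u
  · intro t
    rw [p1, p2]
    simp only [zpow_neg, zpow_one, zpow_ofNat, pow_zero, pow_one, map_mul, map_inv₀, map_pow, tfT_tfL hK]
    ring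
  · intro t
    rw [p3, p4, hL]
    simp only [zpow_neg, zpow_ofNat, pow_zero, pow_one]
    ring
  · intro t
    rw [p5, p6, hgg]
    simp only [zpow_zero, zpow_one, zpow_ofNat, pow_zero, pow_one, one_mul]
  · intro u
    rw [p7, p8, hgg, map_mul, hL]
    simp only [zpow_zero, zpow_ofNat, pow_zero, pow_one, one_mul]

/-- `h_{-p₁}(z^θ) h_{-p₄}(z)` on the `B₂`-class of `(p₂, p₃)`. -/
theorem tfg_T1n_B (hK : Fintype.card K = 2 ^ (2 * m + 1)) (hX : XAdd chevF4 K) {z : K} (hz : z ≠ 0)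
    (t u : K) :
    (hGL hX 14 (tfT K m z) * hGL hX 23 z) * tfB hX m 27 25 28 30 t u *
        (hGL hX 14 (tfT K m z) * hGL hX 23 z)⁻¹ =
      tfB hX m 27 25 28 30 (z * t) (tfT K m z * z * u) := by
  have p1 : chevF4.pairing 14 27 = 1 := by decide
  have p2 : chevF4.pairing 23 27 = 0 := by decide
  have p3 : chevF4.pairing 14 25 = 0 := by decide
  have p4 : chevF4.pairing 23 25 = 1 := by decide
  have p5 : chevF4.pairing 14 28 = 1 := by decide
  have p6 : chevF4.pairing 23 28 = 1 := by decide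
  have p7 : chevF4.pairing 14 30 = 2 := by decide
  have p8 : chevF4.pairing 23 30 = 1 := by decide
  refine tfg_B_conj hX m (by decide) (by decide) hz _ ?_ ?_ ?_ ?_ t u
  · intro t
    rw [p1, p2]
    simp only [zpow_zero, zpow_one, zpow_ofNat, pow_zero, pow_one, one_mul, map_mul]
  · intro t
    rw [p3, p4]
    simp only [zpow_zero, zpow_one, zpow_ofNat, pow_zero, pow_one, one_mul]
  · intro t
    rw [p5, p6]
    simp only [zpow_one, mul_assoc]
  · intro u
    rw [p7, p8, map_mul, map_mul, tfL_tfT hK, ← tfT_sq m z]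
    simp only [zpow_one, zpow_ofNat, pow_zero, pow_one]
    ring

/-- `h_{-p₂}(w^θ) h_{-p₃}(w)` on the `B₂`-class of `(p₂, p₃)`. -/
theorem tfg_T2n_B (hK : Fintype.card K = 2 ^ (2 * m + 1)) (hX : XAdd chevF4 K) {w : K} (hw : w ≠ 0)
    (t u : K) :
    (hGL hX 20 (tfT K m w) * hGL hX 22 w) * tfB hX m 27 25 28 30 t u *
        (hGL hX 20 (tfT K m w) * hGL hX 22 w)⁻¹ =
      tfB hX m 27 25 28 30 (tfL K m w * (w ^ 2)⁻¹ * t)
        (tfT K m (tfL K m w * (w ^ 2)⁻¹) * (tfL K m w * (w ^ 2)⁻¹) * u) := by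
  have p1 : chevF4.pairing 20 27 = -2 := by decide
  have p2 : chevF4.pairing 22 27 = 1 := by decide
  have p3 : chevF4.pairing 20 25 = 2 := by decide
  have p4 : chevF4.pairing 22 25 = -2 := by decide
  have p5 : chevF4.pairing 20 28 = 0 := by decide
  have p6 : chevF4.pairing 22 28 = -1 := by decide
  have p7 : chevF4.pairing 20 30 = -2 := by decide
  have p8 : chevF4.pairing 22 30 = 0 := by decide
  have hT : tfT K m w ≠ 0 := (map_ne_zero _).mpr hw
  have hL : tfL K m w = tfT K m w ^ 2 := (tfT_sq m w).symm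
  have hgg : tfT K m (tfL K m w * (w ^ 2)⁻¹) * (tfL K m w * (w ^ 2)⁻¹) = w⁻¹ := by
    rw [map_mul, map_inv₀, map_pow, tfT_tfL hK, hL]
    field_simp
  refine tfg_B_conj hX m (by decide) (by decide) hw _ ?_ ?_ ?_ ?_ t u
  · intro t
    rw [p1, p2]
    simp only [zpow_neg, zpow_one, zpow_ofNat, pow_zero, pow_one, map_mul, map_inv₀, map_pow, tfT_tfL hK]
    ring
  · intro t
    rw [p3, p4, hL]
    simp only [zpow_neg, zpow_ofNat, pow_zero, pow_one]
    ring
  · intro t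
    rw [p5, p6, hgg]
    simp only [zpow_neg, zpow_zero, zpow_one, zpow_ofNat, pow_zero, pow_one, one_mul]
  · intro u
    rw [p7, p8, hgg, map_mul, map_inv₀, hL]
    simp only [zpow_neg, zpow_zero, zpow_ofNat, pow_zero, pow_one, one_mul]

/-- The two generators of `²F₄`: the subgroup they generate contains the group. -/
theorem tfg_closure (hK : Fintype.card K = 2 ^ (2 * m + 1)) (hX : XAdd chevF4 K) {z w g : K}
    (hz : z ≠ 0) (hw : w ≠ 0) (hg : z⁻¹ * (w ^ 2 * (tfL K m w)⁻¹) = g)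
    (hv : (z ^ 2)⁻¹ * w = g + 1) (hg0 : g ≠ 0) (hg1 : g ≠ 1)
    (hord : Fintype.card K < 2 * (orderOf g + 1))
    (hordω : Fintype.card K < 2 * (orderOf (tfT K m g * g) + 1)) :
    twistedF4 K (2 ^ m) ≤ Subgroup.closure
      ({(hGL hX 33 (tfT K m z) * hGL hX 24 z) * (hGL hX 27 (tfT K m w) * hGL hX 25 w),
        tfP hX m 14 23 1 * tfB hX m 27 25 28 30 1 0 * tfNW K tfgL0} : Set (GL chevF4.Idx K)) := by
  haveI : Fact (Nat.Prime 2) := ⟨Nat.prime_two⟩
  have two : (2 : K) = 0 := CharTwo.two_eq_zero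
  have hTz : tfT K m z ≠ 0 := (map_ne_zero _).mpr hz
  have hTw : tfT K m w ≠ 0 := (map_ne_zero _).mpr hw
  have hLw : tfL K m w ≠ 0 := (map_ne_zero _).mpr hw
  have conj_mul : ∀ a b x : GL chevF4.Idx K, (a * b) * x * (a * b)⁻¹ = a * (b * x * b⁻¹) * a⁻¹ := by
    intros; group
  -- the conjugate of the torus element
  have hh' : tfNW K tfgL0 *
      ((hGL hX 33 (tfT K m z) * hGL hX 24 z) * (hGL hX 27 (tfT K m w) * hGL hX 25 w)) *
        (tfNW K tfgL0)⁻¹ =
      (hGL hX 14 (tfT K m z) * hGL hX 23 z) * (hGL hX 20 (tfT K m w) * hGL hX 22 w) := by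
    have e1 : ∀ n a b c d : GL chevF4.Idx K,
        n * ((a * b) * (c * d)) * n⁻¹ =
          ((n * a * n⁻¹) * (n * b * n⁻¹)) * ((n * c * n⁻¹) * (n * d * n⁻¹)) := by
      intros; group
    rw [e1, tf_nW_conj_h hX tfgL0_valid (by decide), tf_nW_conj_h hX tfgL0_valid (by decide),
      tf_nW_conj_h hX tfgL0_valid (by decide), tf_nW_conj_h hX tfgL0_valid (by decide)]
    rfl
  have hcomm : Commute ((hGL hX 33 (tfT K m z) * hGL hX 24 z) * (hGL hX 27 (tfT K m w) * hGL hX 25 w))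
      ((hGL hX 14 (tfT K m z) * hGL hX 23 z) * (hGL hX 20 (tfT K m w) * hGL hX 22 w)) := by
    have base : ∀ {r : ℕ}, r < 48 → ∀ {c : K}, c ≠ 0 → Commute (hGL hX r c)
        ((hGL hX 14 (tfT K m z) * hGL hX 23 z) * (hGL hX 20 (tfT K m w) * hGL hX 22 w)) :=
      fun hr _ hc =>
        ((f4_hGL_comm hX hr (by decide) hc hTz).mul_right
          (f4_hGL_comm hX hr (by decide) hc hz)).mul_right
        ((f4_hGL_comm hX hr (by decide) hc hTw).mul_right (f4_hGL_comm hX hr (by decide) hc hw))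
    exact ((base (by decide) hTz).mul_left (base (by decide) hz)).mul_left
      ((base (by decide) hTw).mul_left (base (by decide) hw))
  -- the scalars
  have hgg : tfT K m (z⁻¹ * (w ^ 2 * (tfL K m w)⁻¹)) * (z⁻¹ * (w ^ 2 * (tfL K m w)⁻¹)) =
      (tfT K m z)⁻¹ * z⁻¹ * (tfT K m (w ^ 2 * (tfL K m w)⁻¹) * (w ^ 2 * (tfL K m w)⁻¹)) := by
    rw [map_mul, map_inv₀]; ring
  have hhP : ∀ t : K,
      ((hGL hX 33 (tfT K m z) * hGL hX 24 z) * (hGL hX 27 (tfT K m w) * hGL hX 25 w)) *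
        tfP hX m 14 23 t *
        ((hGL hX 33 (tfT K m z) * hGL hX 24 z) * (hGL hX 27 (tfT K m w) * hGL hX 25 w))⁻¹ =
      tfP hX m 14 23 ((g + 1) * t) := by
    intro t
    rw [conj_mul, tfg_T2_P hX m hw, tfg_T1_P hX m hz, ← mul_assoc, hv]
  have hhB : ∀ t u : K,
      ((hGL hX 33 (tfT K m z) * hGL hX 24 z) * (hGL hX 27 (tfT K m w) * hGL hX 25 w)) *
        tfB hX m 27 25 28 30 t u *
        ((hGL hX 33 (tfT K m z) * hGL hX 24 z) * (hGL hX 27 (tfT K m w) * hGL hX 25 w))⁻¹ =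
      tfB hX m 27 25 28 30 (g * t) (tfT K m g * g * u) := by
    intro t u
    rw [conj_mul, tfg_T2_B hK hX hw, tfB_h_conj hK hX hz, ← hg, hgg]
    exact congrArg₂ (tfB hX m 27 25 28 30) (by ring) (by ring)
  have hh'P : ∀ t : K,
      ((hGL hX 14 (tfT K m z) * hGL hX 23 z) * (hGL hX 20 (tfT K m w) * hGL hX 22 w)) *
        tfP hX m 14 23 t *
        ((hGL hX 14 (tfT K m z) * hGL hX 23 z) * (hGL hX 20 (tfT K m w) * hGL hX 22 w))⁻¹ =
      tfP hX m 14 23 ((g + 1)⁻¹ * t) := by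
    intro t
    rw [conj_mul, tfg_T2n_P hX m hw, tfg_T1n_P hX m hz, ← hv]
    exact congrArg (tfP hX m 14 23) (by field_simp)
  have hh'B : ∀ t u : K,
      ((hGL hX 14 (tfT K m z) * hGL hX 23 z) * (hGL hX 20 (tfT K m w) * hGL hX 22 w)) *
        tfB hX m 27 25 28 30 t u *
        ((hGL hX 14 (tfT K m z) * hGL hX 23 z) * (hGL hX 20 (tfT K m w) * hGL hX 22 w))⁻¹ =
      tfB hX m 27 25 28 30 (g⁻¹ * t)
        (tfT K m z * z * (tfT K m (tfL K m w * (w ^ 2)⁻¹) * (tfL K m w * (w ^ 2)⁻¹)) * u) := by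
    intro t u
    rw [conj_mul, tfg_T2n_B hK hX hw, tfg_T1n_B hK hX hz, ← hg]
    exact congrArg₂ (tfB hX m 27 25 28 30) (by field_simp) (by ring)
  have hv1 : g + 1 ≠ 0 := by
    intro h
    apply hg1
    linear_combination h - two
  have hα : ((g + 1) + 1) * ((g + 1)⁻¹ + 1) ≠ 0 := by
    apply mul_ne_zero
    · intro h
      apply hg0
      linear_combination h - two
    · intro h
      apply hg0
      have h2 : (g + 1)⁻¹ * (g + 1) = 1 := inv_mul_cancel₀ hv1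
      have h3 : (g + 1)⁻¹ = 1 := by linear_combination h - two
      rw [h3, one_mul] at h2
      linear_combination h2
  have hβ : (g + 1) * (g⁻¹ + 1) ≠ 0 := by
    apply mul_ne_zero hv1
    intro h
    apply hg1
    have h2 : g⁻¹ * g = 1 := inv_mul_cancel₀ hg0
    have h3 : g⁻¹ = 1 := by linear_combination h - two
    rw [h3, one_mul] at h2
    exact h2
  obtain ⟨hPS, hBS, hnS⟩ := tf_two_gen_core (tfP hX m 14 23) (tfB hX m 27 25 28 30) (tfT K m)
    ((hGL hX 33 (tfT K m z) * hGL hX 24 z) * (hGL hX 27 (tfT K m w) * hGL hX 25 w)) (tfNW K tfgL0)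
    (g + 1) g (tfT K m g * g) (g + 1)⁻¹ g⁻¹
    (tfT K m z * z * (tfT K m (tfL K m w * (w ^ 2)⁻¹) * (tfL K m w * (w ^ 2)⁻¹))) (2 * m + 1)
    (tfg_P_add hX m) (tfB_mul hK hX) (tfg_P_B_comm hX m) hhP hhB
    (by rw [hh']; exact hh'P) (by rw [hh']; exact hh'B) (by rw [hh']; exact hcomm) rfl hα hβ
    ⟨m, rfl⟩ (tf_pow_card hK)
    (fun M hM ⟨c, hcM, hc⟩ =>
      Cfsg.Agent.Helper39.addSubgroup_eq_top_of_mul_stable g hord M hc hcM hM)
    (fun M hM ⟨c, hcM, hc⟩ =>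
      Cfsg.Agent.Helper39.addSubgroup_eq_top_of_mul_stable (tfT K m g * g) hordω M hc hcM hM)
  -- all the generators
  unfold twistedF4 ChevalleyDatum.genSubgroup
  rw [Subgroup.closure_le]
  rintro x ⟨wd, ⟨t, rfl | rfl⟩ | ⟨t, u, rfl | rfl⟩, hx⟩
  · have e : x = tfP hX m 33 24 t := Units.ext (by rw [hx, ← tfP_word, wordGL_val]; rfl)
    have e2 : tfP hX m 33 24 t = tfNW K tfgL0 * tfP hX m 14 23 t * (tfNW K tfgL0)⁻¹ := by
      unfold tfP
      have e1 : ∀ n a b : GL chevF4.Idx K, n * (a * b) * n⁻¹ = (n * a * n⁻¹) * (n * b * n⁻¹) := by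
        intros; group
      rw [e1, tf_nW_conj_x hX tfgL0_valid (by decide), tf_nW_conj_x hX tfgL0_valid (by decide)]
      rfl
    rw [e, e2]
    exact mul_mem (mul_mem hnS (hPS t)) (inv_mem hnS)
  · have e : x = tfP hX m 14 23 t := Units.ext (by rw [hx, ← tfP_word, wordGL_val]; rfl)
    rw [e]
    exact hPS t
  · have e : x = tfB hX m 27 25 28 30 t u := Units.ext (by rw [hx, ← tfB_word, wordGL_val]; rfl)
    rw [e]
    exact hBS t u
  · have e : x = tfB hX m 20 22 19 17 t u := Units.ext (by rw [hx, ← tfB_word, wordGL_val]; rfl)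
    have e2 : tfB hX m 20 22 19 17 t u =
        tfNW K tfgL0 * tfB hX m 27 25 28 30 t u * (tfNW K tfgL0)⁻¹ := by
      unfold tfB
      have e1 : ∀ n a b c d : GL chevF4.Idx K,
          n * (a * b * c * d) * n⁻¹ = (n * a * n⁻¹) * (n * b * n⁻¹) * (n * c * n⁻¹) * (n * d * n⁻¹) := by
        intros; group
      rw [e1, tf_nW_conj_x hX tfgL0_valid (by decide), tf_nW_conj_x hX tfgL0_valid (by decide),
        tf_nW_conj_x hX tfgL0_valid (by decide), tf_nW_conj_x hX tfgL0_valid (by decide)]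
      rfl
    rw [e, e2]
    exact mul_mem (mul_mem hnS (hBS t u)) (inv_mem hnS)

/-- The parameters: a generator `g` of the multiplicative group and `z`, `w` with
`z⁻¹ w² / w^{2θ} = g`, `z⁻² w = g + 1`. -/
theorem tfg_exists (hK : Fintype.card K = 2 ^ (2 * m + 1)) (hm : 1 ≤ m) :
    ∃ z w g : K, z ≠ 0 ∧ w ≠ 0 ∧ z⁻¹ * (w ^ 2 * (tfL K m w)⁻¹) = g ∧ (z ^ 2)⁻¹ * w = g + 1 ∧
      g ≠ 0 ∧ g ≠ 1 ∧ Fintype.card K < 2 * (orderOf g + 1) ∧
      Fintype.card K < 2 * (orderOf (tfT K m g * g) + 1) := by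
  classical
  have two : (2 : K) = 0 := CharTwo.two_eq_zero
  have hq8 : 8 ≤ Fintype.card K := by
    rw [hK]
    calc 8 = 2 ^ 3 := by norm_num
      _ ≤ 2 ^ (2 * m + 1) := Nat.pow_le_pow_right (by norm_num) (by omega)
  obtain ⟨u, hu⟩ := IsCyclic.exists_generator (α := Kˣ)
  have hou : orderOf u = Fintype.card K - 1 := by
    rw [orderOf_eq_card_of_forall_mem_zpowers hu, Nat.card_eq_fintype_card, Fintype.card_units]
  have hog : orderOf (u : K) = Fintype.card K - 1 := by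
    rw [orderOf_units, hou]
  obtain ⟨g, hgdef⟩ : ∃ g : K, g = (u : K) := ⟨_, rfl⟩
  rw [← hgdef] at hog
  have hg0 : g ≠ 0 := by rw [hgdef]; exact u.ne_zero
  have hg1 : g ≠ 1 := by
    intro h
    rw [h, orderOf_one] at hog
    omega
  have hv0 : g + 1 ≠ 0 := by
    intro h
    apply hg1
    linear_combination h - two
  have hLL : ∀ x : K, tfL K m (tfL K m x) = x ^ 2 := by
    intro x
    rw [← tfT_sq m (tfL K m x), tfT_tfL hK]
  have hLv : tfL K m (g + 1) ≠ 0 := (map_ne_zero _).mpr hv0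
  obtain ⟨c, hc⟩ : ∃ c : K, c = g * tfL K m (g + 1) * ((g + 1) ^ 2)⁻¹ := ⟨_, rfl⟩
  have hc0 : c ≠ 0 := by
    rw [hc]
    exact mul_ne_zero (mul_ne_zero hg0 hLv) (inv_ne_zero (pow_ne_zero 2 hv0))
  have hcv : c * (g + 1) ^ 2 = g * tfL K m (g + 1) := by
    rw [hc]
    field_simp
  have hLc : tfL K m c ≠ 0 := (map_ne_zero _).mpr hc0
  have hz0 : tfL K m c ^ 2 * c ^ 3 ≠ 0 := mul_ne_zero (pow_ne_zero 2 hLc) (pow_ne_zero 3 hc0)
  have hw0 : (g + 1) * (tfL K m c ^ 2 * c ^ 3) ^ 2 ≠ 0 := mul_ne_zero hv0 (pow_ne_zero 2 hz0)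
  refine ⟨tfL K m c ^ 2 * c ^ 3, (g + 1) * (tfL K m c ^ 2 * c ^ 3) ^ 2, g, hz0, hw0, ?_, ?_, hg0, hg1,
    ?_, ?_⟩
  · simp only [map_mul, map_pow, hLL]
    field_simp
    exact hcv
  · field_simp
  · rw [hog]
    omega
  · have e : tfT K m g * g = g ^ (2 ^ m + 1) := by rw [tfT_apply, pow_succ]
    have hcop : Nat.Coprime (orderOf g) (2 ^ m + 1) := by
      rw [hog, hK]
      have h1 : 2 ^ (2 * m + 1) - 1 = (2 * 2 ^ m - 2) * (2 ^ m + 1) + 1 := by
        have h2 : 2 ^ (2 * m + 1) = 2 * 2 ^ m * 2 ^ m := by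
          rw [pow_succ, two_mul, pow_add]; ring
        have h3 : 1 ≤ 2 ^ m := Nat.one_le_two_pow
        obtain ⟨e, he⟩ : ∃ e : ℕ, 2 ^ m = e + 1 := ⟨2 ^ m - 1, by omega⟩
        rw [h2, he]
        have h4 : 2 * (e + 1) - 2 = 2 * e := by omega
        have h5 : 2 * (e + 1) * (e + 1) = 2 * e * (e + 1 + 1) + 1 + 1 := by ring
        rw [h4, h5]
        omega
      rw [h1]
      unfold Nat.Coprime
      have h6 := Nat.gcd_dvd_left ((2 * 2 ^ m - 2) * (2 ^ m + 1) + 1) (2 ^ m + 1)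
      have h7 := Nat.gcd_dvd_right ((2 * 2 ^ m - 2) * (2 ^ m + 1) + 1) (2 ^ m + 1)
      have h8 : Nat.gcd ((2 * 2 ^ m - 2) * (2 ^ m + 1) + 1) (2 ^ m + 1) ∣ 1 :=
        (Nat.dvd_add_right (h7.mul_left _)).mp h6
      exact Nat.dvd_one.mp h8
    rw [e, hcop.orderOf_pow, hog]
    omega

end tfg

end Cfsg.Agent.Helper17
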