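/-
helper17: the Ree groups `²G₂(3^(2m+1))`, `m ≥ 1`, are generated by two elements: `h = h_a(z^θ) h_b(z)` and
`x(1, 0, 0) n₀`.  A commutator of `h` and a conjugate of `h` is an element of `U¹` whose first coordinate is not
zero; the torus action then fills the three layers of `U¹` (on helper36's library `Ree1` … `Ree17`).
-/
import Cfsg.Agent.Helper17.TwoGenD4
import Cfsg.Agent.Helper36.Ree17
import Cfsg.Agent.Helper39.ReeAdd

set_option autoImplicit false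

namespace Cfsg.Agent.Helper17

open Cfsg Cfsg.Lie Cfsg.Agent.Helper36

section ree

variable {K : Type*} [Field K] [CharP K 3] [Fintype K] {m : ℕ} {σ : ↥(chevG2.group K) →* ↥(chevG2.group K)}

theorem reeU_congr (hX : XAdd chevG2 K) {t u v t' u' v' : K} (h1 : t = t') (h2 : u = u') (h3 : v = v') :
    wordGL hX (reeWordU (3 ^ m) t u v) = wordGL hX (reeWordU (3 ^ m) t' u' v') := by
  rw [h1, h2, h3]

theorem reeU_one (hX : XAdd chevG2 K) (m : ℕ) : wordGL hX (reeWordU (3 ^ m) (0 : K) 0 0) = 1 := by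
  have h := reeU_mul0 hX m (0 : K) 0 0 0 0
  rw [add_zero] at h
  exact left_eq_mul.mp h.symm

theorem reeU_inv0 (hX : XAdd chevG2 K) (m : ℕ) (u v : K) :
    (wordGL hX (reeWordU (3 ^ m) 0 u v))⁻¹ = wordGL hX (reeWordU (3 ^ m) 0 (-u) (-v)) := by
  apply inv_eq_of_mul_eq_one_right
  rw [reeU_mul0, add_neg_cancel, add_neg_cancel, reeU_one]

/-- The product in `U¹`. -/
theorem reeU_mul (hK : Fintype.card K = 3 ^ (2 * m + 1)) (hσ : ReeSig m σ) (hX : XAdd chevG2 K)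
    (t u v t' u' v' : K) :
    wordGL hX (reeWordU (3 ^ m) t u v) * wordGL hX (reeWordU (3 ^ m) t' u' v') =
      wordGL hX (reeWordU (3 ^ m) (t + t') (u + u' - frL K m t' * t)
        (v + v' - t' * (u - frL K m t' * t) - frL K m t' * t ^ 2)) := by
  have hmem : wordGL hX (reeWordU (3 ^ m) t u v) * wordGL hX (reeWordU (3 ^ m) t' u' v') ∈
      chevG2.posUnipotent K ⊓ twistedG2 K (3 ^ m) :=
    Subgroup.mem_inf.mpr ⟨mul_mem (reeU_mem_U hX _ _ _) (reeU_mem_U hX _ _ _),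
      mul_mem (reeU_mem_G1 hX _ _ _) (reeU_mem_G1 hX _ _ _)⟩
  obtain ⟨t'', u'', v'', e⟩ := (ree_U_iff hK hσ hX _).mp hmem
  have e1 := e
  rw [wordGL_reeU, wordGL_reeU, wordGL_reeU, g2_U_mul] at e1
  obtain ⟨-, h2, -, -, h5, h6⟩ := g2_U_unique hX e1
  rw [e]
  refine reeU_congr hX h2.symm ?_ ?_
  · rw [← h5, frT_pow3]; ring
  · rw [← h6, frT_pow3]; ring

theorem reeU_inv (hK : Fintype.card K = 3 ^ (2 * m + 1)) (hσ : ReeSig m σ) (hX : XAdd chevG2 K)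
    (t u v : K) :
    ∃ u' v' : K, (wordGL hX (reeWordU (3 ^ m) t u v))⁻¹ = wordGL hX (reeWordU (3 ^ m) (-t) u' v') := by
  have hmem : (wordGL hX (reeWordU (3 ^ m) t u v))⁻¹ ∈ chevG2.posUnipotent K ⊓ twistedG2 K (3 ^ m) :=
    Subgroup.mem_inf.mpr ⟨inv_mem (reeU_mem_U hX _ _ _), inv_mem (reeU_mem_G1 hX _ _ _)⟩
  obtain ⟨t', u', v', e⟩ := (ree_U_iff hK hσ hX _).mp hmem
  have h := reeU_mul hK hσ hX t u v t' u' v'
  rw [← e, mul_inv_cancel, ← reeU_one hX m] at h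
  obtain ⟨h1, -, -⟩ := reeU_inj hX h
  refine ⟨u', v', ?_⟩
  rw [e]
  exact reeU_congr hX (by linear_combination -h1) rfl rfl

/-- The elements of `U¹` with first coordinate `t`. -/
def ReeT (hX : XAdd chevG2 K) (m : ℕ) (g : GL chevG2.Idx K) (t : K) : Prop :=
  ∃ u v : K, g = wordGL hX (reeWordU (3 ^ m) t u v)

theorem ReeT.mul (hK : Fintype.card K = 3 ^ (2 * m + 1)) (hσ : ReeSig m σ) {hX : XAdd chevG2 K}
    {g g' : GL chevG2.Idx K} {t t' : K} (h : ReeT hX m g t) (h' : ReeT hX m g' t') :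
    ReeT hX m (g * g') (t + t') := by
  obtain ⟨u, v, rfl⟩ := h
  obtain ⟨u', v', rfl⟩ := h'
  exact ⟨_, _, reeU_mul hK hσ hX t u v t' u' v'⟩

theorem ReeT.inv (hK : Fintype.card K = 3 ^ (2 * m + 1)) (hσ : ReeSig m σ) {hX : XAdd chevG2 K}
    {g : GL chevG2.Idx K} {t : K} (h : ReeT hX m g t) : ReeT hX m g⁻¹ (-t) := by
  obtain ⟨u, v, rfl⟩ := h
  exact reeU_inv hK hσ hX t u v

/-- A subgroup containing `h(z)` and an element of `U¹` with non-zero first coordinate contains `U¹`. -/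
theorem ree_U_le (hK : Fintype.card K = 3 ^ (2 * m + 1)) (hσ : ReeSig m σ) (hX : XAdd chevG2 K)
    (S : Subgroup (GL chevG2.Idx K)) {z : K} (hz : z ≠ 0) (hz3 : z ^ 3 ≠ z)
    (hhS : hGL hX 7 (frT K m z) * hGL hX 6 z ∈ S)
    (ho1 : Fintype.card K < 3 * (orderOf z + 1))
    (ho2 : Fintype.card K < 3 * (orderOf ((frL K m z)⁻¹ * z ^ 2) + 1))
    (ho3 : Fintype.card K < 3 * (orderOf (frL K m z * z⁻¹) + 1))
    {c : K} (hc : c ≠ 0) (hcS : ∃ u v : K, wordGL hX (reeWordU (3 ^ m) c u v) ∈ S) :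
    ∀ t u v : K, wordGL hX (reeWordU (3 ^ m) t u v) ∈ S := by
  haveI : Fact (Nat.Prime 3) := ⟨by norm_num⟩
  have hconj : ∀ t u v : K, wordGL hX (reeWordU (3 ^ m) t u v) ∈ S →
      wordGL hX (reeWordU (3 ^ m) ((frL K m z)⁻¹ * z ^ 2 * t) (frL K m z * z⁻¹ * u) (z * v)) ∈ S := by
    intro t u v h
    have e := ree_h_conj hK hσ hX hz (rfl : frT K m z = frT K m z) t u v
    rw [frT_pow3] at e
    rw [← e]
    exact mul_mem (mul_mem hhS h) (inv_mem hhS)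
  -- the first layer
  let T : AddSubgroup K :=
    { carrier := {t | ∃ u v : K, wordGL hX (reeWordU (3 ^ m) t u v) ∈ S}
      zero_mem' := ⟨0, 0, by rw [reeU_one]; exact one_mem S⟩
      add_mem' := by
        rintro t t' ⟨u, v, h⟩ ⟨u', v', h'⟩
        exact ⟨_, _, by rw [← reeU_mul hK hσ hX]; exact mul_mem h h'⟩
      neg_mem' := by
        rintro t ⟨u, v, h⟩
        obtain ⟨u', v', e⟩ := reeU_inv hK hσ hX t u v
        exact ⟨u', v', by rw [← e]; exact inv_mem h⟩ }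
  have hT : T = ⊤ := Cfsg.Agent.Helper39.addSubgroup_eq_top_of_mul_stable ((frL K m z)⁻¹ * z ^ 2) ho2 T hc hcS
    (by
      rintro x ⟨u, v, h⟩
      exact ⟨_, _, hconj x u v h⟩)
  have hTall : ∀ t : K, ∃ u v : K, wordGL hX (reeWordU (3 ^ m) t u v) ∈ S := by
    intro t
    have : t ∈ T := by rw [hT]; exact AddSubgroup.mem_top t
    exact this
  -- the second layer
  let U2 : AddSubgroup K :=
    { carrier := {u | ∃ v : K, wordGL hX (reeWordU (3 ^ m) 0 u v) ∈ S}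
      zero_mem' := ⟨0, by rw [reeU_one]; exact one_mem S⟩
      add_mem' := by
        rintro u u' ⟨v, h⟩ ⟨v', h'⟩
        exact ⟨v + v', by rw [← reeU_mul0 hX m]; exact mul_mem h h'⟩
      neg_mem' := by
        rintro u ⟨v, h⟩
        exact ⟨-v, by rw [← reeU_inv0 hX m]; exact inv_mem h⟩ }
  have hψ : frL K m z - z ≠ 0 := by
    intro h0
    have h1 : frL K m z = z := sub_eq_zero.mp h0
    have h2 : frT K m z = z := by
      have := frT_frL hK z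
      rw [h1] at this
      exact this
    apply hz3
    have h3 := frT_pow3 m z
    rw [h2, h1] at h3
    exact h3
  have hψS : frL K m z - z ∈ U2 := by
    obtain ⟨u1, v1, h1⟩ := hTall z
    obtain ⟨u2, v2, h2⟩ := hTall 1
    have eP := reeU_mul hK hσ hX z u1 v1 1 u2 v2
    have eQ := reeU_mul hK hσ hX 1 u2 v2 z u1 v1
    refine ⟨(v1 + v2 - 1 * (u1 - frL K m 1 * z) - frL K m 1 * z ^ 2) -
      (v2 + v1 - z * (u2 - frL K m z * 1) - frL K m z * 1 ^ 2), ?_⟩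
    have e : wordGL hX (reeWordU (3 ^ m) 0 (frL K m z - z)
        ((v1 + v2 - 1 * (u1 - frL K m 1 * z) - frL K m 1 * z ^ 2) -
          (v2 + v1 - z * (u2 - frL K m z * 1) - frL K m z * 1 ^ 2))) =
        (wordGL hX (reeWordU (3 ^ m) 1 u2 v2) * wordGL hX (reeWordU (3 ^ m) z u1 v1))⁻¹ *
          (wordGL hX (reeWordU (3 ^ m) z u1 v1) * wordGL hX (reeWordU (3 ^ m) 1 u2 v2)) := by
      rw [eq_inv_mul_iff_mul_eq, eP, eQ, reeU_mul0]
      refine reeU_congr hX (by ring) ?_ (by ring)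
      rw [map_one]
      ring
    rw [e]
    exact mul_mem (inv_mem (mul_mem h2 h1)) (mul_mem h1 h2)
  have hU2 : U2 = ⊤ := Cfsg.Agent.Helper39.addSubgroup_eq_top_of_mul_stable (frL K m z * z⁻¹) ho3 U2 hψ hψS
    (by
      rintro x ⟨v, h⟩
      have := hconj 0 x v h
      rw [mul_zero] at this
      exact ⟨_, this⟩)
  have hU2all : ∀ u : K, ∃ v : K, wordGL hX (reeWordU (3 ^ m) 0 u v) ∈ S := by
    intro u
    have : u ∈ U2 := by rw [hU2]; exact AddSubgroup.mem_top u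
    exact this
  -- the third layer
  let V3 : AddSubgroup K :=
    { carrier := {v | wordGL hX (reeWordU (3 ^ m) 0 0 v) ∈ S}
      zero_mem' := by
        show wordGL hX (reeWordU (3 ^ m) 0 0 0) ∈ S
        rw [reeU_one]; exact one_mem S
      add_mem' := by
        intro v v' h h'
        show wordGL hX (reeWordU (3 ^ m) 0 0 (v + v')) ∈ S
        have e := reeU_mul0 hX m (0 : K) 0 v 0 v'
        rw [add_zero] at e
        rw [← e]
        exact mul_mem h h'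
      neg_mem' := by
        intro v h
        show wordGL hX (reeWordU (3 ^ m) 0 0 (-v)) ∈ S
        have e := reeU_inv0 hX m (0 : K) v
        rw [neg_zero] at e
        rw [← e]
        exact inv_mem h }
  have h1S : (1 : K) ∈ V3 := by
    obtain ⟨u3, v3, h3⟩ := hTall 1
    obtain ⟨v4, h4⟩ := hU2all 1
    have eP := reeU_mul0 hX m (1 : K) u3 v3 1 v4
    have eQ := reeU_mul hK hσ hX 0 1 v4 1 u3 v3
    have e : wordGL hX (reeWordU (3 ^ m) (0 : K) 0 1) =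
        (wordGL hX (reeWordU (3 ^ m) 0 1 v4) * wordGL hX (reeWordU (3 ^ m) 1 u3 v3))⁻¹ *
          (wordGL hX (reeWordU (3 ^ m) 1 u3 v3) * wordGL hX (reeWordU (3 ^ m) 0 1 v4)) := by
      rw [eq_inv_mul_iff_mul_eq, eP, eQ, reeU_mul0]
      refine reeU_congr hX (by ring) (by ring) ?_
      rw [map_one]
      ring
    show wordGL hX (reeWordU (3 ^ m) 0 0 1) ∈ S
    rw [e]
    exact mul_mem (inv_mem (mul_mem h4 h3)) (mul_mem h3 h4)
  have hV3 : V3 = ⊤ := Cfsg.Agent.Helper39.addSubgroup_eq_top_of_mul_stable z ho1 V3 one_ne_zero h1S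
    (by
      intro x h
      have := hconj 0 0 x h
      rw [mul_zero, mul_zero] at this
      exact this)
  -- all of `U¹`
  intro t u v
  obtain ⟨u₁, v₁, h₁⟩ := hTall t
  obtain ⟨v₂, h₂⟩ := hU2all (u - u₁)
  have h₃ : wordGL hX (reeWordU (3 ^ m) 0 0 (v - v₁ - v₂)) ∈ S := by
    have : v - v₁ - v₂ ∈ V3 := by rw [hV3]; exact AddSubgroup.mem_top _
    exact this
  have e : wordGL hX (reeWordU (3 ^ m) t u v) = wordGL hX (reeWordU (3 ^ m) t u₁ v₁) *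
      (wordGL hX (reeWordU (3 ^ m) 0 (u - u₁) v₂) * wordGL hX (reeWordU (3 ^ m) 0 0 (v - v₁ - v₂))) := by
    rw [reeU_mul0, reeU_mul0]
    exact reeU_congr hX rfl (by ring) (by ring)
  rw [e]
  exact mul_mem h₁ (mul_mem h₂ h₃)

/-- The Ree group is generated by `h(z)` and `x(1, 0, 0) n₀`, for a suitable `z`. -/
theorem ree_two_gen (hK : Fintype.card K = 3 ^ (2 * m + 1)) (hσ : ReeSig m σ) {z : K} (hz : z ≠ 0)
    (hz1 : z ≠ 1) (hz3 : z ^ 3 ≠ z)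
    (ho1 : Fintype.card K < 3 * (orderOf z + 1))
    (ho2 : Fintype.card K < 3 * (orderOf ((frL K m z)⁻¹ * z ^ 2) + 1))
    (ho3 : Fintype.card K < 3 * (orderOf (frL K m z * z⁻¹) + 1))
    (hlam : ∀ w : K, w ≠ 0 → w ≠ 1 → (frL K m w)⁻¹ * w ^ 2 ≠ 1) :
    ∃ a b : ↥(twistedG2 K (3 ^ m)), Subgroup.closure ({a, b} : Set ↥(twistedG2 K (3 ^ m))) = ⊤ := by
  have R := bRel_of_mem (F := K) g2_mem
  have hX := R.xadd
  obtain ⟨h, hh⟩ : ∃ h : GL chevG2.Idx K, h = hGL hX 7 (frT K m z) * hGL hX 6 z := ⟨_, rfl⟩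
  obtain ⟨n, hn⟩ : ∃ n : GL chevG2.Idx K, n = reeN0 hX := ⟨_, rfl⟩
  obtain ⟨α₀, hα₀⟩ : ∃ g : GL chevG2.Idx K, g = wordGL hX (reeWordU (3 ^ m) 1 0 0) := ⟨_, rfl⟩
  have ha0 : frT K m z ≠ 0 := (map_ne_zero _).mpr hz
  have hhG : h ∈ twistedG2 K (3 ^ m) := by rw [hh]; exact reeH_mem hK hX hz
  have hhH : h ∈ chevG2.diagonalSubgroup K := by
    rw [hh]; exact mul_mem (hGL_mem hX (by decide) ha0) (hGL_mem hX (by decide) hz)
  have hnG : n ∈ twistedG2 K (3 ^ m) := by rw [hn]; exact reeN0_mem_G1 hX m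
  have hnN : n ∈ chevG2.monomialSubgroup K := by rw [hn]; exact reeN0_mem_N hX
  have hαG : α₀ ∈ twistedG2 K (3 ^ m) := by rw [hα₀]; exact reeU_mem_G1 hX _ _ _
  have hxG : α₀ * n ∈ twistedG2 K (3 ^ m) := mul_mem hαG hnG
  -- the conjugate of `h` by `n`
  have hh'H : n * h * n⁻¹ ∈ chevG2.diagonalSubgroup K := R.N_conj_H n hnN h hhH
  have hh'G : n * h * n⁻¹ ∈ twistedG2 K (3 ^ m) := mul_mem (mul_mem hnG hhG) (inv_mem hnG)
  obtain ⟨z', hz'0, e'⟩ := ree_H_fixed hK hσ hX hh'H (twistedG2_le_sigFix hK hσ hh'G).2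
  have hz'1 : z' ≠ 1 := by
    intro h1
    subst h1
    rw [map_one, g2_hGL_one hX (r := 7) (by decide), g2_hGL_one hX (r := 6) (by decide), mul_one] at e'
    have e1 : h = 1 := by
      have : h = n⁻¹ * (n * h * n⁻¹) * n := by group
      rw [this, e']; group
    rw [hh] at e1
    have e2 : hGL hX 7 (frT K m z) * hGL hX 6 z = hGL hX 7 (1 : K) * hGL hX 6 1 := by
      rw [e1, g2_hGL_one hX (r := 7) (by decide), g2_hGL_one hX (r := 6) (by decide), mul_one]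
    exact hz1 (g2_h_inj hX ha0 hz one_ne_zero one_ne_zero e2).2
  obtain ⟨S, hS⟩ : ∃ S : Subgroup (GL chevG2.Idx K),
      S = Subgroup.closure ({h, α₀ * n} : Set (GL chevG2.Idx K)) := ⟨_, rfl⟩
  have hhS : h ∈ S := by rw [hS]; exact Subgroup.subset_closure (by simp)
  have hxS : α₀ * n ∈ S := by rw [hS]; exact Subgroup.subset_closure (by simp)
  -- the element of `U¹`
  have hcomm : Commute h (n * h * n⁻¹) := diag_commute g2_mem hhH hh'H
  have hu₁S : h * (α₀ * (n * h * n⁻¹) * α₀⁻¹) * h⁻¹ * (α₀ * (n * h * n⁻¹) * α₀⁻¹)⁻¹ ∈ S := by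
    have hy : α₀ * (n * h * n⁻¹) * α₀⁻¹ ∈ S := by
      have : α₀ * (n * h * n⁻¹) * α₀⁻¹ = (α₀ * n) * h * (α₀ * n)⁻¹ := by group
      rw [this]
      exact mul_mem (mul_mem hxS hhS) (inv_mem hxS)
    exact mul_mem (mul_mem (mul_mem hhS hy) (inv_mem hhS)) (inv_mem hy)
  have hu₁ : h * (α₀ * (n * h * n⁻¹) * α₀⁻¹) * h⁻¹ * (α₀ * (n * h * n⁻¹) * α₀⁻¹)⁻¹ =
      (h * α₀ * h⁻¹) * ((n * h * n⁻¹) * (h * α₀ * h⁻¹) * (n * h * n⁻¹)⁻¹)⁻¹ *
        ((n * h * n⁻¹) * α₀ * (n * h * n⁻¹)⁻¹) * α₀⁻¹ := by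
    have e1 : h * (α₀ * (n * h * n⁻¹) * α₀⁻¹) * h⁻¹ =
        (h * α₀ * h⁻¹) * (h * (n * h * n⁻¹) * h⁻¹) * (h * α₀ * h⁻¹)⁻¹ := by group
    have e2 : h * (n * h * n⁻¹) * h⁻¹ = n * h * n⁻¹ := by rw [hcomm.eq]; group
    rw [e1, e2]
    group
  have c1 : ReeT hX m (h * α₀ * h⁻¹) ((frL K m z)⁻¹ * z ^ 2 * 1) := by
    rw [hh, hα₀]
    have e := ree_h_conj hK hσ hX hz (rfl : frT K m z = frT K m z) (1 : K) 0 0
    rw [frT_pow3] at e
    exact ⟨_, _, e⟩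
  have c2 : ReeT hX m ((n * h * n⁻¹) * (h * α₀ * h⁻¹) * (n * h * n⁻¹)⁻¹)
      ((frL K m z')⁻¹ * z' ^ 2 * ((frL K m z)⁻¹ * z ^ 2 * 1)) := by
    obtain ⟨u, v, e⟩ := c1
    rw [e, e']
    have e2 := ree_h_conj hK hσ hX hz'0 (rfl : frT K m z' = frT K m z') ((frL K m z)⁻¹ * z ^ 2 * 1) u v
    rw [frT_pow3] at e2
    exact ⟨_, _, e2⟩
  have c3 : ReeT hX m ((n * h * n⁻¹) * α₀ * (n * h * n⁻¹)⁻¹) ((frL K m z')⁻¹ * z' ^ 2 * 1) := by
    rw [e', hα₀]
    have e2 := ree_h_conj hK hσ hX hz'0 (rfl : frT K m z' = frT K m z') (1 : K) 0 0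
    rw [frT_pow3] at e2
    exact ⟨_, _, e2⟩
  have c4 : ReeT hX m α₀ 1 := ⟨0, 0, hα₀⟩
  obtain ⟨u, v, e5⟩ := ((c1.mul hK hσ (c2.inv hK hσ)).mul hK hσ c3).mul hK hσ (c4.inv hK hσ)
  have hc : ((frL K m z)⁻¹ * z ^ 2 - 1) * (1 - (frL K m z')⁻¹ * z' ^ 2) ≠ 0 :=
    mul_ne_zero (sub_ne_zero.mpr (hlam z hz hz1)) (sub_ne_zero.mpr (Ne.symm (hlam z' hz'0 hz'1)))
  have hcS : ∃ u v : K, wordGL hX (reeWordU (3 ^ m)
      (((frL K m z)⁻¹ * z ^ 2 - 1) * (1 - (frL K m z')⁻¹ * z' ^ 2)) u v) ∈ S := by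
    refine ⟨u, v, ?_⟩
    have et : ((frL K m z)⁻¹ * z ^ 2 - 1) * (1 - (frL K m z')⁻¹ * z' ^ 2) =
        (frL K m z)⁻¹ * z ^ 2 * 1 + -((frL K m z')⁻¹ * z' ^ 2 * ((frL K m z)⁻¹ * z ^ 2 * 1)) +
          (frL K m z')⁻¹ * z' ^ 2 * 1 + -1 := by ring
    rw [et, ← e5, ← hu₁]
    exact hu₁S
  have hU := ree_U_le hK hσ hX S hz hz3 (hh ▸ hhS) ho1 ho2 ho3 hc hcS
  -- `n₀`
  have hαS : α₀ ∈ S := by rw [hα₀]; exact hU 1 0 0
  have hnS : n ∈ S := by
    have : n = α₀⁻¹ * (α₀ * n) := by group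
    rw [this]
    exact mul_mem (inv_mem hαS) hxS
  -- `V¹`
  have hs0 : n * g2N0 K ∈ chevG2.diagonalSubgroup K := by rw [hn]; exact reeN0_mul_g2N0 hK hσ hX
  have hV : ∀ t u v : K, wordGL hX (reeWordV (3 ^ m) t u v) ∈ S := by
    intro t u v
    have hv : n⁻¹ * wordGL hX (reeWordV (3 ^ m) t u v) * n ∈
        chevG2.posUnipotent K ⊓ twistedG2 K (3 ^ m) :=
      Subgroup.mem_inf.mpr ⟨ree_n_inv_conj_V hs0 _ (reeV_mem_V hX m t u v),
        mul_mem (mul_mem (inv_mem hnG) (reeV_mem_G1 hX _ _ _)) hnG⟩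
    obtain ⟨t', u', v', e⟩ := (ree_U_iff hK hσ hX _).mp hv
    have e2 : wordGL hX (reeWordV (3 ^ m) t u v) =
        n * (n⁻¹ * wordGL hX (reeWordV (3 ^ m) t u v) * n) * n⁻¹ := by group
    rw [e2, e]
    exact mul_mem (mul_mem hnS (hU t' u' v')) (inv_mem hnS)
  have hle : twistedG2 K (3 ^ m) ≤ S := by
    unfold twistedG2 ChevalleyDatum.genSubgroup
    rw [Subgroup.closure_le]
    rintro g ⟨w, ⟨t, u, v, rfl | rfl⟩, hg⟩
    · have : g = wordGL hX (reeWordU (3 ^ m) t u v) := Units.ext (by rw [hg, wordGL_val])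
      rw [this]
      exact hU t u v
    · have : g = wordGL hX (reeWordV (3 ^ m) t u v) := Units.ext (by rw [hg, wordGL_val])
      rw [this]
      exact hV t u v
  rw [hS] at hle
  exact ⟨⟨h, hhG⟩, ⟨α₀ * n, hxG⟩, closure_pair_subtype_top _ _ _ hhG hxG hle⟩

end ree

end Cfsg.Agent.Helper17
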