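/-
helper17: the untwisted Chevalley groups are generated by two elements.

* `GStep`, `gRun`, `gCertOK`: certificates showing that the root subgroups of some roots, together with the
  element `n_w` of a word `w` in the fundamental reflections, generate the group: a root is reached either as the
  image under `w` of a root already reached or as the root of a commutator with the single term `±1`;
* `two_gen_T`: Steinberg's pair `h x_{r₂}(1)`, `x_r(1) n_w` over a field with at least three elements;
* `two_gen_F2_one`, `two_gen_F2_split`, `two_gen_F2_sq`: pairs of generators over the field with two elements.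
-/
import Cfsg.Agent.Helper17.TwoGenD4
import Cfsg.Agent.Helper17.ChevGenN
import Cfsg.Agent.Helper17.ChevDiagCard
import Cfsg.Agent.Helper36.ChevRelAll

set_option autoImplicit false

namespace Cfsg.Agent.Helper17

open Cfsg Cfsg.Lie Cfsg.Agent.Helper36

/-! ### Certificates -/

/-- A step of a certificate: the image of a root under the word, or the root of a clean commutator. -/
inductive GStep
  | w (s : ℕ)
  | c (u r s : ℕ) (c : ℤ)

/-- The root reached by a step, if the step is valid. -/
def gStepRun (D : ChevalleyDatum) (L : List ℕ) (known : List ℕ) : GStep → Option ℕ
  | .w s => if s ∈ known then some (wW D L s) else none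
  | .c u r s c =>
    if r ∈ known ∧ s ∈ known ∧ u < D.nroots ∧ cleanAt D u r s c = true ∧ (c = 1 ∨ c = -1) then some u
    else none

/-- The roots reached by a list of steps. -/
def gRun (D : ChevalleyDatum) (L : List ℕ) : List GStep → List ℕ → Option (List ℕ)
  | [], known => some known
  | st :: rest, known =>
    match gStepRun D L known st with
    | some u => gRun D L rest (u :: known)
    | none => none

/-- The certificate reaches every root. -/
def gCertOK (D : ChevalleyDatum) (L : List ℕ) (steps : List GStep) (seeds : List ℕ) : Bool :=
  match gRun D L steps seeds with
  | some known => allBelow D.nroots fun r => decide (r ∈ known)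
  | none => false

/-- The certificate reaches the root `r`. -/
def gReachOK (D : ChevalleyDatum) (L : List ℕ) (steps : List GStep) (seeds : List ℕ) (r : ℕ) : Bool :=
  match gRun D L steps seeds with
  | some known => decide (r ∈ known)
  | none => false

section sound

variable {D : ChevalleyDatum} {F : Type*} [Field F] {η : ℕ → ℕ → ℤ}

/-- The root subgroups of the roots of the list lie in `M`. -/
def GKnown (R : BRel D F η) (M : Subgroup (GL D.Idx F)) (known : List ℕ) : Prop :=
  ∀ s ∈ known, s < D.nroots ∧ ∀ t : F, xGL R.xadd s t ∈ M

theorem gRun_sound (R : BRel D F η) {M : Subgroup (GL D.Idx F)} {L : List ℕ} (hL : ValidW D L)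
    (hn : R.nW L ∈ M) : ∀ (steps : List GStep) (known known' : List ℕ), GKnown R M known →
      gRun D L steps known = some known' → GKnown R M known' := by
  intro steps
  induction steps with
  | nil =>
    intro known known' hk h
    simp only [gRun, Option.some.injEq] at h
    rw [← h]
    exact hk
  | cons st rest ih =>
    intro known known' hk h
    rw [gRun] at h
    cases hst : gStepRun D L known st with
    | none =>
      rw [hst] at h
      exact absurd h (by simp)
    | some u =>
      rw [hst] at h
      refine ih (u :: known) known' ?_ h
      intro s hs
      rcases List.mem_cons.mp hs with rfl | hs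
      · cases st with
        | w s0 =>
          simp only [gStepRun] at hst
          split_ifs at hst with h0
          simp only [Option.some.injEq] at hst
          subst hst
          obtain ⟨hs0, hx⟩ := hk s0 h0
          refine ⟨R.wf.wW_lt hL hs0, fun t => ?_⟩
          have h1 := R.nW_conj_x hL hs0 ((eW D η L s0 : F) * t)
          rw [← mul_assoc, R.eW_mul_self hL hs0, one_mul] at h1
          rw [← h1]
          exact mul_mem (mul_mem hn (hx _)) (inv_mem hn)
        | c u0 r0 s0 c0 =>
          simp only [gStepRun] at hst
          split_ifs at hst with h0
          simp only [Option.some.injEq] at hst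
          subst hst
          obtain ⟨hr, hs', hu, hcl, hc⟩ := h0
          refine ⟨hu, fun t => ?_⟩
          obtain ⟨-, hxr⟩ := hk r0 hr
          obtain ⟨-, hxs⟩ := hk s0 hs'
          have hcomm := xGL_comm_clean R hcl (-(c0 : F) * t) 1
          have e : -((c0 : F) * (-(c0 : F) * t) * 1) = t := by
            rcases hc with rfl | rfl <;> simp
          rw [e] at hcomm
          have e2 : xGL R.xadd u0 t = (xGL R.xadd r0 (-(c0 : F) * t) * xGL R.xadd s0 1)⁻¹ *
              (xGL R.xadd s0 1 * xGL R.xadd r0 (-(c0 : F) * t)) := by
            rw [hcomm]; group
          rw [e2]
          exact mul_mem (inv_mem (mul_mem (hxr _) (hxs _))) (mul_mem (hxs _) (hxr _))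
      · exact hk s hs

/-- A subgroup containing `n_w` and the root subgroups of the seeds of a certificate contains the group. -/
theorem group_le_of_gCert (R : BRel D F η) {M : Subgroup (GL D.Idx F)} {L : List ℕ} (hL : ValidW D L)
    (hn : R.nW L ∈ M) {steps : List GStep} {seeds : List ℕ} (hc : gCertOK D L steps seeds = true)
    (hseeds : GKnown R M seeds) : D.group F ≤ M := by
  unfold gCertOK at hc
  cases hrun : gRun D L steps seeds with
  | none =>
    rw [hrun] at hc
    exact absurd hc (by simp)
  | some known =>
    rw [hrun] at hc
    have hc' : allBelow D.nroots (fun r => decide (r ∈ known)) = true := hc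
    rw [allBelow_iff] at hc'
    have hk := gRun_sound R hL hn steps seeds known hseeds hrun
    unfold ChevalleyDatum.group
    rw [Subgroup.closure_le]
    rintro g ⟨r, t, hg⟩
    have hg' : g = xGL R.xadd r.val t := by
      apply Units.ext
      rw [hg, xGL_val]
      unfold ChevalleyDatum.x
      rw [dif_pos r.isLt]
    rw [SetLike.mem_coe, hg']
    exact (hk r.val (of_decide_eq_true (hc' r.val r.isLt))).2 t

/-- A subgroup containing `n_w` and the root subgroups of the seeds contains the root subgroup reached. -/
theorem mem_of_gReach (R : BRel D F η) {M : Subgroup (GL D.Idx F)} {L : List ℕ} (hL : ValidW D L)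
    (hn : R.nW L ∈ M) {steps : List GStep} {seeds : List ℕ} {r : ℕ}
    (hc : gReachOK D L steps seeds r = true) (hseeds : GKnown R M seeds) (t : F) :
    xGL R.xadd r t ∈ M := by
  unfold gReachOK at hc
  cases hrun : gRun D L steps seeds with
  | none =>
    rw [hrun] at hc
    exact absurd hc (by simp)
  | some known =>
    rw [hrun] at hc
    have hc' : decide (r ∈ known) = true := hc
    exact (gRun_sound R hL hn steps seeds known hseeds hrun r (of_decide_eq_true hc')).2 t

end sound

end Cfsg.Agent.Helper17
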