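/-
helper17: the pairs of generators of the untwisted Chevalley groups.

* `two_gen_T`: Steinberg's pair `h x_{r₂}(1)`, `x_r(1) n_w` over a field with at least three elements;
* `two_gen_F2_one`, `two_gen_F2_split`, `two_gen_F2_sq`: pairs of generators over the field with two elements.
-/
import Cfsg.Agent.Helper17.TwoGenU

set_option autoImplicit false

namespace Cfsg.Agent.Helper17

open Cfsg Cfsg.Lie Cfsg.Agent.Helper36

section generic

variable {D : ChevalleyDatum} {F : Type*} [Field F] {η : ℕ → ℕ → ℤ}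

theorem xGL_npow (hX : XAdd D F) (r : ℕ) (t : F) (m : ℕ) : (xGL hX r t) ^ m = xGL hX r ((m : F) * t) := by
  induction m with
  | zero => rw [pow_zero, Nat.cast_zero, zero_mul, xGL_zero]
  | succ m ih => rw [pow_succ, ih, xGL_mul, Nat.cast_succ, add_mul, one_mul]

/-- The elements of the diagonal subgroup have order dividing `q - 1`. -/
theorem diag_pow_card [Fintype F] (hD : D ∈ [chevG2, chevB2, chevD4, chevF4, chevE6, chevE7, chevE8])
    {x : GL D.Idx F} (hx : x ∈ D.diagonalSubgroup F) : x ^ (Fintype.card F - 1) = 1 := by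
  rw [diagonalSubgroup_eq_torus (simpleOK_of_mem hD) (hDiag_of_mem hD) (rootElts_of_mem hD),
    ← range_torusHom] at hx
  obtain ⟨u, rfl⟩ := hx
  rw [← map_pow]
  have : u ^ (Fintype.card F - 1) = 1 := by
    funext j
    rw [Pi.pow_apply, Pi.one_apply]
    apply Units.ext
    rw [Units.val_pow_eq_pow_val, Units.val_one]
    exact FiniteField.pow_card_sub_one_eq_one _ (Units.ne_zero _)
  rw [this, map_one]

/-- The torus element `h_{p_i}(C)`. -/
noncomputable def hU (R : BRel D F η) (i : ℕ) (C : F) : GL D.Idx F := hOrb R.xadd [i] (fun _ => C)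

theorem hU_mem (R : BRel D F η) {i : ℕ} (hi : i < D.rank) {C : F} (hC : C ≠ 0) :
    hU R i C ∈ D.diagonalSubgroup F :=
  hOrb_mem_diag R.toNRel (fun k hk => by rw [List.mem_singleton.mp hk]; exact hi) fun _ _ => hC

theorem hU_conj (hD : D ∈ [chevG2, chevB2, chevD4, chevF4, chevE6, chevE7, chevE8]) (R : BRel D F η)
    {i : ℕ} (hi : i < D.rank) {C : F} (hC : C ≠ 0) {s : ℕ} (hs : s < D.nroots) (t : F) :
    hU R i C * xGL R.xadd s t * (hU R i C)⁻¹ = xGL R.xadd s (C ^ D.cartan i s * t) := by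
  rw [hU, hOrb_conj_x (torusFacts_of_mem hD) (simpleOK_of_mem hD) (hDiag_of_mem hD) R.xadd
    (fun k hk => by rw [List.mem_singleton.mp hk]; exact hi) (fun _ _ => hC) hs]
  simp only [List.map_cons, List.map_nil, List.prod_cons, List.prod_nil, mul_one]

/-- The conjugate `n h n⁻¹` acts on `x_{w(s)}` through the character of `h` at `s`. -/
theorem hU_conj' (hD : D ∈ [chevG2, chevB2, chevD4, chevF4, chevE6, chevE7, chevE8]) (R : BRel D F η)
    {L : List ℕ} (hL : ValidW D L) {i : ℕ} (hi : i < D.rank) {C : F} (hC : C ≠ 0) {s' : ℕ}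
    (hs' : s' < D.nroots) (t : F) :
    (R.nW L * hU R i C * (R.nW L)⁻¹) * xGL R.xadd (wW D L s') t * (R.nW L * hU R i C * (R.nW L)⁻¹)⁻¹ =
      xGL R.xadd (wW D L s') (C ^ D.cartan i s' * t) := by
  have hee := R.eW_mul_self (F := F) hL hs'
  have e1 := R.nW_conj_x hL hs' ((eW D η L s' : F) * t)
  rw [← mul_assoc, hee, one_mul] at e1
  have e2 : (R.nW L * hU R i C * (R.nW L)⁻¹) * xGL R.xadd (wW D L s') t *
      (R.nW L * hU R i C * (R.nW L)⁻¹)⁻¹ =
      R.nW L * (hU R i C * xGL R.xadd s' ((eW D η L s' : F) * t) * (hU R i C)⁻¹) * (R.nW L)⁻¹ := by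
    rw [← e1]; group
  rw [e2, hU_conj hD R hi hC hs', R.nW_conj_x hL hs']
  congr 1
  linear_combination (C ^ D.cartan i s' * t) * hee

/-- **Steinberg's pair** over a field with at least three elements. -/
theorem two_gen_T [Fintype F] (hD : D ∈ [chevG2, chevB2, chevD4, chevF4, chevE6, chevE7, chevE8])
    (R : BRel D F η) {L : List ℕ} (hL : ValidW D L) {i r r₂ s' s'' : ℕ} (hi : i < D.rank)
    (hr : r < D.nroots) (hr₂ : r₂ < D.nroots) (hs' : s' < D.nroots) (hs'' : s'' < D.nroots)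
    (hw' : wW D L s' = r) (hw'' : wW D L s'' = r₂) {e e' e'' : ℤ}
    (hc1 : D.cartan i r = e) (he : e = 1 ∨ e = -1) (hc2 : D.cartan i s' = e') (he' : e' = 1 ∨ e' = -1)
    (hc3 : D.cartan i r₂ = 0) (hc4 : D.cartan i s'' = e'') {C : F} (hC0 : C ≠ 0) (hC1 : C ≠ 1)
    (hgen : ∀ t : F, t ≠ 0 → ∃ j : ℕ, t = C ^ j)
    (hspan : ∀ t : F, t ∈ AddSubmonoid.closure (Set.range fun j : ℕ => (C ^ e'') ^ j))
    {steps : List GStep} {seeds : List ℕ} (hcert : gCertOK D L steps seeds = true)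
    (hseeds : ∀ s ∈ seeds, s = r ∨ s = r₂) :
    ∃ a b : ↥(D.group F), Subgroup.closure ({a, b} : Set ↥(D.group F)) = ⊤ := by
  classical
  have hhD : hU R i C ∈ D.diagonalSubgroup F := hU_mem R hi hC0
  have hhG : hU R i C ∈ D.group F := Cfsg.Agent.Helper36.diagonalSubgroup_le_group R.xadd hhD
  have hnG : R.nW L ∈ D.group F :=
    Cfsg.Agent.Helper36.monomialSubgroup_le_group R.xadd (R.nW_mem_monomial hL)
  have hxG : ∀ s t, xGL R.xadd s t ∈ D.group F := fun s t => Cfsg.Agent.Helper36.xGL_mem_group R.xadd s t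
  have haG : hU R i C * xGL R.xadd r₂ 1 ∈ D.group F := mul_mem hhG (hxG _ _)
  have hbG : xGL R.xadd r 1 * R.nW L ∈ D.group F := mul_mem (hxG _ _) hnG
  refine ⟨⟨_, haG⟩, ⟨_, hbG⟩, closure_pair_subtype_top _ _ _ haG hbG ?_⟩
  set S : Subgroup (GL D.Idx F) :=
    Subgroup.closure ({hU R i C * xGL R.xadd r₂ 1, xGL R.xadd r 1 * R.nW L} : Set (GL D.Idx F)) with hS
  have haS : hU R i C * xGL R.xadd r₂ 1 ∈ S := Subgroup.subset_closure (by simp)
  have hbS : xGL R.xadd r 1 * R.nW L ∈ S := Subgroup.subset_closure (by simp)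
  -- `h` is a power of the first generator
  have hcomm : Commute (hU R i C) (xGL R.xadd r₂ 1) := by
    have := hU_conj hD R hi hC0 hr₂ (1 : F)
    rw [hc3, zpow_zero, one_mul] at this
    exact mul_inv_eq_iff_eq_mul.mp this
  have hq : 0 < Fintype.card F := Fintype.card_pos
  have hpow : (hU R i C * xGL R.xadd r₂ 1) ^ Fintype.card F = hU R i C := by
    rw [hcomm.mul_pow, xGL_npow, FiniteField.cast_card_eq_zero, zero_mul, xGL_zero, mul_one]
    have : Fintype.card F = (Fintype.card F - 1) + 1 := by omega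
    rw [this, pow_succ, diag_pow_card hD hhD, one_mul]
  have hhS : hU R i C ∈ S := by
    rw [← hpow]
    exact pow_mem haS _
  have hyS : xGL R.xadd r₂ 1 ∈ S := by
    have : xGL R.xadd r₂ 1 = (hU R i C)⁻¹ * (hU R i C * xGL R.xadd r₂ 1) := by group
    rw [this]
    exact mul_mem (inv_mem hhS) haS
  -- the root subgroup of `r` and `n_w`
  have hv : C ^ e ≠ 1 := by
    rcases he with rfl | rfl
    · rwa [zpow_one]
    · rw [zpow_neg_one]; exact fun h => hC1 (inv_eq_one.mp h)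
  have hv' : C ^ e' ≠ 1 := by
    rcases he' with rfl | rfl
    · rwa [zpow_one]
    · rw [zpow_neg_one]; exact fun h => hC1 (inv_eq_one.mp h)
  have hgenv : ∀ t : F, t ≠ 0 → ∃ j : ℕ, t = (C ^ e) ^ j := by
    intro t ht
    rcases he with rfl | rfl
    · rw [zpow_one]; exact hgen t ht
    · obtain ⟨j, hj⟩ := hgen t⁻¹ (inv_ne_zero ht)
      refine ⟨j, ?_⟩
      rw [zpow_neg_one, inv_pow, ← hj, inv_inv]
  have hcore := two_gen_core (fun t => xGL R.xadd r t) (hU R i C) (R.nW L) (C ^ e) (C ^ e')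
    (fun s t => (xGL_mul R.xadd r s t).symm)
    (fun t => by
      have := hU_conj hD R hi hC0 hr t
      rw [hc1] at this
      exact this)
    (fun t => by
      have := hU_conj' hD R hL hi hC0 hs' t
      rw [hw', hc2] at this
      exact this)
    (diag_commute hD hhD (R.nW_conj_H hL _ hhD))
    (by
      intro t ht
      have hne : (C ^ e - 1) * (1 - C ^ e') ≠ 0 :=
        mul_ne_zero (sub_ne_zero.mpr hv) (sub_ne_zero.mpr (Ne.symm hv'))
      obtain ⟨j, hj⟩ := hgenv (t / ((C ^ e - 1) * (1 - C ^ e'))) (div_ne_zero ht hne)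
      exact ⟨j, by rw [← hj, div_mul_cancel₀ _ hne]⟩)
  have hle : Subgroup.closure ({hU R i C, xGL R.xadd r 1 * R.nW L} : Set (GL D.Idx F)) ≤ S := by
    rw [Subgroup.closure_le]
    intro g hg
    rcases hg with rfl | hg
    · exact hhS
    · rw [Set.mem_singleton_iff.mp hg]; exact hbS
  have hXS : ∀ t, xGL R.xadd r t ∈ S := fun t => hle (hcore.1 t)
  have hnS : R.nW L ∈ S := hle hcore.2
  -- the root subgroup of `r₂`
  have hh'S : R.nW L * hU R i C * (R.nW L)⁻¹ ∈ S := mul_mem (mul_mem hnS hhS) (inv_mem hnS)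
  have hstep : ∀ t : F, xGL R.xadd r₂ t ∈ S → xGL R.xadd r₂ (C ^ e'' * t) ∈ S := by
    intro t ht
    have := hU_conj' hD R hL hi hC0 hs'' t
    rw [hw'', hc4] at this
    rw [← this]
    exact mul_mem (mul_mem hh'S ht) (inv_mem hh'S)
  have hpw : ∀ j : ℕ, xGL R.xadd r₂ ((C ^ e'') ^ j) ∈ S := by
    intro j
    induction j with
    | zero => rw [pow_zero]; exact hyS
    | succ j ih => rw [pow_succ']; exact hstep _ ih
  let A : AddSubmonoid F :=
    { carrier := {t | xGL R.xadd r₂ t ∈ S}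
      add_mem' := fun {a b} ha hb => by
        show xGL R.xadd r₂ (a + b) ∈ S
        rw [← xGL_mul]
        exact mul_mem ha hb
      zero_mem' := by
        show xGL R.xadd r₂ 0 ∈ S
        rw [xGL_zero]
        exact one_mem _ }
  have hA : AddSubmonoid.closure (Set.range fun j : ℕ => (C ^ e'') ^ j) ≤ A := by
    rw [AddSubmonoid.closure_le]
    rintro _ ⟨j, rfl⟩
    exact hpw j
  have hX₂S : ∀ t, xGL R.xadd r₂ t ∈ S := fun t => hA (hspan t)
  refine group_le_of_gCert R hL hnS hcert ?_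
  intro s hs
  rcases hseeds s hs with rfl | rfl
  · exact ⟨hr, hXS⟩
  · exact ⟨hr₂, hX₂S⟩

/-! ### The field with two elements -/

theorem f2_one_of_ne (h2 : ∀ t : F, t = 0 ∨ t = 1) {t : F} (ht : t ≠ 0) : t = 1 := (h2 t).resolve_left ht

theorem f2_all (h2 : ∀ t : F, t = 0 ∨ t = 1) (hX : XAdd D F) {M : Subgroup (GL D.Idx F)} {s : ℕ}
    (h1 : xGL hX s 1 ∈ M) (t : F) : xGL hX s t ∈ M := by
  rcases h2 t with rfl | rfl
  · rw [xGL_zero]; exact one_mem _
  · exact h1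

theorem f2_two (h2 : ∀ t : F, t = 0 ∨ t = 1) : (1 : F) + 1 = 0 := by
  rcases h2 (1 + 1) with h | h
  · exact h
  · exact absurd (by linear_combination h : (1 : F) = 0) one_ne_zero

theorem f2_sq (h2 : ∀ t : F, t = 0 ∨ t = 1) (hX : XAdd D F) (s : ℕ) : xGL hX s 1 * xGL hX s 1 = 1 := by
  rw [xGL_mul, f2_two h2, xGL_zero]

theorem f2_pm (h2 : ∀ t : F, t = 0 ∨ t = 1) {c : ℤ} (hc : c = 1 ∨ c = -1) : -((c : F) * 1 * 1) = 1 := by
  apply f2_one_of_ne h2
  rcases hc with rfl | rfl <;> simp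

theorem f2_conj (h2 : ∀ t : F, t = 0 ∨ t = 1) (R : BRel D F η) {L : List ℕ} (hL : ValidW D L) {s : ℕ}
    (hs : s < D.nroots) : R.nW L * xGL R.xadd s 1 * (R.nW L)⁻¹ = xGL R.xadd (wW D L s) 1 := by
  rw [R.nW_conj_x hL hs, mul_one, f2_one_of_ne h2 (R.eW_ne_zero hL hs)]

/-- One root element and `n_w`. -/
theorem two_gen_F2_one (h2 : ∀ t : F, t = 0 ∨ t = 1) (R : BRel D F η) {L : List ℕ} (hL : ValidW D L)
    {r : ℕ} (hr : r < D.nroots) {steps : List GStep} (hcert : gCertOK D L steps [r] = true) :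
    ∃ a b : ↥(D.group F), Subgroup.closure ({a, b} : Set ↥(D.group F)) = ⊤ := by
  have hnG : R.nW L ∈ D.group F :=
    Cfsg.Agent.Helper36.monomialSubgroup_le_group R.xadd (R.nW_mem_monomial hL)
  have haG : xGL R.xadd r 1 ∈ D.group F := Cfsg.Agent.Helper36.xGL_mem_group R.xadd r 1
  refine ⟨⟨_, haG⟩, ⟨_, hnG⟩, closure_pair_subtype_top _ _ _ haG hnG ?_⟩
  set S : Subgroup (GL D.Idx F) :=
    Subgroup.closure ({xGL R.xadd r 1, R.nW L} : Set (GL D.Idx F)) with hS
  have haS : xGL R.xadd r 1 ∈ S := Subgroup.subset_closure (by simp)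
  have hnS : R.nW L ∈ S := Subgroup.subset_closure (by simp)
  refine group_le_of_gCert R hL hnS hcert ?_
  intro s hs
  rw [List.mem_singleton.mp hs]
  exact ⟨hr, f2_all h2 R.xadd haS⟩

theorem pair_split {G : Type*} [Group G] {s1 s2 r1 r2 z : G} (h21 : Commute s2 r1)
    (e : s1 * r1 = r1 * s1 * z) (h22 : Commute s2 r2) (hz2 : Commute z r2) (h12 : Commute s1 r2)
    (hzs : Commute z s2) : (s1 * s2) * (r1 * r2) = (r1 * r2) * (s1 * s2) * z := by
  calc (s1 * s2) * (r1 * r2) = s1 * ((s2 * r1) * r2) := by simp only [mul_assoc]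
    _ = (s1 * r1) * (s2 * r2) := by rw [h21.eq]; simp only [mul_assoc]
    _ = r1 * (s1 * ((z * r2) * s2)) := by rw [e, h22.eq]; simp only [mul_assoc]
    _ = r1 * ((s1 * r2) * (z * s2)) := by rw [hz2.eq]; simp only [mul_assoc]
    _ = (r1 * r2) * (s1 * s2) * z := by rw [h12.eq, hzs.eq]; simp only [mul_assoc]

/-- The product of two commuting root elements, split by the commutator with a conjugate, and `n_w`. -/
theorem two_gen_F2_split (h2 : ∀ t : F, t = 0 ∨ t = 1) (R : BRel D F η) {L : List ℕ} (hL : ValidW D L)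
    {r r₂ r' r₂' u k : ℕ} {c : ℤ} (hr : r < D.nroots) (hr₂ : r₂ < D.nroots) (hu : u < D.nroots)
    (hk1 : (wW D L)^[k] r = r') (hk2 : (wW D L)^[k] r₂ = r₂')
    (hcl : cleanAt D u r r' c = true) (hc : c = 1 ∨ c = -1)
    (e1 : commEmpty D r₂' r = true) (e2 : commEmpty D r₂' r₂ = true) (e3 : commEmpty D u r₂ = true)
    (e4 : commEmpty D r' r₂ = true) (e5 : commEmpty D u r₂' = true)
    {steps1 : List GStep} (hreach : gReachOK D L steps1 [u] r = true)
    {steps : List GStep} (hcert : gCertOK D L steps [r, r₂] = true) :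
    ∃ a b : ↥(D.group F), Subgroup.closure ({a, b} : Set ↥(D.group F)) = ⊤ := by
  have hnG : R.nW L ∈ D.group F :=
    Cfsg.Agent.Helper36.monomialSubgroup_le_group R.xadd (R.nW_mem_monomial hL)
  have haG : xGL R.xadd r 1 * xGL R.xadd r₂ 1 ∈ D.group F :=
    mul_mem (Cfsg.Agent.Helper36.xGL_mem_group R.xadd r 1) (Cfsg.Agent.Helper36.xGL_mem_group R.xadd r₂ 1)
  refine ⟨⟨_, haG⟩, ⟨_, hnG⟩, closure_pair_subtype_top _ _ _ haG hnG ?_⟩
  set S : Subgroup (GL D.Idx F) :=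
    Subgroup.closure ({xGL R.xadd r 1 * xGL R.xadd r₂ 1, R.nW L} : Set (GL D.Idx F)) with hS
  have haS : xGL R.xadd r 1 * xGL R.xadd r₂ 1 ∈ S := Subgroup.subset_closure (by simp)
  have hnS : R.nW L ∈ S := Subgroup.subset_closure (by simp)
  -- the conjugates by the powers of `n_w`
  have hconj : ∀ j : ℕ, ((wW D L)^[j] r < D.nroots ∧ (wW D L)^[j] r₂ < D.nroots) ∧
      xGL R.xadd ((wW D L)^[j] r) 1 * xGL R.xadd ((wW D L)^[j] r₂) 1 ∈ S := by
    intro j
    induction j with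
    | zero => exact ⟨⟨hr, hr₂⟩, haS⟩
    | succ j ih =>
      obtain ⟨⟨h1, h2'⟩, hm⟩ := ih
      rw [Function.iterate_succ_apply', Function.iterate_succ_apply']
      refine ⟨⟨R.wf.wW_lt hL h1, R.wf.wW_lt hL h2'⟩, ?_⟩
      rw [← f2_conj h2 R hL h1, ← f2_conj h2 R hL h2']
      have : R.nW L * xGL R.xadd ((wW D L)^[j] r) 1 * (R.nW L)⁻¹ *
          (R.nW L * xGL R.xadd ((wW D L)^[j] r₂) 1 * (R.nW L)⁻¹) =
          R.nW L * (xGL R.xadd ((wW D L)^[j] r) 1 * xGL R.xadd ((wW D L)^[j] r₂) 1) * (R.nW L)⁻¹ := by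
        group
      rw [this]
      exact mul_mem (mul_mem hnS hm) (inv_mem hnS)
  have ha'S : xGL R.xadd r' 1 * xGL R.xadd r₂' 1 ∈ S := by
    have := (hconj k).2
    rwa [hk1, hk2] at this
  -- the commutator
  have hsplit := pair_split (commute_of_commEmpty R e1 (1 : F) 1) (xGL_comm_clean R hcl (1 : F) 1)
    (commute_of_commEmpty R e2 (1 : F) 1) (commute_of_commEmpty R e3 (-((c : F) * 1 * 1)) 1)
    (commute_of_commEmpty R e4 (1 : F) 1) (commute_of_commEmpty R e5 (-((c : F) * 1 * 1)) 1)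
  rw [f2_pm h2 hc] at hsplit
  have huS : xGL R.xadd u 1 ∈ S := by
    have : xGL R.xadd u 1 = (xGL R.xadd r 1 * xGL R.xadd r₂ 1 * (xGL R.xadd r' 1 * xGL R.xadd r₂' 1))⁻¹ *
        (xGL R.xadd r' 1 * xGL R.xadd r₂' 1 * (xGL R.xadd r 1 * xGL R.xadd r₂ 1)) := by
      rw [hsplit]; group
    rw [this]
    exact mul_mem (inv_mem (mul_mem haS ha'S)) (mul_mem ha'S haS)
  have hrS : ∀ t, xGL R.xadd r t ∈ S := fun t =>
    mem_of_gReach R hL hnS hreach (fun s hs => by
      rw [List.mem_singleton.mp hs]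
      exact ⟨hu, f2_all h2 R.xadd huS⟩) t
  have hr₂S : xGL R.xadd r₂ 1 ∈ S := by
    have : xGL R.xadd r₂ 1 = (xGL R.xadd r 1)⁻¹ * (xGL R.xadd r 1 * xGL R.xadd r₂ 1) := by group
    rw [this]
    exact mul_mem (inv_mem (hrS 1)) haS
  refine group_le_of_gCert R hL hnS hcert ?_
  intro s hs
  simp only [List.mem_cons, List.not_mem_nil, or_false] at hs
  rcases hs with rfl | rfl
  · exact ⟨hr, hrS⟩
  · exact ⟨hr₂, f2_all h2 R.xadd hr₂S⟩

theorem sq_split {G : Type*} [Group G] {r1 r2 z : G} (e : r2 * r1 = r1 * r2 * z) (h1 : r1 * r1 = 1)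
    (h2 : r2 * r2 = 1) (hz : Commute z r2) : (r1 * r2) * (r1 * r2) = z := by
  calc (r1 * r2) * (r1 * r2) = r1 * ((r2 * r1) * r2) := by simp only [mul_assoc]
    _ = (r1 * r1) * (r2 * (z * r2)) := by rw [e]; simp only [mul_assoc]
    _ = (r2 * r2) * z := by rw [h1, hz.eq, one_mul]; simp only [mul_assoc]
    _ = z := by rw [h2, one_mul]

theorem comm_split {G : Type*} [Group G] {v r1 r2 z : G} (e : v * r1 = r1 * v * z) (hvz : Commute v z)
    (hv2 : Commute v r2) (hrz : Commute r1 z) : v * (r1 * r2) * v⁻¹ * (r1 * r2)⁻¹ = z := by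
  have a1 : v * (r1 * r2) * v⁻¹ * (r1 * r2)⁻¹ = (v * r1) * (r2 * v⁻¹) * r2⁻¹ * r1⁻¹ := by group
  have a2 : r2 * v⁻¹ = v⁻¹ * r2 := (hv2.inv_left.eq).symm
  rw [a1, a2, e]
  have a3 : r1 * v * z * (v⁻¹ * r2) * r2⁻¹ * r1⁻¹ = r1 * (v * z * v⁻¹) * r1⁻¹ := by group
  rw [a3, hvz.eq, mul_inv_cancel_right, hrz.eq, mul_inv_cancel_right]

/-- The product of two root elements whose square is a root element, and `n_w`. -/
theorem two_gen_F2_sq (h2 : ∀ t : F, t = 0 ∨ t = 1) (R : BRel D F η) {L : List ℕ} (hL : ValidW D L)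
    {r r₂ u v u₂ : ℕ} {c c' : ℤ} (hr : r < D.nroots) (hr₂ : r₂ < D.nroots) (hu : u < D.nroots)
    (hu₂ : u₂ < D.nroots)
    (hcl : cleanAt D u r r₂ c = true) (hc : c = 1 ∨ c = -1) (e1 : commEmpty D u r₂ = true)
    {steps1 : List GStep} (hreach1 : gReachOK D L steps1 [u] v = true)
    (hcl' : cleanAt D u₂ r v c' = true) (hc' : c' = 1 ∨ c' = -1)
    (e2 : commEmpty D v r₂ = true) (e3 : commEmpty D v u₂ = true) (e4 : commEmpty D r u₂ = true)
    {steps2 : List GStep} (hreach2 : gReachOK D L steps2 [u, u₂] r = true)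
    {steps : List GStep} (hcert : gCertOK D L steps [r, r₂] = true) :
    ∃ a b : ↥(D.group F), Subgroup.closure ({a, b} : Set ↥(D.group F)) = ⊤ := by
  have hnG : R.nW L ∈ D.group F :=
    Cfsg.Agent.Helper36.monomialSubgroup_le_group R.xadd (R.nW_mem_monomial hL)
  have haG : xGL R.xadd r 1 * xGL R.xadd r₂ 1 ∈ D.group F :=
    mul_mem (Cfsg.Agent.Helper36.xGL_mem_group R.xadd r 1) (Cfsg.Agent.Helper36.xGL_mem_group R.xadd r₂ 1)
  refine ⟨⟨_, haG⟩, ⟨_, hnG⟩, closure_pair_subtype_top _ _ _ haG hnG ?_⟩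
  set S : Subgroup (GL D.Idx F) :=
    Subgroup.closure ({xGL R.xadd r 1 * xGL R.xadd r₂ 1, R.nW L} : Set (GL D.Idx F)) with hS
  have haS : xGL R.xadd r 1 * xGL R.xadd r₂ 1 ∈ S := Subgroup.subset_closure (by simp)
  have hnS : R.nW L ∈ S := Subgroup.subset_closure (by simp)
  -- the square
  have hsq := sq_split (xGL_comm_clean R hcl (1 : F) 1) (f2_sq h2 R.xadd r) (f2_sq h2 R.xadd r₂)
    (commute_of_commEmpty R e1 (-((c : F) * 1 * 1)) 1)
  rw [f2_pm h2 hc] at hsq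
  have huS : xGL R.xadd u 1 ∈ S := by
    rw [← hsq]
    exact mul_mem haS haS
  have hvS : ∀ t, xGL R.xadd v t ∈ S := fun t =>
    mem_of_gReach R hL hnS hreach1 (fun s hs => by
      rw [List.mem_singleton.mp hs]
      exact ⟨hu, f2_all h2 R.xadd huS⟩) t
  -- the commutator with `x_v(1)`
  have hcs := comm_split (r2 := xGL R.xadd r₂ 1) (xGL_comm_clean R hcl' (1 : F) 1)
    (commute_of_commEmpty R e3 (1 : F) (-((c' : F) * 1 * 1)))
    (commute_of_commEmpty R e2 (1 : F) 1) (commute_of_commEmpty R e4 (1 : F) (-((c' : F) * 1 * 1)))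
  rw [f2_pm h2 hc'] at hcs
  have hu₂S : xGL R.xadd u₂ 1 ∈ S := by
    rw [← hcs]
    exact mul_mem (mul_mem (mul_mem (hvS 1) haS) (inv_mem (hvS 1))) (inv_mem haS)
  have hrS : ∀ t, xGL R.xadd r t ∈ S := fun t =>
    mem_of_gReach R hL hnS hreach2 (fun s hs => by
      simp only [List.mem_cons, List.not_mem_nil, or_false] at hs
      rcases hs with rfl | rfl
      · exact ⟨hu, f2_all h2 R.xadd huS⟩
      · exact ⟨hu₂, f2_all h2 R.xadd hu₂S⟩) t
  have hr₂S : xGL R.xadd r₂ 1 ∈ S := by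
    have : xGL R.xadd r₂ 1 = (xGL R.xadd r 1)⁻¹ * (xGL R.xadd r 1 * xGL R.xadd r₂ 1) := by group
    rw [this]
    exact mul_mem (inv_mem (hrS 1)) haS
  refine group_le_of_gCert R hL hnS hcert ?_
  intro s hs
  simp only [List.mem_cons, List.not_mem_nil, or_false] at hs
  rcases hs with rfl | rfl
  · exact ⟨hr, hrS⟩
  · exact ⟨hr₂, f2_all h2 R.xadd hr₂S⟩

end generic

end Cfsg.Agent.Helper17
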