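/-
helper17: piece CV1 of CALL S2314 (helper40) - an ordered list of `m` positive roots generates a subgroup of
order at least `q ^ m` (the coefficients of the ordered product are unique, `coeff_unique`).
-/
import Cfsg.Agent.Helper17.ChevUniMem
import Cfsg.Agent.Helper17.ChevLevi
import Cfsg.Agent.Helper18.NLongAll

set_option autoImplicit false

namespace Cfsg.Agent.Helper17.UCCV1

open Cfsg Cfsg.Lie Cfsg.Agent.Helper17

section Chev

variable {F : Type*} [Field F] [Fintype F] {D : ChevalleyDatum}

theorem card_sub_list (L : List ℕ) (hnd : L.Nodup) : Nat.card {r : ℕ // r ∈ L} = L.length := by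
  classical
  rw [Nat.card_eq_fintype_card, Fintype.card_of_subtype L.toFinset (fun x => List.mem_toFinset),
    List.toFinset_card_of_nodup hnd]

/-- CV1: an ordered list of `m` positive roots generates a subgroup of order at least `q ^ m`. -/
theorem card_rootsSubgroup_ge (hD : D ∈ [chevG2, chevB2, chevD4, chevF4, chevE6, chevE7, chevE8])
    (L : List ℕ) (hs : L.Pairwise (· < ·)) (hp : ∀ r ∈ L, D.IsPosRoot r) :
    Fintype.card F ^ L.length ≤ Nat.card ↥(Cfsg.Agent.Helper17.rootsSubgroup D F L) := by
  classical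
  obtain ⟨f, hW⟩ := wtFacts_of_mem hD
  have hE : RootElts D F := rootElts_of_mem hD
  have hnd : L.Nodup := hs.imp (fun h => ne_of_lt h)
  have hex : ∀ t : {r : ℕ // r ∈ L} → F, ∃ g : GL D.Idx F, g ∈ rootsSubgroup D F L ∧
      (g : Matrix D.Idx D.Idx F) =
        D.wordMat F (L.map fun r => (r, if h : r ∈ L then t ⟨r, h⟩ else 0)) := by
    intro t
    apply exists_wordGL hE L
    intro p hp'
    rw [List.mem_map] at hp'
    obtain ⟨r, hr, rfl⟩ := hp'
    exact hr
  choose g hg hgm using hex
  have hinj : Function.Injective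
      (fun t : {r : ℕ // r ∈ L} → F => (⟨g t, hg t⟩ : ↥(rootsSubgroup D F L))) := by
    intro t₁ t₂ h
    have h1 : g t₁ = g t₂ := congrArg Subtype.val h
    have h2 : D.wordMat F (L.map fun r => (r, if h : r ∈ L then t₁ ⟨r, h⟩ else 0)) =
        D.wordMat F (L.map fun r => (r, if h : r ∈ L then t₂ ⟨r, h⟩ else 0)) := by
      rw [← hgm, ← hgm, h1]
    have h3 := coeff_unique hW hE L hs
      (fun r hr => ⟨(hp r hr).1, (hW.pos r (hp r hr).1).mp (hp r hr)⟩) _ _ h2
    funext ⟨r, hr⟩
    have h4 := h3 r hr
    rw [dif_pos hr, dif_pos hr] at h4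
    exact h4
  have hcard := Nat.card_le_card_of_injective _ hinj
  rw [Nat.card_fun, card_sub_list L hnd, Nat.card_eq_fintype_card] at hcard
  exact hcard

end Chev

end Cfsg.Agent.Helper17.UCCV1
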