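/-
helper17: piece CV3 of CALL S2314 (helper40) - a subgroup of `V ⊓ P_J` of order at least
`q ^ #(positive roots of Φ_J)`: the conjugate by the long element `n₀` of the subgroup generated by the root
subgroups of the positive roots `r` with `w₀ r ∈ Φ_J`.
-/
import Cfsg.Agent.Helper17.UCCV1
import Cfsg.Agent.S1048

set_option autoImplicit false

namespace Cfsg.Agent.Helper17.UCCV3

open Cfsg Cfsg.Lie Cfsg.Agent.Helper17 Cfsg.Agent.Helper36

section Chev

variable {F : Type*} [Field F] [Fintype F] {D : ChevalleyDatum}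

theorem foldr_foldl (hD : D ∈ [chevG2, chevB2, chevD4, chevF4, chevE6, chevE7, chevE8]) (L : List ℕ)
    (hL : ∀ i ∈ L, i < D.rank) : ∀ s < D.nroots,
    L.foldr (fun i s => D.reflectRoot i s) (L.foldl (fun s i => D.reflectRoot i s) s) = s := by
  induction L with
  | nil => intro s _; rfl
  | cons i L ih =>
    intro s hs
    have hi := hL i List.mem_cons_self
    obtain ⟨h1, _, _, h4, _⟩ := Cfsg.Agent.Helper18.reflectRoot_spec D hD i hi s hs
    rw [List.foldl_cons, List.foldr_cons, ih (fun j hj => hL j (List.mem_cons_of_mem _ hj)) _ h1, h4]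

/-- CV3: a subgroup of `V ⊓ P_J` of order at least `q ^ #(positive roots of Φ_J)`. -/
theorem exists_opposite (hD : D ∈ [chevG2, chevB2, chevD4, chevF4, chevE6, chevE7, chevE8])
    (J : Set ℕ) :
    ∃ Y : Subgroup (GL D.Idx F), Y ≤ D.negUnipotent F ∧ Y ≤ D.parabolicSubgroup F J ∧
      Fintype.card F ^ (Nat.card {r : ℕ // D.IsPosRoot r ∧ D.InRootSub J r}) ≤ Nat.card ↥Y := by
  classical
  obtain ⟨L, hchk⟩ := Cfsg.Agent.Helper18.exists_chkLong D hD
  have hmap := Cfsg.Agent.Helper18.map_conj_posUnipotent_of_chkLong (F := F) D hD L hchk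
  have hchk' := hchk
  unfold Cfsg.Agent.Helper18.chkLong at hchk'
  rw [Bool.and_eq_true, Cfsg.Agent.Helper18.allBelow_iff] at hchk'
  have hL := Cfsg.Agent.Helper18.allLt_spec _ _ hchk'.1
  obtain ⟨ω, hC⟩ := rootCoords_of_mem hD
  have W : WFacts D := (bRel_of_mem (F := F) hD).wf
  refine ⟨(rootsSubgroup D F (D.posRoots.filter
    (fun r => decide (D.InRootSub J (L.foldr (fun i s => D.reflectRoot i s) r))))).map
    (MulAut.conj (Cfsg.Agent.Helper18.nProd D hD L)).toMonoidHom, ?_, ?_, ?_⟩
  · rw [← hmap]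
    apply Subgroup.map_mono
    rw [posUnipotent_eq]
    apply Subgroup.closure_mono
    rintro g ⟨r, hr, t, hg⟩
    exact ⟨r, (List.mem_filter.mp hr).1, t, hg⟩
  · rw [Subgroup.map_le_iff_le_comap]
    unfold rootsSubgroup
    rw [Subgroup.closure_le]
    rintro g ⟨r, hr, t, hg⟩
    obtain ⟨hr1, hr2⟩ := List.mem_filter.mp hr
    have hrpos : D.IsPosRoot r := mem_posRoots.mp hr1
    have hrJ : D.InRootSub J (L.foldr (fun i s => D.reflectRoot i s) r) := of_decide_eq_true hr2
    have hg' : g = Cfsg.Agent.Helper18.xU D hD r t := Units.ext hg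
    obtain ⟨ε, hε⟩ := Cfsg.Agent.Helper18.nProd_conj_xU (F := F) D hD L hL hrpos.1 t
    show (MulAut.conj (Cfsg.Agent.Helper18.nProd D hD L)) g ∈ D.parabolicSubgroup F J
    rw [MulAut.conj_apply, hg', hε]
    have hlev : Cfsg.Agent.Helper18.xU D hD (L.foldr (fun i s => D.reflectRoot i s) r) (ε * t) ∈
        D.leviSubgroup F J := by
      unfold ChevalleyDatum.leviSubgroup
      exact Subgroup.mem_sup_right (Subgroup.subset_closure ⟨_, ε * t, hrJ, rfl⟩)
    have hS := (Cfsg.Agent.S1048.result (F := F) D hD J).2.1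
    rw [← hS]
    exact Subgroup.mem_sup_right hlev
  · rw [Subgroup.card_map_of_injective (MulAut.conj (Cfsg.Agent.Helper18.nProd D hD L)).injective]
    have hsorted : (D.posRoots.filter
        (fun r => decide (D.InRootSub J (L.foldr (fun i s => D.reflectRoot i s) r)))).Pairwise (· < ·) :=
      List.Pairwise.filter _ posRoots_sorted
    have h2 := UCCV1.card_rootsSubgroup_ge (F := F) hD _ hsorted
      (fun r hr => mem_posRoots.mp (List.mem_filter.mp hr).1)
    refine le_trans ?_ h2
    apply Nat.pow_le_pow_right Fintype.card_pos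
    rw [← UCCV1.card_sub_list _ (hsorted.imp (fun h => ne_of_lt h))]
    -- the injection `s ↦ w₀⁻¹ (- s)`
    have key : ∀ s : {r : ℕ // D.IsPosRoot r ∧ D.InRootSub J r},
        L.foldl (fun s i => D.reflectRoot i s) (D.neg s.1) ∈ D.posRoots.filter
          (fun r => decide (D.InRootSub J (L.foldr (fun i s => D.reflectRoot i s) r))) := by
      rintro ⟨s, hs, hsJ⟩
      have hnlt : D.neg s < D.nroots := W.neg_lt s hs.1
      have hneg : D.IsNegRoot (D.neg s) := (W.pos_iff_neg s hs.1).mp hs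
      have h3 := hchk'.2 (D.neg s) hnlt
      rw [Bool.and_eq_true] at h3
      have h4 := h3.2
      rw [decide_eq_true hneg, Cfsg.Agent.Helper18.bsel_true, decide_eq_true_eq,
        (Cfsg.Agent.Helper18.bwdN_spec D hD L hL (D.neg s) hnlt).1] at h4
      have hnJ : D.InRootSub J (D.neg s) := by
        refine ⟨hnlt, fun i hi hiJ => ?_⟩
        rw [hC.cor_eq_zero_iff hi hnlt, (hC.add i hi).neg s hs.1,
          (hC.cor_eq_zero_iff hi hs.1).mp (hsJ.2 i hi hiJ), neg_zero]
      rw [List.mem_filter]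
      refine ⟨mem_posRoots.mpr h4, decide_eq_true ?_⟩
      rw [foldr_foldl hD L hL _ hnlt]
      exact hnJ
    apply Nat.card_le_card_of_injective (fun s => (⟨_, key s⟩ : {r : ℕ // r ∈ D.posRoots.filter
      (fun r => decide (D.InRootSub J (L.foldr (fun i s => D.reflectRoot i s) r)))}))
    rintro ⟨s, hs, hsJ⟩ ⟨s', hs', hsJ'⟩ h
    have h1 : L.foldl (fun s i => D.reflectRoot i s) (D.neg s) =
        L.foldl (fun s i => D.reflectRoot i s) (D.neg s') := congrArg Subtype.val h
    have h2 : L.foldr (fun i s => D.reflectRoot i s) (L.foldl (fun s i => D.reflectRoot i s) (D.neg s)) =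
        L.foldr (fun i s => D.reflectRoot i s) (L.foldl (fun s i => D.reflectRoot i s) (D.neg s')) := by
      rw [h1]
    rw [foldr_foldl hD L hL _ (W.neg_lt s hs.1), foldr_foldl hD L hL _ (W.neg_lt s' hs'.1)] at h2
    have h3 : s = s' := by
      rw [← W.neg_neg s hs.1, ← W.neg_neg s' hs'.1, h2]
    subst h3
    rfl

end Chev

end Cfsg.Agent.Helper17.UCCV3
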